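import Mathlib
import Cfsg.Prelude.Def_Characters
import Cfsg.Prelude.Def_Blocks

/-!
# S4503 project (helper22): definitions

`G` finite, `p` a prime with `p ∥ |G|`, `z` of order `p`.
* `Kf p z`: the `p`-regular elements of `C_G(z)` (a subgroup `K` with `C_G(z) = ⟨z⟩ × K`);
* `Ef p z`: the residues `k` with `z ^ k` conjugate to `z` (a subgroup of the units of `ZMod p`);
* `sP p z φ`: the sum of `φ` over the powers of `z`;
* `Tri`, `Str`, `Rk1`, `Loc`, `Small`: the properties of class functions used in the proof.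
-/

set_option autoImplicit false

namespace Cfsg.Agent.Lib.Helper22.BFD

open Cfsg
open scoped ComplexConjugate

variable {G : Type*} [Group G] [Fintype G]

open Classical in
/-- The `p`-regular elements of the centralizer of `z`. -/
noncomputable def Kf (p : ℕ) (z : G) : Finset G :=
  Finset.univ.filter (fun y => y * z = z * y ∧ ¬ p ∣ orderOf y)

open Classical in
/-- The residues `k` with `z ^ k` conjugate to `z`. -/
noncomputable def Ef (p : ℕ) [Fact p.Prime] (z : G) : Finset (ZMod p) :=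
  Finset.univ.filter (fun k : ZMod p => IsConj (z ^ k.val) z)

/-- The sum of `φ` over the powers of `z`. -/
noncomputable def sP (p : ℕ) [Fact p.Prime] (z : G) (φ : G → ℂ) : ℂ :=
  ∑ t : ZMod p, φ (z ^ t.val)

/-- The trichotomy: on the `p`-singular part of `C_G(z)`, `φ` is flat, or constant `±1`, or
constant along `K` with `∑_{t ≠ 0} φ (z ^ t) = ± |E|`. -/
def Tri (p : ℕ) [Fact p.Prime] (z : G) (φ : G → ℂ) : Prop :=
  (∀ t : ZMod p, t ≠ 0 → ∑ y ∈ Kf p z, φ (z ^ t.val * y) = 0) ∨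
  (∃ ε : ℂ, (ε = 1 ∨ ε = -1) ∧ ∀ t : ZMod p, t ≠ 0 → ∀ y ∈ Kf p z, φ (z ^ t.val * y) = ε) ∨
  ((∀ t : ZMod p, t ≠ 0 → ∀ y ∈ Kf p z, φ (z ^ t.val * y) = φ (z ^ t.val)) ∧
    (sP p z φ = φ 1 + ((Ef p z).card : ℂ) ∨ sP p z φ = φ 1 - ((Ef p z).card : ℂ)))

/-- The structure of `χ` on the powers of `z`: `χ (z ^ t) = d * ∑ u, w u * ζ ^ (u t)` (`t ≠ 0`)
with integers `w u`, and the four possible values of `∑_{t ≠ 0} χ (z ^ t)`. -/
def Str (p : ℕ) [Fact p.Prime] (ζ : ℂ) (z : G) (χ : G → ℂ) : Prop :=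
  ∃ (d r e : ℕ) (w : ZMod p → ℤ), 1 ≤ d ∧ r * e = (Ef p z).card ∧
    (∀ t : ZMod p, t ≠ 0 →
      χ (z ^ t.val) = (d : ℂ) * ∑ u : ZMod p, (w u : ℂ) * ζ ^ (u * t).val) ∧
    (sP p z χ = χ 1 + ((d * r * (p - 1) : ℕ) : ℂ) ∨ sP p z χ = χ 1 - ((d * r * (p - 1) : ℕ) : ℂ) ∨
      sP p z χ = χ 1 + ((d * (r * e) : ℕ) : ℂ) ∨ sP p z χ = χ 1 - ((d * (r * e) : ℕ) : ℂ))

/-- The `E`-averages of the functions `y ↦ χ (z ^ t * y)` on `K` are proportional to one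
function `Θ`. -/
def Rk1 (p : ℕ) [Fact p.Prime] (z : G) (χ : G → ℂ) : Prop :=
  ∃ (γ : ZMod p → ℂ) (Θ : G → ℂ), ∀ t : ZMod p, t ≠ 0 → ∀ y ∈ Kf p z,
    ∑ k ∈ Ef p z, χ (z ^ (k * t).val * y) = γ t * Θ y

/-- A "small" character: degree `|E|`, no fixed points of `⟨z⟩`, `K` in the kernel. -/
def Small (p : ℕ) [Fact p.Prime] (z : G) (ψ : G → ℂ) : Prop :=
  ψ 1 = ((Ef p z).card : ℂ) ∧ sP p z ψ = 0 ∧ ∀ y ∈ Kf p z, ψ y = ψ 1

open Classical in
/-- The local structure of `φ` at `z` given by the block of `φ` (Brauer's second and third main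
theorems plus the theory of blocks of defect one). -/
def Loc (p : ℕ) [Fact p.Prime] (ζ : ℂ) (z : G) (φ : G → ℂ) : Prop :=
  ∃ (T : Subgroup G) (θ : G → ℂ) (D : ZMod p → ℂ) (κ : G → ZMod p) (v : ZMod p → ℤ) (d e : ℕ),
    Subgroup.centralizer ({z} : Set G) ≤ T ∧
    T ≤ Subgroup.normalizer ((Subgroup.zpowers z : Subgroup G) : Set G) ∧
    (∀ n ∈ Subgroup.normalizer ((Subgroup.zpowers z : Subgroup G) : Set G),
      n⁻¹ * z * n = z ^ (κ n).val) ∧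
    (∀ t : ZMod p, D t = ∑ a : ZMod p, (v a : ℂ) * ζ ^ (a * t).val) ∧
    (∀ τ ∈ T, ∀ a : ZMod p, v (κ τ * a) = v a) ∧
    1 ≤ d ∧ θ 1 = (d : ℂ) ∧ e = (Subgroup.centralizer ({z} : Set G)).relIndex T ∧
    (∀ t : ZMod p, t ≠ 0 → ∀ s ∈ Kf p z, (Nat.card T : ℂ) * φ (z ^ t.val * s) =
      ∑ n : G, if n ∈ Subgroup.normalizer ((Subgroup.zpowers z : Subgroup G) : Set G) then
        D (κ n * t) * θ (n⁻¹ * s * n) else 0) ∧
    ((∑ s ∈ Kf p z, θ s = 0) ∨ ((∀ s ∈ Kf p z, θ s = 1) ∧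
      T = Subgroup.normalizer ((Subgroup.zpowers z : Subgroup G) : Set G))) ∧
    (∀ n ∈ Subgroup.normalizer ((Subgroup.zpowers z : Subgroup G) : Set G),
      ∑ s ∈ Kf p z, θ (n⁻¹ * s * n) = ∑ s ∈ Kf p z, θ s) ∧
    ((∀ t : ZMod p, t ≠ 0 → D t = 1) ∨ (∀ t : ZMod p, t ≠ 0 → D t = -1) ∨
      (∑ t ∈ Finset.univ.filter (fun t : ZMod p => t ≠ 0), D t = (e : ℂ)) ∨
      (∑ t ∈ Finset.univ.filter (fun t : ZMod p => t ≠ 0), D t = -(e : ℂ)))

end Cfsg.Agent.Lib.Helper22.BFD
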