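import Mathlib
import Cfsg.Prelude.Def_Characters
import Cfsg.Prelude.Def_Blocks
import Cfsg.Agent.Lib.Helper22.BFDefs

/-!
# S4504 project (helper22): definitions

`p` a prime, `ζ` a primitive `p`-th root of unity.
* `Sq p`: the nonzero squares of `ZMod p`;
* `eta p ζ t`: the Gauss period `∑_{a ∈ Sq p} ζ ^ (a t)`;
* `HP p ζ z χ`: the local structure of the project: `z` has order `p`, `C_G(z) = ⟨z⟩ × Z(G)`,
  `z ^ k` is conjugate to `z` exactly for the nonzero squares `k`, and `χ (z ^ t) = eta p ζ t`.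
-/

set_option autoImplicit false

namespace Cfsg.Agent.Lib.Helper22.HPD

open Cfsg

open Classical in
/-- The nonzero squares of `ZMod p`. -/
noncomputable def Sq (p : ℕ) [Fact p.Prime] : Finset (ZMod p) :=
  Finset.univ.filter (fun a : ZMod p => a ≠ 0 ∧ IsSquare a)

/-- The Gauss period `∑_{a ∈ Sq p} ζ ^ (a t)`. -/
noncomputable def eta (p : ℕ) [Fact p.Prime] (ζ : ℂ) (t : ZMod p) : ℂ :=
  ∑ a ∈ Sq p, ζ ^ (a * t).val

/-- The local structure: `z` of order `p`, `ζ` a primitive `p`-th root of unity, `z ^ k ∼ z` iff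
`k` is a nonzero square, `χ (z ^ t) = eta p ζ t`, and `C_G(z) = ⟨z⟩ Z(G)`. -/
structure HP {G : Type*} [Group G] (p : ℕ) [Fact p.Prime] (ζ : ℂ) (z : G) (χ : G → ℂ) : Prop where
  hz : orderOf z = p
  hζ : IsPrimitiveRoot ζ p
  hE : ∀ k : ZMod p, IsConj (z ^ k.val) z ↔ k ∈ Sq p
  hval : ∀ t : ZMod p, χ (z ^ t.val) = eta p ζ t
  hC : ∀ g : G, g * z = z * g → ∃ t : ZMod p, ∃ u ∈ Subgroup.center G, g = z ^ t.val * u

/-- `φ` is trivial on the centre. -/
def TrivZ {G : Type*} [Group G] (φ : G → ℂ) : Prop :=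
  ∀ u ∈ Subgroup.center G, φ u = φ 1

/-- `φ` has the same central character as `χ`. -/
def SameZ {G : Type*} [Group G] (χ φ : G → ℂ) : Prop :=
  ∀ u ∈ Subgroup.center G, φ u * χ 1 = χ u * φ 1

/-- A Galois exponent: `g ↦ g ^ k` fixes the `p`-regular elements, sends `z` into the other
class of elements of order `p` (`k` is a non-square mod `p`), and `φ ↦ φ (· ^ k)` preserves
irreducible characters. -/
structure GalExp (p : ℕ) [Fact p.Prime] (G : Type*) [Group G] (k : ℕ) : Prop where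
  cop : k.Coprime (Nat.card G)
  nsq : (k : ZMod p) ∉ Sq p
  reg : ∀ g : G, ¬ p ∣ orderOf g → g ^ k = g
  irr : ∀ φ : IrrCharacter G, IsIrrCharacter G (fun g => φ.1 (g ^ k))

end Cfsg.Agent.Lib.Helper22.HPD
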