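import Cfsg.Agent.Lib.Helper22.PTDefs
import Cfsg.Agent.Lib.Helper22.PPart

/-!
# S4705 project (helper22, "PT"): auxiliary group theory

`C_G(z) = ⟨z⟩ × Z(G)` and the shape of the `p`-singular elements.
-/

set_option autoImplicit false

namespace Cfsg.Agent.Lib.Helper22.PT

open Cfsg

universe u

variable {G : Type u} [Group G] [Fintype G]

theorem aux_pow_congr (p : ℕ) [Fact p.Prime] (z : G) (hz : orderOf z = p) (a b : ℕ)
    (hab : (a : ZMod p) = (b : ZMod p)) : z ^ a = z ^ b := by
  rw [pow_eq_pow_iff_modEq, hz]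
  exact (ZMod.natCast_eq_natCast_iff a b p).mp hab

theorem aux_zpow_val (p : ℕ) [Fact p.Prime] (z : G) (hz : orderOf z = p) (i : ℤ) :
    z ^ i = z ^ ((i : ZMod p).val) := by
  rw [← zpow_natCast, zpow_eq_zpow_iff_modEq, hz, ZMod.val_intCast]
  exact (Int.mod_modEq i p).symm

theorem aux_sylow (p : ℕ) [Fact p.Prime] (z : G) (hz : orderOf z = p)
    (hsq : ¬ p ^ 2 ∣ Nat.card G) : ∃ Q : Sylow p G, (Q : Subgroup G) = Subgroup.zpowers z := by
  have hp : p.Prime := Fact.out
  have hpg : IsPGroup p (Subgroup.zpowers z) := by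
    apply IsPGroup.of_card (n := 1)
    rw [Nat.card_zpowers, hz, pow_one]
  obtain ⟨Q, hQ⟩ := hpg.exists_le_sylow
  refine ⟨Q, ?_⟩
  have hcardQ : Nat.card Q = p := by
    rw [Sylow.card_eq_multiplicity]
    have hdiv : p ∣ Nat.card G := by
      rw [← hz]
      exact orderOf_dvd_natCard z
    have h1 : (Nat.card G).factorization p = 1 := by
      have hne : Nat.card G ≠ 0 := Nat.card_pos.ne'
      have hle : 1 ≤ (Nat.card G).factorization p :=
        (hp.dvd_iff_one_le_factorization hne).mp hdiv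
      have hlt : ¬ 2 ≤ (Nat.card G).factorization p := fun h2 =>
        hsq ((hp.pow_dvd_iff_le_factorization hne).mpr h2)
      omega
    rw [h1, pow_one]
  symm
  apply Subgroup.eq_of_le_of_card_ge hQ
  rw [hcardQ, Nat.card_zpowers, hz]

/-- Non-trivial powers of `z` are not central. -/
theorem aux_znc (p : ℕ) [Fact p.Prime] (z : G) (ζ : G → ℂ) (h : Hyp G p z ζ) (d : ZMod p)
    (hd : d ≠ 0) : z ^ d.val ∉ Subgroup.center G := by
  intro hmem
  have hz : z ∈ Subgroup.center G := by
    have h1 : z = (z ^ d.val) ^ (d⁻¹).val := by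
      rw [← pow_mul]
      conv_lhs => rw [← pow_one z]
      apply aux_pow_congr p z h.ord
      push_cast
      rw [ZMod.natCast_rightInverse d, ZMod.natCast_rightInverse d⁻¹, mul_inv_cancel₀ hd]
    rw [h1]
    exact Subgroup.pow_mem _ hmem _
  apply h.nn
  constructor
  intro n hn g
  have hn' : n ∈ Subgroup.center G := by
    rw [Subgroup.mem_zpowers_iff] at hn
    obtain ⟨k, rfl⟩ := hn
    exact Subgroup.zpow_mem _ hz k
  have : g * n * g⁻¹ = n := by
    rw [Subgroup.mem_center_iff] at hn'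
    rw [hn' g, mul_inv_cancel_right]
  rw [this]
  exact hn

theorem cdec (p : ℕ) [Fact p.Prime] (z : G) (ζ : G → ℂ) (h : Hyp G p z ζ) (hl : Loc G p z ζ)
    (y : G) (hy : y * z = z * y) :
    ∃ t : ZMod p, ∃ c ∈ Subgroup.center G, y = z ^ t.val * c := by
  have hp : p.Prime := Fact.out
  obtain ⟨Q, hQ⟩ := aux_sylow p z h.ord h.sq
  obtain ⟨x, hx⟩ := Cfsg.Agent.Lib.Helper22.exists_isPPart hp y
  obtain ⟨s, hs⟩ := Cfsg.Agent.Lib.Helper22.isPPart_exists_pow hp hx
  obtain ⟨c, hxc, hcomm, ⟨k, hk⟩, hc⟩ := hx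
  have hyz : Commute y z := hy
  have hxz : Commute x z := by
    rw [hs]
    exact hyz.pow_left s
  have hcz : Commute c z := by
    have : c = x⁻¹ * y := by
      rw [← hxc]
      group
    rw [this]
    exact (hxz.inv_left).mul_left hyz
  have hcc : c ∈ Subgroup.center G := hl.cen c hcz.eq hc
  have hxw : ∀ w ∈ Subgroup.zpowers z, x * w * x⁻¹ = w := by
    intro w hw
    rw [Subgroup.mem_zpowers_iff] at hw
    obtain ⟨j, rfl⟩ := hw
    have := (hxz.zpow_right j).eq
    rw [this, mul_inv_cancel_right]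
  have hxQ : x ∈ (Q : Subgroup G) := by
    have hpx : IsPGroup p (Subgroup.zpowers x) := by
      apply IsPGroup.of_card (n := k)
      rw [Nat.card_zpowers, hk]
    have h1 := hpx.inf_normalizer_sylow Q
    have h2 : x ∈ Subgroup.zpowers x ⊓ Subgroup.normalizer ((Q : Subgroup G) : Set G) := by
      refine Subgroup.mem_inf.mpr ⟨Subgroup.mem_zpowers x, ?_⟩
      rw [hQ]
      refine Subgroup.mem_normalizer_iff.mpr ?_
      intro g
      constructor
      · intro hg
        rw [hxw g hg]
        exact hg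
      · intro hg
        have h3 := hxw _ hg
        have h4 : g = x * g * x⁻¹ := by
          have h5 : x⁻¹ * (x * (x * g * x⁻¹) * x⁻¹) * x = x⁻¹ * (x * g * x⁻¹) * x :=
            congrArg (fun w => x⁻¹ * w * x) h3
          have h6 : x * g * x⁻¹ = g := by
            calc x * g * x⁻¹ = x⁻¹ * (x * (x * g * x⁻¹) * x⁻¹) * x := by group
              _ = x⁻¹ * (x * g * x⁻¹) * x := h5
              _ = g := by group
          exact h6.symm
        rw [h4]
        exact hg
    have h3 : x ∈ Subgroup.zpowers x ⊓ (Q : Subgroup G) := by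
      rw [← h1]
      exact h2
    exact (Subgroup.mem_inf.mp h3).2
  rw [hQ, Subgroup.mem_zpowers_iff] at hxQ
  obtain ⟨i, hi⟩ := hxQ
  refine ⟨(i : ZMod p), c, hcc, ?_⟩
  rw [← aux_zpow_val p z h.ord i, hi, hxc]

theorem ccard (p : ℕ) [Fact p.Prime] (z : G) (ζ : G → ℂ) (h : Hyp G p z ζ) (hl : Loc G p z ζ) :
    Nat.card (Subgroup.centralizer ({z} : Set G)) = p * Nat.card (Subgroup.center G) := by
  have hp : p.Prime := Fact.out
  have : NeZero p := ⟨hp.ne_zero⟩
  have hmem : ∀ tc : ZMod p × Subgroup.center G,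
      z ^ tc.1.val * (tc.2 : G) ∈ Subgroup.centralizer ({z} : Set G) := by
    intro tc
    rw [Subgroup.mem_centralizer_iff]
    intro w hw
    rw [Set.mem_singleton_iff] at hw
    subst hw
    have hc := Subgroup.mem_center_iff.mp tc.2.2 w
    rw [← mul_assoc, ← pow_succ', mul_assoc, ← hc, ← mul_assoc, ← pow_succ]
  let f : ZMod p × Subgroup.center G → Subgroup.centralizer ({z} : Set G) := fun tc =>
    ⟨z ^ tc.1.val * (tc.2 : G), hmem tc⟩
  have hbij : Function.Bijective f := by
    constructor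
    · rintro ⟨t, c⟩ ⟨t', c'⟩ hEq
      have hE : z ^ t.val * (c : G) = z ^ t'.val * (c' : G) := congrArg Subtype.val hEq
      have htt : t = t' := by
        by_contra hne
        have hd : t - t' ≠ 0 := sub_ne_zero.mpr hne
        apply aux_znc p z ζ h (t - t') hd
        have h1 : z ^ t.val = z ^ (t - t').val * z ^ t'.val := by
          rw [← pow_add]
          apply aux_pow_congr p z h.ord
          push_cast
          rw [ZMod.natCast_rightInverse t, ZMod.natCast_rightInverse (t - t'),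
            ZMod.natCast_rightInverse t']
          ring
        rw [h1] at hE
        have hcc' := Subgroup.mem_center_iff.mp c'.2 (z ^ t'.val)
        have h2 : z ^ (t - t').val = (c' : G) * (c : G)⁻¹ := by
          have h3 : z ^ (t - t').val * z ^ t'.val * (c : G) = (c' : G) * z ^ t'.val := by
            rw [hE, hcc']
          have hcc := Subgroup.mem_center_iff.mp c.2 (z ^ t'.val)
          have h4 : z ^ (t - t').val * (c : G) * z ^ t'.val = (c' : G) * z ^ t'.val := by
            rw [mul_assoc, ← hcc, ← mul_assoc]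
            exact h3
          have h5 := mul_right_cancel h4
          rw [← h5, mul_inv_cancel_right]
        rw [h2]
        exact Subgroup.mul_mem _ c'.2 (Subgroup.inv_mem _ c.2)
      subst htt
      have := mul_left_cancel hE
      rw [Prod.mk.injEq]
      exact ⟨rfl, Subtype.ext this⟩
    · rintro ⟨y, hy⟩
      rw [Subgroup.mem_centralizer_iff] at hy
      have hy' := hy z (Set.mem_singleton z)
      obtain ⟨t, c, hc, hyc⟩ := cdec p z ζ h hl y hy'.symm
      refine ⟨(t, ⟨c, hc⟩), ?_⟩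
      apply Subtype.ext
      exact hyc.symm
  rw [← Nat.card_congr (Equiv.ofBijective f hbij), Nat.card_prod, Nat.card_zmod]

theorem psd (p : ℕ) [Fact p.Prime] (z : G) (ζ : G → ℂ) (h : Hyp G p z ζ) (hl : Loc G p z ζ)
    (g : G) (hg : p ∣ orderOf g) : ∃ x : G, ∃ t : ZMod p, t ≠ 0 ∧ ∃ c ∈ Subgroup.center G,
      g = x * (z ^ t.val * c) * x⁻¹ := by
  have hp : p.Prime := Fact.out
  obtain ⟨Q, hQ⟩ := aux_sylow p z h.ord h.sq
  obtain ⟨x, hx⟩ := Cfsg.Agent.Lib.Helper22.exists_isPPart hp g
  obtain ⟨y, hxy, hcomm, ⟨k, hk⟩, hyreg⟩ := hx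
  have hx1 : x ≠ 1 := by
    intro hx1
    rw [hx1, one_mul] at hxy
    rw [hxy] at hyreg
    exact hyreg hg
  have hpx : IsPGroup p (Subgroup.zpowers x) := by
    apply IsPGroup.of_card (n := k)
    rw [Nat.card_zpowers, hk]
  obtain ⟨Q', hQ'⟩ := hpx.exists_le_sylow
  obtain ⟨a, ha⟩ := MulAction.exists_smul_eq G Q' Q
  have hmem : a * x * a⁻¹ ∈ Subgroup.zpowers z := by
    rw [← hQ, ← ha, Sylow.coe_subgroup_smul]
    have := Subgroup.smul_mem_pointwise_smul x (MulAut.conj a)
      (Q' : Subgroup G) (hQ' (Subgroup.mem_zpowers x))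
    simpa using this
  rw [Subgroup.mem_zpowers_iff] at hmem
  obtain ⟨i, hi⟩ := hmem
  have hi' : z ^ ((i : ZMod p).val) = a * x * a⁻¹ := by
    rw [← aux_zpow_val p z h.ord i, hi]
  have ht0 : (i : ZMod p) ≠ 0 := by
    intro h0
    rw [h0, ZMod.val_zero, pow_zero] at hi'
    apply hx1
    have := congrArg (fun w => a⁻¹ * w * a) hi'
    simp only [mul_one, inv_mul_cancel] at this
    rw [this]
    group
  -- the p'-part
  set c := a * y * a⁻¹ with hcdef
  have hcz' : Commute c (z ^ ((i : ZMod p).val)) := by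
    rw [hi', hcdef]
    have := hcomm.symm.eq
    show a * y * a⁻¹ * (a * x * a⁻¹) = a * x * a⁻¹ * (a * y * a⁻¹)
    calc a * y * a⁻¹ * (a * x * a⁻¹) = a * (y * x) * a⁻¹ := by group
      _ = a * (x * y) * a⁻¹ := by rw [this]
      _ = a * x * a⁻¹ * (a * y * a⁻¹) := by group
  have hcz : Commute c z := by
    have h1 : z = (z ^ (i : ZMod p).val) ^ ((i : ZMod p)⁻¹).val := by
      rw [← pow_mul]
      conv_lhs => rw [← pow_one z]
      apply aux_pow_congr p z h.ord
      push_cast
      rw [ZMod.natCast_rightInverse (i : ZMod p), ZMod.natCast_rightInverse (i : ZMod p)⁻¹,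
        mul_inv_cancel₀ ht0]
    rw [h1]
    exact hcz'.pow_right _
  have hcreg : ¬ p ∣ orderOf c := by
    rw [hcdef, Cfsg.Agent.Lib.Helper22.orderOf_conj_eq]
    exact hyreg
  have hcc : c ∈ Subgroup.center G := hl.cen c hcz.eq hcreg
  refine ⟨a⁻¹, (i : ZMod p), ht0, c, hcc, ?_⟩
  rw [hi', hcdef, ← hxy]
  group

end Cfsg.Agent.Lib.Helper22.PT
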