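import Mathlib
import Cfsg.Agent.Lib.Helper22.HPDefs

/-!
# S4504 project (helper22): definitions, part 2 (for the piece STAR)
-/

set_option autoImplicit false

namespace Cfsg.Agent.Lib.Helper22.HPD

open Cfsg
open scoped ComplexConjugate

/-- The Galois twist of an irreducible character. -/
noncomputable def gc {p : ℕ} [Fact p.Prime] {G : Type*} [Group G] {k : ℕ} (hk : GalExp p G k)
    (φ : IrrCharacter G) : IrrCharacter G :=
  ⟨fun g => φ.1 (g ^ k), hk.irr φ⟩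

theorem gc_apply {p : ℕ} [Fact p.Prime] {G : Type*} [Group G] {k : ℕ} (hk : GalExp p G k)
    (φ : IrrCharacter G) (g : G) : (gc hk φ).1 g = φ.1 (g ^ k) := rfl

/-- `χ χ̄`. -/
noncomputable def Pi1 {G : Type*} (χ : G → ℂ) : G → ℂ := fun g => χ g * conj (χ g)

/-- `χ χ̄'` where `χ'` is the Galois twist of `χ`. -/
noncomputable def Pi2 {G : Type*} [Group G] (χ : G → ℂ) (k : ℕ) : G → ℂ :=
  fun g => χ g * conj (χ (g ^ k))

/-- value `1` on the non-trivial powers of `z`. -/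
def IsEp (p : ℕ) [Fact p.Prime] {G : Type*} [Group G] (z : G) (φ : G → ℂ) : Prop :=
  ∀ t : ZMod p, t ≠ 0 → φ (z ^ t.val) = 1

/-- value `-1` on the non-trivial powers of `z`. -/
def IsEm (p : ℕ) [Fact p.Prime] {G : Type*} [Group G] (z : G) (φ : G → ℂ) : Prop :=
  ∀ t : ZMod p, t ≠ 0 → φ (z ^ t.val) = -1

/-- exceptional values of the kind `-η` (degree `e + 1`). -/
def IsXp (p : ℕ) [Fact p.Prime] {G : Type*} [Group G] (ζ : ℂ) (z : G) (k : ℕ) (φ : G → ℂ) : Prop :=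
  (∀ t : ZMod p, t ≠ 0 → φ (z ^ t.val) = -eta p ζ t) ∨
  (∀ t : ZMod p, t ≠ 0 → φ (z ^ t.val) = -eta p ζ ((k : ZMod p) * t))

/-- exceptional values of the kind `η` (degree `e`). -/
def IsXm (p : ℕ) [Fact p.Prime] {G : Type*} [Group G] (ζ : ℂ) (z : G) (k : ℕ) (φ : G → ℂ) : Prop :=
  (∀ t : ZMod p, t ≠ 0 → φ (z ^ t.val) = eta p ζ t) ∨
  (∀ t : ZMod p, t ≠ 0 → φ (z ^ t.val) = eta p ζ ((k : ZMod p) * t))

end Cfsg.Agent.Lib.Helper22.HPD
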