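import Cfsg.Prelude.Def_Blocks

/-!
# General blocks of defect one: basic definitions

* `cj K θ n` : the conjugate of a function `θ` on the subgroup `K` by the element `n` of the
  ambient group: `y ↦ θ (n⁻¹ y n)` (value `0` when `n⁻¹ y n ∉ K`).
* `orb K θ N` : the set of `N`-conjugates of `θ`.
* `Tht K θ N` : the sum of the distinct `N`-conjugates of `θ`.
* `chiT m ω χ` : the function `(g, u) ↦ χ g * ω ^ u` on `G × Multiplicative (ZMod m)`.
-/

set_option autoImplicit false

namespace Cfsg.Agent.Lib.Helper22.TG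

open Cfsg

/-- conjugate of a function on the subgroup `K` by `n` (value `0` where `n⁻¹ y n ∉ K`) -/
noncomputable def cj {G : Type*} [Group G] (K : Subgroup G) (θ : K → ℂ) (n : G) : K → ℂ :=
  fun y => extendByZero K θ (n⁻¹ * (y : G) * n)

theorem cj_apply {G : Type*} [Group G] (K : Subgroup G) (θ : K → ℂ) (n : G) (y : K)
    (h : n⁻¹ * (y : G) * n ∈ K) : cj K θ n y = θ ⟨n⁻¹ * (y : G) * n, h⟩ := by
  unfold cj extendByZero
  exact Subtype.val_injective.extend_apply θ 0 ⟨n⁻¹ * (y : G) * n, h⟩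

theorem cj_one {G : Type*} [Group G] (K : Subgroup G) (θ : K → ℂ) : cj K θ 1 = θ := by
  funext y
  rw [cj_apply K θ 1 y (by simp)]
  congr 1
  ext
  simp

/-- the set of `N`-conjugates of `θ` -/
def orb {G : Type*} [Group G] (K : Subgroup G) (θ : K → ℂ) (N : Subgroup G) : Set (K → ℂ) :=
  {f | ∃ n ∈ N, f = cj K θ n}

/-- the sum of the distinct `N`-conjugates of `θ` -/
noncomputable def Tht {G : Type*} [Group G] (K : Subgroup G) (θ : K → ℂ) (N : Subgroup G) :
    K → ℂ := fun y => ∑ᶠ f ∈ orb K θ N, f y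

/-- the function `(g, u) ↦ χ g * ω ^ u` on `G × Multiplicative (ZMod m)` -/
noncomputable def chiT {G : Type*} (m : ℕ) (ω : ℂ) (χ : G → ℂ) :
    G × Multiplicative (ZMod m) → ℂ :=
  fun g => χ g.1 * ω ^ (Multiplicative.toAdd g.2).val

end Cfsg.Agent.Lib.Helper22.TG
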