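import Mathlib
import Cfsg.Prelude.Def_Blocks
import Cfsg.Prelude.Def_BrauerPairs
import Cfsg.Agent.Lib.Helper81.BrMax2
import Cfsg.Agent.Lib.Helper81.BrMaxChar
import Cfsg.Agent.Lib.Helper81.BrCent
import Cfsg.Agent.Lib.Helper81.BrPair
import Cfsg.Agent.Lib.Helper81.BrOrb
import Cfsg.Agent.Lib.Helper81.BrSubgrp
import Cfsg.Agent.Lib.Helper81.BrChain
import Cfsg.Agent.Lib.Helper22.BrCorrB
import Cfsg.Agent.Lib.Helper22.IndBlock
import Cfsg.Agent.Lib.Helper22.IndDefect
import Cfsg.Agent.S0965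

/-!
# Blocks of a subgroup containing the centralizer of a defect group (helper22)

Let `b` be a block of `H ≤ G` with defect group `D₀` and `C_G(D₀) ≤ H`.

* `centMapEquiv`: the isomorphism `C_H(D₀) ≃* C_G(D₀)`;
* `exists_centralizer_block`: there is a block `f` of `C_G(D₀)` with defect group `Z(D₀)` whose
  induced central character agrees modulo the local ideal with that of `b`;
* `exists_defectGroup_of_induced`: every block of `G` induced by `b` has a defect group `P ≥ D₀`
  with `C_P(D₀) ≤ D₀`.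
-/

set_option autoImplicit false
set_option linter.style.haveILetI false
set_option linter.unusedSectionVars false

namespace Cfsg.Agent.Lib.Helper22

open Cfsg Cfsg.Agent.Lib.Helper4 Cfsg.Agent.Lib.Helper21 Cfsg.Agent.Lib.Helper81

section IndCent

variable {G : Type*} [Group G]

/-- `C_H(D₀) ≃* C_G(D₀)` when `C_G(D₀) ≤ H`. -/
def centMapEquiv (H : Subgroup G) (D₀ : Subgroup H)
    (hC : Subgroup.centralizer ((D₀.map H.subtype : Subgroup G) : Set G) ≤ H) :
    Subgroup.centralizer (D₀ : Set H) ≃*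
      Subgroup.centralizer ((D₀.map H.subtype : Subgroup G) : Set G) where
  toFun c := ⟨((c : H) : G), by
    rw [Subgroup.mem_centralizer_iff]
    rintro _ ⟨d, hd, rfl⟩
    have h1 := Subgroup.mem_centralizer_iff.mp c.2 d hd
    have h2 := congrArg (H.subtype) h1
    simpa using h2⟩
  invFun c := ⟨⟨(c : G), hC c.2⟩, by
    rw [Subgroup.mem_centralizer_iff]
    intro d hd
    apply Subtype.ext
    have h1 := Subgroup.mem_centralizer_iff.mp c.2 (d : G) ⟨d, hd, rfl⟩
    simpa using h1⟩
  left_inv c := by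
    apply Subtype.ext
    apply Subtype.ext
    rfl
  right_inv c := by
    apply Subtype.ext
    rfl
  map_mul' c c' := by
    apply Subtype.ext
    rfl

theorem centMapEquiv_apply (H : Subgroup G) (D₀ : Subgroup H)
    (hC : Subgroup.centralizer ((D₀.map H.subtype : Subgroup G) : Set G) ≤ H)
    (c : Subgroup.centralizer (D₀ : Set H)) :
    ((centMapEquiv H D₀ hC c : Subgroup.centralizer
      ((D₀.map H.subtype : Subgroup G) : Set G)) : G) = ((c : H) : G) := rfl

variable [Fintype G] {p : ℕ} [Fact p.Prime] {M : Ideal AlgInt}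

/-- If the block `f₀` of `C_H(D₀)` induces the block `b` of `H` (inside `H`), then the central
character induced to `G` from the transported block of `C_G(D₀)` agrees modulo the local ideal
with the central character induced from `b`. -/
theorem inducedCentralChar_centMap_sub (hM : IsPModular p M) (H : Subgroup G) (D₀ : Subgroup H)
    (hC : Subgroup.centralizer ((D₀.map H.subtype : Subgroup G) : Set G) ≤ H)
    (f₀ : Set (IrrCharacter (Subgroup.centralizer (D₀ : Set H)))) (b : Set (IrrCharacter H))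
    (hind : IsInducedBlock M (Subgroup.centralizer (D₀ : Set H)) f₀ b)
    (ξ : IrrCharacter (Subgroup.centralizer (D₀ : Set H))) (hξ : ξ ∈ f₀)
    (ζ : IrrCharacter H) (hζ : ζ ∈ b) (g : G) :
    MemLocalIdeal M
      (inducedCentralChar (Subgroup.centralizer ((D₀.map H.subtype : Subgroup G) : Set G))
        (irrMap (centMapEquiv H D₀ hC) ξ :
          Subgroup.centralizer ((D₀.map H.subtype : Subgroup G) : Set G) → ℂ) g -
        inducedCentralChar H (ζ : H → ℂ) g) := by
  classical
  letI : Fintype H := Fintype.ofFinite _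
  letI : Fintype (Subgroup.centralizer (D₀ : Set H)) := Fintype.ofFinite _
  letI : Fintype (Subgroup.centralizer ((D₀.map H.subtype : Subgroup G) : Set G)) :=
    Fintype.ofFinite _
  rw [Cfsg.Agent.S0965.inducedCentralChar_eq_omega, Cfsg.Agent.S0965.inducedCentralChar_eq_omega,
    omega_irrMap]
  set a : H → ℂ := fun h => if IsConj g (h : G) then (1 : ℂ) else 0 with ha
  have hacf : IsClassFunction H a := by
    intro h k
    have e : ((k * h * k⁻¹ : H) : G) = (k : G) * (h : G) * (k : G)⁻¹ := by simp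
    have hiff : IsConj g ((k * h * k⁻¹ : H) : G) ↔ IsConj g (h : G) := by
      rw [e]
      constructor
      · intro h1
        exact h1.trans (isConj_iff.mpr ⟨(k : G)⁻¹, by group⟩)
      · intro h1
        exact h1.trans (isConj_iff.mpr ⟨(k : G), rfl⟩)
    show (if IsConj g ((k * h * k⁻¹ : H) : G) then (1 : ℂ) else 0) =
      if IsConj g (h : G) then (1 : ℂ) else 0
    by_cases h1 : IsConj g (h : G)
    · rw [if_pos h1, if_pos (hiff.mpr h1)]
    · rw [if_neg h1, if_neg (fun h2 => h1 (hiff.mp h2))]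
  have hloc : ∀ h, MemLocalRing M (a h) := by
    intro h
    show MemLocalRing M (if IsConj g (h : G) then (1 : ℂ) else 0)
    by_cases h1 : IsConj g (h : G)
    · rw [if_pos h1]; exact locRing_one hM
    · rw [if_neg h1]; exact locRing_zero hM
  have h1 := omega_indFun_sub_locIdeal hM (Subgroup.centralizer (D₀ : Set H)) f₀ b hind ξ hξ ζ hζ
    a hacf hloc
  rw [omega_indFun_res _ _ _ hacf] at h1
  convert h1 using 3
  · congr 1
    funext k
    show _ = a (k : H)
    rw [ha]
    congr 1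
  · congr 1
    funext h
    rw [ha]
    congr 1

/-- The image of `Z(D₀)` (inside `C_H(D₀)`) under `centMapEquiv`. -/
theorem map_centMapEquiv_center (H : Subgroup G) (D₀ : Subgroup H)
    (hC : Subgroup.centralizer ((D₀.map H.subtype : Subgroup G) : Set G) ≤ H) :
    ((D₀ ⊓ Subgroup.centralizer (D₀ : Set H)).subgroupOf
        (Subgroup.centralizer (D₀ : Set H))).map (centMapEquiv H D₀ hC).toMonoidHom =
      ((D₀.map H.subtype) ⊓
          Subgroup.centralizer ((D₀.map H.subtype : Subgroup G) : Set G)).subgroupOf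
        (Subgroup.centralizer ((D₀.map H.subtype : Subgroup G) : Set G)) := by
  ext c
  constructor
  · rintro ⟨c₀, hc₀, rfl⟩
    rw [Subgroup.mem_subgroupOf]
    have h1 : ((c₀ : H)) ∈ D₀ ⊓ Subgroup.centralizer (D₀ : Set H) :=
      Subgroup.mem_subgroupOf.mp hc₀
    refine ⟨⟨(c₀ : H), h1.1, rfl⟩, ?_⟩
    exact (centMapEquiv H D₀ hC c₀).2
  · intro hc
    rw [Subgroup.mem_subgroupOf] at hc
    obtain ⟨d, hd, hdc⟩ := hc.1
    refine ⟨(centMapEquiv H D₀ hC).symm c, ?_, ?_⟩
    · rw [SetLike.mem_coe, Subgroup.mem_subgroupOf]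
      have e : (((centMapEquiv H D₀ hC).symm c : Subgroup.centralizer (D₀ : Set H)) : H) = d := by
        apply Subtype.ext
        exact hdc.symm
      rw [e]
      refine ⟨hd, ?_⟩
      rw [← e]
      exact ((centMapEquiv H D₀ hC).symm c).2
    · exact (centMapEquiv H D₀ hC).apply_symm_apply c

/-- Let `b` be a block of `H` with defect group `D₀` and `C_G(D₀) ≤ H`.  Then some block `f` of
`C_G(D₀)` has defect group `Z(D₀)` and induces to `G` the same central character (modulo the
local ideal) as `b`. -/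
theorem exists_centralizer_block (hM : IsPModular p M) (H : Subgroup G)
    (b : Set (IrrCharacter H)) (hb : IsPBlock M b) (D₀ : Subgroup H)
    (hD₀ : IsDefectGroup p M b D₀)
    (hC : Subgroup.centralizer ((D₀.map H.subtype : Subgroup G) : Set G) ≤ H) :
    ∃ f : Set (IrrCharacter (Subgroup.centralizer ((D₀.map H.subtype : Subgroup G) : Set G))),
      IsPBlock M f ∧
      IsDefectGroup p M f (((D₀.map H.subtype) ⊓
          Subgroup.centralizer ((D₀.map H.subtype : Subgroup G) : Set G)).subgroupOf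
        (Subgroup.centralizer ((D₀.map H.subtype : Subgroup G) : Set G))) ∧
      ∀ ξ ∈ f, ∀ ζ ∈ b, ∀ g : G, MemLocalIdeal M
        (inducedCentralChar (Subgroup.centralizer ((D₀.map H.subtype : Subgroup G) : Set G))
          (ξ : Subgroup.centralizer ((D₀.map H.subtype : Subgroup G) : Set G) → ℂ) g -
          inducedCentralChar H (ζ : H → ℂ) g) := by
  classical
  letI : Fintype H := Fintype.ofFinite _
  -- a maximal pair of `b`, conjugated onto `D₀`
  obtain ⟨P₀, u, hmax⟩ := exists_maximalBrauerPair hM b hb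
  have hP₀ := isDefectGroup_of_maximal hM b P₀ u hmax
  obtain ⟨x, hx⟩ := defectGroup_conj hM b hb P₀ D₀ hP₀ hD₀
  subst hx
  have hpair := brauerPairOf_conj b P₀ u hmax.1 x
  obtain ⟨P₁, e₁, hmax₁, hle₁⟩ := exists_maximal_above b _ _ hpair
  have hP₁ := isDefectGroup_of_maximal hM b P₁ e₁ hmax₁
  have hcard := card_defectGroup_le hM b hb _ P₁ hD₀ hP₁
  have hDP : P₀.map (MulAut.conj x).toMonoidHom ≤ P₁ := reflTransGen_le _ _ hle₁
  have hDeq : P₀.map (MulAut.conj x).toMonoidHom = P₁ := Subgroup.eq_of_le_of_card_ge hDP hcard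
  have heq := reflTransGen_eq_of_fst_eq hM
    (⟨P₀.map (MulAut.conj x).toMonoidHom, conjBlock P₀ x u⟩ : BrauerPairIdx H) ⟨P₁, e₁⟩ hle₁ hDeq
  have key : ∀ c : BrauerPairIdx H, c = ⟨P₁, e₁⟩ → IsMaximalBrauerPair p M b c.1 c.2 := by
    rintro _ rfl
    exact hmax₁
  have hmax₀ : IsMaximalBrauerPair p M b (P₀.map (MulAut.conj x).toMonoidHom)
      (conjBlock P₀ x u) := key _ heq
  have hdef₀ := isDefectGroup_center_of_maximal hM b _ _ hmax₀
  have hind₀ := (isBrauerPairOf_iff_isInducedBlock hM _ hmax₀.1.1.1 _ b).mp hmax₀.1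
  refine ⟨irrMap (centMapEquiv H _ hC) '' (conjBlock P₀ x u),
    isPBlock_image_irrMap _ hmax₀.1.1.2, ?_, ?_⟩
  · have h1 := isDefectGroup_image_irrMap (p := p) (M := M) (centMapEquiv H _ hC) _ _ hdef₀
    rw [map_centMapEquiv_center] at h1
    exact h1
  · rintro _ ⟨ξ, hξ, rfl⟩ ζ hζ g
    exact inducedCentralChar_centMap_sub hM H _ hC _ b hind₀ ξ hξ ζ hζ g

/-- Let `b` be a block of `H` with defect group `D₀` and `C_G(D₀) ≤ H`.  Then `b` induces a block
of `G`, and every block of `G` induced by `b` has a defect group `P ≥ D₀` with `C_P(D₀) ≤ D₀`. -/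
theorem exists_defectGroup_of_induced (hM : IsPModular p M) (H : Subgroup G)
    (b : Set (IrrCharacter H)) (hb : IsPBlock M b) (D₀ : Subgroup H)
    (hD₀ : IsDefectGroup p M b D₀)
    (hC : Subgroup.centralizer ((D₀.map H.subtype : Subgroup G) : Set G) ≤ H) :
    InducedBlockDefined M H b ∧ ∀ B : Set (IrrCharacter G), IsInducedBlock M H b B →
      ∃ P : Subgroup G, IsDefectGroup p M B P ∧ D₀.map H.subtype ≤ P ∧
        ∀ y ∈ P, y ∈ Subgroup.centralizer ((D₀.map H.subtype : Subgroup G) : Set G) →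
          y ∈ D₀.map H.subtype := by
  classical
  obtain ⟨f, hf, hfdef, hcong⟩ := exists_centralizer_block hM H b hb D₀ hD₀ hC
  have hDp : IsPGroup p (D₀.map H.subtype) := (isDefectGroup_isPGroup b D₀ hD₀).map _
  obtain ⟨ξ₀, hξ₀⟩ := hf
  have hξ₀f : ξ₀ ∈ f := by
    rw [hξ₀]; exact Cfsg.Agent.Lib.Helper22.mem_blockOf_self hM ξ₀
  have hf : IsPBlock M f := ⟨ξ₀, hξ₀⟩
  obtain ⟨ζ₀, hζ₀⟩ := hb
  have hζ₀b : ζ₀ ∈ b := by
    rw [hζ₀]; exact Cfsg.Agent.Lib.Helper22.mem_blockOf_self hM ζ₀
  have hb : IsPBlock M b := ⟨ζ₀, hζ₀⟩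
  constructor
  · obtain ⟨B₁, hB₁⟩ := inducedBlockDefined_centralizer hM _ hDp f hf
    refine ⟨B₁, hb, hB₁.2.1, fun ζ hζ χ hχ g => ?_⟩
    have h1 := hcong ξ₀ hξ₀f ζ hζ g
    have h2 := hB₁.2.2 ξ₀ hξ₀f χ hχ g
    have h3 := locIdeal_sub hM h2 h1
    rw [sub_sub_sub_cancel_left] at h3
    exact h3
  · intro B hB
    have hfB : IsInducedBlock M
        (Subgroup.centralizer ((D₀.map H.subtype : Subgroup G) : Set G)) f B := by
      refine ⟨hf, hB.2.1, fun ξ hξ χ hχ g => ?_⟩
      have h1 := hcong ξ hξ ζ₀ hζ₀b g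
      have h2 := hB.2.2 ζ₀ hζ₀b χ hχ g
      have h3 := locIdeal_add hM h1 h2
      rw [sub_add_sub_cancel] at h3
      exact h3
    have hpair := (isBrauerPairOf_iff_isInducedBlock hM _ hDp f B).mpr hfB
    obtain ⟨P₁, e₁, hmax₁, hle₁⟩ := exists_maximal_above B _ f hpair
    have hP₁ := isDefectGroup_of_maximal hM B P₁ e₁ hmax₁
    have hDP : D₀.map H.subtype ≤ P₁ := reflTransGen_le _ _ hle₁
    obtain ⟨Δ, hΔ, hle⟩ := exists_defectGroup_ge_cent hM P₁ _ e₁ f hmax₁.1.1 hf hle₁
    obtain ⟨x, hx⟩ := defectGroup_conj hM f hf _ Δ hfdef hΔ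
    refine ⟨P₁, hP₁, hDP, fun y hy hyC => ?_⟩
    have h1 : (⟨y, hyC⟩ : Subgroup.centralizer ((D₀.map H.subtype : Subgroup G) : Set G)) ∈ Δ :=
      hle (Subgroup.mem_subgroupOf.mpr ⟨hy, hyC⟩)
    rw [← hx] at h1
    obtain ⟨z, hz, hzy⟩ := h1
    have hz' := Subgroup.mem_subgroupOf.mp hz
    have h2 : y = (z : G) := by
      have h3 := congrArg Subtype.val hzy
      have h4 : (x : G) * (z : G) * (x : G)⁻¹ = y := h3
      have h5 := Subgroup.mem_centralizer_iff.mp x.2 (z : G) hz'.1
      rw [← h4, ← h5]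
      group
    rw [h2]
    exact hz'.1

end IndCent

end Cfsg.Agent.Lib.Helper22
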