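import Mathlib
import Cfsg.Agent.Lib.Helper22.IndCent

/-!
# Maximal Brauer pairs at a given defect group, and their transport to the big group (helper22)

* `exists_maximalBrauerPair_at`: a block has a maximal Brauer pair on any given defect group;
* `isBrauerPairOf_centMap`: if `b` (a block of `H`) induces `B`, `C_G(D₀) ≤ H` and `(D₀, f₀)` is
  a Brauer pair of `b` in `H`, then the transported pair is a Brauer pair of `B` in `G`;
* `isMaximalBrauerPair_of_defectGroup`: a Brauer pair of `B` on a defect group of `B` is maximal;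
* `top_pair`: combination of the three.
-/

set_option autoImplicit false
set_option linter.style.haveILetI false
set_option linter.unusedSectionVars false

namespace Cfsg.Agent.Lib.Helper22

open Cfsg Cfsg.Agent.Lib.Helper4 Cfsg.Agent.Lib.Helper21 Cfsg.Agent.Lib.Helper81

section IndCent2

variable {p : ℕ} [Fact p.Prime] {M : Ideal AlgInt}

/-- A Brauer pair of `B` on a defect group of `B` is a maximal Brauer pair. -/
theorem isMaximalBrauerPair_of_defectGroup {K : Type*} [Group K] [Fintype K]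
    (hM : IsPModular p M) (B : Set (IrrCharacter K)) (P : Subgroup K)
    (e : Set (IrrCharacter (Subgroup.centralizer (P : Set K))))
    (hpair : IsBrauerPairOf p M B P e) (hP : IsDefectGroup p M B P) :
    IsMaximalBrauerPair p M B P e := by
  classical
  obtain ⟨P₁, e₁, hmax₁, hle₁⟩ := exists_maximal_above B P e hpair
  have hP₁ := isDefectGroup_of_maximal hM B P₁ e₁ hmax₁
  have hcard := card_defectGroup_le hM B hpair.2.1 P P₁ hP hP₁
  have hDP : P ≤ P₁ := reflTransGen_le _ _ hle₁
  have hDeq : P = P₁ := Subgroup.eq_of_le_of_card_ge hDP hcard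
  have heq := reflTransGen_eq_of_fst_eq hM (⟨P, e⟩ : BrauerPairIdx K) ⟨P₁, e₁⟩ hle₁ hDeq
  have key : ∀ c : BrauerPairIdx K, c = ⟨P₁, e₁⟩ → IsMaximalBrauerPair p M B c.1 c.2 := by
    rintro _ rfl
    exact hmax₁
  exact key _ heq

/-- A block has a maximal Brauer pair on any given defect group. -/
theorem exists_maximalBrauerPair_at {K : Type*} [Group K] [Fintype K]
    (hM : IsPModular p M) (b : Set (IrrCharacter K)) (hb : IsPBlock M b) (D₀ : Subgroup K)
    (hD₀ : IsDefectGroup p M b D₀) :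
    ∃ f₀ : Set (IrrCharacter (Subgroup.centralizer (D₀ : Set K))),
      IsMaximalBrauerPair p M b D₀ f₀ := by
  classical
  obtain ⟨P₀, u, hmax⟩ := exists_maximalBrauerPair hM b hb
  have hP₀ := isDefectGroup_of_maximal hM b P₀ u hmax
  obtain ⟨x, hx⟩ := defectGroup_conj hM b hb P₀ D₀ hP₀ hD₀
  subst hx
  have hpair := brauerPairOf_conj b P₀ u hmax.1 x
  exact ⟨_, isMaximalBrauerPair_of_defectGroup hM b _ _ hpair hD₀⟩

variable {G : Type*} [Group G] [Fintype G]

/-- Transport of a Brauer pair of `b` (in `H`) to a Brauer pair of the induced block `B`. -/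
theorem isBrauerPairOf_centMap (hM : IsPModular p M) (H : Subgroup G)
    (b : Set (IrrCharacter H)) (B : Set (IrrCharacter G)) (hind : IsInducedBlock M H b B)
    (D₀ : Subgroup H)
    (hC : Subgroup.centralizer ((D₀.map H.subtype : Subgroup G) : Set G) ≤ H)
    (f₀ : Set (IrrCharacter (Subgroup.centralizer (D₀ : Set H))))
    (hpair₀ : IsBrauerPairOf p M b D₀ f₀) :
    IsBrauerPairOf p M B (D₀.map H.subtype) (irrMap (centMapEquiv H D₀ hC) '' f₀) := by
  classical
  letI : Fintype H := Fintype.ofFinite _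
  have hDp : IsPGroup p (D₀.map H.subtype) := hpair₀.1.1.map _
  have hind₀ := (isBrauerPairOf_iff_isInducedBlock hM D₀ hpair₀.1.1 f₀ b).mp hpair₀
  obtain ⟨ζ₀, hζ₀⟩ := hind.1
  have hζ₀b : ζ₀ ∈ b := by
    rw [hζ₀]; exact Cfsg.Agent.Lib.Helper22.mem_blockOf_self hM ζ₀
  refine (isBrauerPairOf_iff_isInducedBlock hM _ hDp _ B).mpr
    ⟨isPBlock_image_irrMap _ hpair₀.1.2, hind.2.1, ?_⟩
  rintro _ ⟨ξ, hξ, rfl⟩ χ hχ g
  have h1 := inducedCentralChar_centMap_sub hM H D₀ hC f₀ b hind₀ ξ hξ ζ₀ hζ₀b g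
  have h2 := hind.2.2 ζ₀ hζ₀b χ hχ g
  have h3 := locIdeal_add hM h1 h2
  rw [sub_add_sub_cancel] at h3
  exact h3

/-- Let `B₁` (a block of `H`) induce `B`, with a defect group `D₁` of `B₁` that is also a defect
group of `B` and satisfies `C_G(D₁) ≤ H`.  Then there is a maximal Brauer pair `(D₁, f₁)` of `B₁`
in `H` whose transport is a maximal Brauer pair of `B` in `G`. -/
theorem top_pair (hM : IsPModular p M) (B : Set (IrrCharacter G)) (H : Subgroup G)
    (B₁ : Set (IrrCharacter H)) (hB₁ : IsInducedBlock M H B₁ B) (D₁ : Subgroup H)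
    (hD₁ : IsDefectGroup p M B₁ D₁)
    (hC : Subgroup.centralizer ((D₁.map H.subtype : Subgroup G) : Set G) ≤ H)
    (hBD : IsDefectGroup p M B (D₁.map H.subtype)) :
    ∃ f₁ : Set (IrrCharacter (Subgroup.centralizer (D₁ : Set H))),
      IsMaximalBrauerPair p M B₁ D₁ f₁ ∧
      IsMaximalBrauerPair p M B (D₁.map H.subtype) (irrMap (centMapEquiv H D₁ hC) '' f₁) := by
  classical
  letI : Fintype H := Fintype.ofFinite _
  obtain ⟨f₁, hmax₁⟩ := exists_maximalBrauerPair_at hM B₁ hB₁.1 D₁ hD₁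
  refine ⟨f₁, hmax₁, ?_⟩
  exact isMaximalBrauerPair_of_defectGroup hM B _ _
    (isBrauerPairOf_centMap hM H B₁ B hB₁ D₁ hC f₁ hmax₁.1) hBD

end IndCent2

end Cfsg.Agent.Lib.Helper22
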