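import Cfsg.Agent.Lib.Helper22.TG7
import Cfsg.Agent.Lib.Helper75.TGMOD

/-!
# General blocks of defect one: Thompson's divisibility (final form)

FINAL FILE of the lattice side (to be landed as `Cfsg/Agent/Lib/Helper22/TG8.lean` once the piece
MOD = `Cfsg.Agent.Lib.Helper75.TG.mod_main` (module `Cfsg.Agent.Lib.Helper75.TGMOD`) is on main).
-/

set_option autoImplicit false

namespace Cfsg.Agent.Lib.Helper22.TG

open Cfsg
open Cfsg.Agent.Lib.Helper75.TG (mod_main)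

universe u v

theorem mod_stmt : ModStmt.{u, v} := by
  intro H _ _ p _ hpH V _ _ _ hV ρ m hm0 hpm hexp ω hω φ hφρ hval
  exact mod_main p hpH hV ρ m hm0 hpm hexp ω hω φ hφρ hval

/-- **Thompson's theorem for a general block of defect one** (lattice side). -/
theorem thompson_gen {G : Type*} [Group G] [Fintype G] (p : ℕ) [Fact p.Prime]
    (M : Ideal AlgInt) (hM : IsPModular p M)
    (z : G) (hz : orderOf z = p) (hp2 : ¬ p ^ 2 ∣ Nat.card G)
    (K : Subgroup G) (hK : ∀ y : G, y ∈ K ↔ (y * z = z * y ∧ ¬ p ∣ orderOf y))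
    (θ : IrrCharacter K) (χ : IrrCharacter G)
    (hsmt : ∀ t ∈ Finset.Ico 1 p, ∃ a : G → ℂ,
      (∀ n, n ∉ Subgroup.normalizer ((Subgroup.zpowers z : Subgroup G) : Set G) → a n = 0) ∧
      ∀ y : K, (χ : G → ℂ) (z ^ t * (y : G)) = ∑ n : G, a n * cj K (θ : K → ℂ) n y)
    (s : ℤ) (hs : (s : ℂ) = ∑ t ∈ Finset.Ico 1 p, (χ : G → ℂ) (z ^ t)) (hs0 : s ≠ 0) :
    s ∣ ((p : ℤ) - 1) *
      ((Nat.card (orb K (θ : K → ℂ)
        (Subgroup.normalizer ((Subgroup.zpowers z : Subgroup G) : Set G))) *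
          charDegree (θ : K → ℂ) : ℕ) : ℤ) :=
  thompson_gen_of mod_stmt p M hM z hz hp2 K hK θ χ hsmt s hs hs0

end Cfsg.Agent.Lib.Helper22.TG
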