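import Mathlib
import Cfsg.Prelude.Def_Blocks
import Cfsg.Prelude.Def_BrauerPairs
import Cfsg.Agent.Lib.Helper81.BlockNormal
import Cfsg.Agent.Lib.Helper81.BrNormal
import Cfsg.Agent.Lib.Helper81.BrOrb
import Cfsg.Agent.Lib.Helper22.IndBlock
import Cfsg.Agent.Lib.Helper22.IndDefect
import Cfsg.Agent.Lib.Helper22.SMT

/-!
# Normal `p'`-subgroups in the kernel of a block (helper22)

* `avgFun X`: the averaging function of a subgroup `X` (`1/|X|` on `X`, zero elsewhere);
* `omega_avgFun_res_of_ker`, `omega_avgFun_res_of_not_ker`: the central character of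
  `θ ∈ Irr(H)` on the restriction of `avgFun X` to `H`;
* `ker_induced_iff`: if `b` (a block of `H`) induces `B` and `X ⊴ G` has order prime to `p`, then
  `X ∩ H ≤ ker b ↔ X ≤ ker B`;
* `ker_normalSubpair_iff`: for a normal inclusion `(Q, f) ⊴ (P, e)` of Brauer pairs and a
  `p'`-subgroup `X ≤ C_G(Q)` normalized by `C_G(Q)` and `P`: `X ≤ ker f ↔ C_X(P) ≤ ker e`.
-/

set_option autoImplicit false
set_option linter.style.haveILetI false
set_option linter.unusedSectionVars false

namespace Cfsg.Agent.Lib.Helper22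

open Cfsg Cfsg.Agent.Lib.Helper4 Cfsg.Agent.Lib.Helper21 Cfsg.Agent.Lib.Helper81

section Avg

variable {G : Type*} [Group G]

open Classical in
/-- The averaging function of a subgroup `X`: `1/|X|` on `X`, zero elsewhere. -/
noncomputable def avgFun (X : Subgroup G) : G → ℂ :=
  fun g => if g ∈ X then ((Nat.card X : ℕ) : ℂ)⁻¹ else 0

theorem avgFun_mem (X : Subgroup G) {g : G} (hg : g ∈ X) :
    avgFun X g = ((Nat.card X : ℕ) : ℂ)⁻¹ := by
  unfold avgFun
  rw [if_pos hg]

theorem avgFun_not_mem (X : Subgroup G) {g : G} (hg : g ∉ X) : avgFun X g = 0 := by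
  unfold avgFun
  rw [if_neg hg]

theorem avgFun_conj (X : Subgroup G) {k : G} (hk : k ∈ Subgroup.normalizer (X : Set G)) (g : G) :
    avgFun X (k * g * k⁻¹) = avgFun X g := by
  have h := Subgroup.mem_normalizer_iff.mp hk g
  by_cases hg : g ∈ X
  · rw [avgFun_mem X hg, avgFun_mem X (h.mp hg)]
  · rw [avgFun_not_mem X hg, avgFun_not_mem X (fun h' => hg (h.mpr h'))]

theorem avgFun_locRing {p : ℕ} {M : Ideal AlgInt} (hM : IsPModular p M) (X : Subgroup G)
    (hX : ¬ p ∣ Nat.card X) (g : G) : MemLocalRing M (avgFun X g) := by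
  by_cases hg : g ∈ X
  · rw [avgFun_mem X hg]
    exact locRing_inv_natCast hM hX
  · rw [avgFun_not_mem X hg]
    exact locRing_zero hM

/-- Abstract form: a function equal to `c` on a subgroup `N` and zero elsewhere, summed against
a function constant on `N`. -/
theorem sum_indicator_mul_of_const {K : Type*} [Group K] [Fintype K] (N : Subgroup K) (c : ℂ)
    (a : K → ℂ) (ha : ∀ k, k ∈ N → a k = c) (ha0 : ∀ k, k ∉ N → a k = 0) (θ : K → ℂ)
    (hθ : ∀ k ∈ N, θ k = θ 1) :
    ∑ k, a k * θ k = c * (Nat.card N : ℂ) * θ 1 := by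
  classical
  have h1 : ∀ k, a k * θ k = if k ∈ N then c * θ 1 else 0 := by
    intro k
    by_cases hk : k ∈ N
    · rw [if_pos hk, ha k hk, hθ k hk]
    · rw [if_neg hk, ha0 k hk, zero_mul]
  rw [Finset.sum_congr rfl (fun k _ => h1 k), ← Finset.sum_filter, Finset.sum_const,
    nsmul_eq_mul]
  have h2 : (Finset.univ.filter (fun k : K => k ∈ N)).card = Nat.card N := by
    rw [Nat.card_eq_fintype_card, Fintype.card_subtype]
  rw [h2]
  ring

/-- Abstract form: a function equal to `c` on a normal subgroup `N` and zero elsewhere, summed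
against an irreducible character not trivial on `N`. -/
theorem sum_indicator_mul_of_not_ker {K : Type*} [Group K] [Fintype K] (N : Subgroup K)
    [N.Normal] (c : ℂ) (a : K → ℂ) (ha : ∀ k, k ∈ N → a k = c) (ha0 : ∀ k, k ∉ N → a k = 0)
    (θ : IrrCharacter K) (x : K) (hx : x ∈ N) (hx1 : (θ : K → ℂ) x ≠ (θ : K → ℂ) 1) :
    ∑ k, a k * (θ : K → ℂ) k = 0 := by
  classical
  have h1 : ∀ k, a k * (θ : K → ℂ) k = if k ∈ N then c * (θ : K → ℂ) k else 0 := by
    intro k
    by_cases hk : k ∈ N
    · rw [if_pos hk, ha k hk]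
    · rw [if_neg hk, ha0 k hk, zero_mul]
  rw [Finset.sum_congr rfl (fun k _ => h1 k), ← Finset.sum_filter, ← Finset.mul_sum,
    Finset.sum_subtype (Finset.univ.filter (fun k : K => k ∈ N)) (p := fun k => k ∈ N) (by simp)
      (fun k => (θ : K → ℂ) k)]
  have h2 := Cfsg.Agent.Lib.Helper83.irr_sum_normal_eq_zero N θ.2 x hx hx1 1
  simp only [one_mul] at h2
  rw [h2, mul_zero]

variable [Fintype G]

/-- The central character on the restriction of `avgFun X` to `H`, when `X ∩ H ≤ ker θ`. -/
theorem omega_avgFun_res_of_ker (H : Subgroup G) [Fintype H] (X : Subgroup G)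
    (θ : IrrCharacter H) (hθ : ∀ h : H, (h : G) ∈ X → (θ : H → ℂ) h = (θ : H → ℂ) 1) :
    omega (θ : H → ℂ) (fun h : H => avgFun X (h : G)) =
      (Nat.card (X.subgroupOf H) : ℂ) / (Nat.card X : ℂ) := by
  rw [omega_def, sum_indicator_mul_of_const (X.subgroupOf H) ((Nat.card X : ℕ) : ℂ)⁻¹
    (fun h : H => avgFun X (h : G)) (fun k hk => avgFun_mem X (Subgroup.mem_subgroupOf.mp hk))
    (fun k hk => avgFun_not_mem X (fun h' => hk (Subgroup.mem_subgroupOf.mpr h')))
    (θ : H → ℂ) (fun k hk => hθ k (Subgroup.mem_subgroupOf.mp hk))]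
  have h1 := irr_one_ne_zero θ
  field_simp

/-- The central character on the restriction of `avgFun X` to `H`, when `X ∩ H ≰ ker θ`. -/
theorem omega_avgFun_res_of_not_ker (H : Subgroup G) [Fintype H] (X : Subgroup G)
    (hXH : H ≤ Subgroup.normalizer (X : Set G))
    (θ : IrrCharacter H) (h₀ : H) (hh₀ : (h₀ : G) ∈ X)
    (hne : (θ : H → ℂ) h₀ ≠ (θ : H → ℂ) 1) :
    omega (θ : H → ℂ) (fun h : H => avgFun X (h : G)) = 0 := by
  haveI hn : (X.subgroupOf H).Normal := by
    constructor
    intro n hn g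
    rw [Subgroup.mem_subgroupOf] at hn ⊢
    have h1 := Subgroup.mem_normalizer_iff.mp (hXH g.2) (n : G)
    have e : ((g * n * g⁻¹ : H) : G) = (g : G) * (n : G) * (g : G)⁻¹ := by simp
    rw [e]
    exact h1.mp hn
  rw [omega_def, sum_indicator_mul_of_not_ker (X.subgroupOf H) ((Nat.card X : ℕ) : ℂ)⁻¹
    (fun h : H => avgFun X (h : G)) (fun k hk => avgFun_mem X (Subgroup.mem_subgroupOf.mp hk))
    (fun k hk => avgFun_not_mem X (fun h' => hk (Subgroup.mem_subgroupOf.mpr h')))
    θ h₀ (Subgroup.mem_subgroupOf.mpr hh₀) hne, zero_div]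

/-- `|X ∩ H| / |X|` is a unit of the local ring when `p ∤ |X|`. -/
theorem card_ratio_not_locIdeal {p : ℕ} {M : Ideal AlgInt} (hM : IsPModular p M)
    (H X : Subgroup G) :
    ¬ MemLocalIdeal M ((Nat.card (X.subgroupOf H) : ℂ) / (Nat.card X : ℂ)) := by
  intro hcon
  have hdvd : Nat.card (X.subgroupOf H) ∣ Nat.card X := by
    let φ : X.subgroupOf H →* X :=
      { toFun := fun h => ⟨((h : H) : G), Subgroup.mem_subgroupOf.mp h.2⟩
        map_one' := rfl
        map_mul' := fun _ _ => rfl }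
    have hφ : Function.Injective φ := by
      intro a b hab
      apply Subtype.ext
      apply Subtype.ext
      exact congrArg (fun z : X => (z : G)) hab
    exact Subgroup.card_dvd_of_injective φ hφ
  obtain ⟨m, hm⟩ := hdvd
  have hpos : (Nat.card (X.subgroupOf H) : ℂ) ≠ 0 := by exact_mod_cast Nat.card_pos.ne'
  have hXpos : Nat.card X ≠ 0 := Nat.card_pos.ne'
  have hm0 : (m : ℂ) ≠ 0 := by
    have : m ≠ 0 := by
      rintro rfl
      rw [mul_zero] at hm
      exact hXpos hm
    exact_mod_cast this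
  have h1 := locIdeal_mul_left hM (locRing_natCast hM m) hcon
  have e : (m : ℂ) * ((Nat.card (X.subgroupOf H) : ℂ) / (Nat.card X : ℂ)) = 1 := by
    rw [hm]
    push_cast
    field_simp
  rw [e] at h1
  exact locIdeal_one_not hM h1

variable {p : ℕ} [Fact p.Prime] {M : Ideal AlgInt}

/-- **Kernels and induced blocks.**  If the block `b` of `H` induces the block `B` of `G` and
`X` is a normal subgroup of `G` of order prime to `p`, then `X ∩ H` lies in the kernel of `b` if
and only if `X` lies in the kernel of `B`. -/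
theorem ker_induced_iff (hM : IsPModular p M) (H : Subgroup G) (b : Set (IrrCharacter H))
    (B : Set (IrrCharacter G)) (hind : IsInducedBlock M H b B) (X : Subgroup G) [X.Normal]
    (hX : ¬ p ∣ Nat.card X) :
    (∀ θ ∈ b, ∀ h : H, (h : G) ∈ X → (θ : H → ℂ) h = (θ : H → ℂ) 1) ↔
      (∀ χ ∈ B, ∀ x ∈ X, (χ : G → ℂ) x = (χ : G → ℂ) 1) := by
  classical
  letI : Fintype H := Fintype.ofFinite _
  have hXn : ∀ k : G, k ∈ Subgroup.normalizer (X : Set G) := by
    intro k
    rw [Subgroup.normalizer_eq_top]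
    exact Subgroup.mem_top k
  have hacf : IsClassFunction G (avgFun X) := fun g k => avgFun_conj X (hXn k) g
  have hloc : ∀ g, MemLocalRing M (avgFun X g) := avgFun_locRing hM X hX
  have key : ∀ ξ ∈ b, ∀ χ ∈ B, MemLocalIdeal M
      (omega (ξ : H → ℂ) (fun h : H => avgFun X (h : G)) - omega (χ : G → ℂ) (avgFun X)) := by
    intro ξ hξ χ hχ
    have h1 := omega_indFun_sub_locIdeal hM H b B hind ξ hξ χ hχ (avgFun X) hacf hloc
    rw [omega_indFun_res _ _ _ hacf] at h1
    exact h1
  -- the central character of `χ` on `avgFun X`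
  have hG1 : ∀ χ : IrrCharacter G, (∀ x ∈ X, (χ : G → ℂ) x = (χ : G → ℂ) 1) →
      omega (χ : G → ℂ) (avgFun X) = 1 := by
    intro χ hχ
    rw [omega_def, sum_indicator_mul_of_const X ((Nat.card X : ℕ) : ℂ)⁻¹ (avgFun X)
      (fun k hk => avgFun_mem X hk) (fun k hk => avgFun_not_mem X hk) (χ : G → ℂ) hχ]
    have h1 := irr_one_ne_zero χ
    have h2 : (Nat.card X : ℂ) ≠ 0 := by exact_mod_cast Nat.card_pos.ne'
    field_simp
  have hG0 : ∀ χ : IrrCharacter G, (∃ x ∈ X, (χ : G → ℂ) x ≠ (χ : G → ℂ) 1) →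
      omega (χ : G → ℂ) (avgFun X) = 0 := by
    rintro χ ⟨x, hx, hne⟩
    rw [omega_def, sum_indicator_mul_of_not_ker X ((Nat.card X : ℕ) : ℂ)⁻¹ (avgFun X)
      (fun k hk => avgFun_mem X hk) (fun k hk => avgFun_not_mem X hk) χ x hx hne, zero_div]
  obtain ⟨ξ₀, hξ₀⟩ := hind.1
  have hξ₀b : ξ₀ ∈ b := by
    rw [hξ₀]; exact Cfsg.Agent.Lib.Helper22.mem_blockOf_self hM ξ₀
  obtain ⟨χ₀, hχ₀⟩ := hind.2.1
  have hχ₀B : χ₀ ∈ B := by
    rw [hχ₀]; exact Cfsg.Agent.Lib.Helper22.mem_blockOf_self hM χ₀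
  constructor
  · intro hb χ hχ
    by_contra hcon
    push Not at hcon
    have h1 := key ξ₀ hξ₀b χ hχ
    rw [hG0 χ hcon, sub_zero, omega_avgFun_res_of_ker H X ξ₀ (hb ξ₀ hξ₀b)] at h1
    exact card_ratio_not_locIdeal hM H X h1
  · intro hB θ hθ
    by_contra hcon
    push Not at hcon
    obtain ⟨h₀, hh₀, hne⟩ := hcon
    have h1 := key θ hθ χ₀ hχ₀B
    rw [hG1 χ₀ (hB χ₀ hχ₀B), omega_avgFun_res_of_not_ker H X (fun k _ => hXn k) θ h₀ hh₀ hne,
      zero_sub] at h1
    have h2 := locIdeal_neg h1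
    rw [neg_neg] at h2
    exact locIdeal_one_not hM h2

end Avg

section NormalStep

variable {G : Type*} [Group G]

/-- `X ∩ K` lies in the kernel of every member of the set `f` of irreducible characters of the
subgroup `K`. -/
def KerOn (K : Subgroup G) (f : Set (IrrCharacter K)) (X : Subgroup G) : Prop :=
  ∀ θ ∈ f, ∀ c : K, (c : G) ∈ X → (θ : K → ℂ) c = (θ : K → ℂ) 1

variable [Fintype G] {p : ℕ} [Fact p.Prime] {M : Ideal AlgInt}

/-- **Kernels along a normal inclusion of Brauer pairs.**  Let `(Q, f) ⊴ (P, e)` and let `X` be a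
subgroup of `C_G(Q)` of order prime to `p`, normalized by `C_G(Q)` and by `P`.  Then `X` lies in
the kernel of `f` if and only if `C_X(P)` lies in the kernel of `e`. -/
theorem ker_normalSubpair_iff (hM : IsPModular p M) (Q P : Subgroup G)
    (f : Set (IrrCharacter (Subgroup.centralizer (Q : Set G))))
    (e : Set (IrrCharacter (Subgroup.centralizer (P : Set G))))
    (h : IsNormalSubpair p M Q f P e) (X : Subgroup G)
    (hXC : X ≤ Subgroup.centralizer (Q : Set G))
    (hXn : Subgroup.centralizer (Q : Set G) ≤ Subgroup.normalizer (X : Set G))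
    (hXP : P ≤ Subgroup.normalizer (X : Set G)) (hX : ¬ p ∣ Nat.card X) :
    KerOn (Subgroup.centralizer (Q : Set G)) f X ↔ KerOn (Subgroup.centralizer (P : Set G)) e X := by
  classical
  obtain ⟨hQf, hPe, hQP, hPN, hstab, hΛ⟩ := h
  letI : Fintype (Subgroup.centralizer (Q : Set G)) := Fintype.ofFinite _
  letI : Fintype (Subgroup.centralizer (P : Set G)) := Fintype.ofFinite _
  have hCPK : Subgroup.centralizer (P : Set G) ≤ Subgroup.centralizer (Q : Set G) :=
    Subgroup.centralizer_le hQP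
  have ha0 : ∀ g, g ∉ Subgroup.centralizer (Q : Set G) → avgFun X g = 0 :=
    fun g hg => avgFun_not_mem X (fun h' => hg (hXC h'))
  have haK : IsClassFunction (Subgroup.centralizer (Q : Set G))
      (resTo (Subgroup.centralizer (Q : Set G)) (avgFun X)) := by
    intro g k
    show avgFun X ((k * g * k⁻¹ : Subgroup.centralizer (Q : Set G)) : G) = avgFun X (g : G)
    have e1 : ((k * g * k⁻¹ : Subgroup.centralizer (Q : Set G)) : G) =
        (k : G) * (g : G) * (k : G)⁻¹ := by simp
    rw [e1]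
    exact avgFun_conj X (hXn k.2) (g : G)
  have hβ := brStable_subgroupBlockCoeff hM Q P hQP f hQf.2 hstab
  have ha : BrStable M P (avgFun X) :=
    ⟨avgFun_locRing hM X hX, fun r hr g => avgFun_conj X (hXP hr) g,
      fun c hc g => avgFun_conj X (hXn (hCPK hc)) g⟩
  have hconv : conv (subgroupBlockCoeff (Subgroup.centralizer (Q : Set G)) f) (avgFun X) =
      extendByZero (Subgroup.centralizer (Q : Set G))
        (conv (blockCoeff f) (resTo (Subgroup.centralizer (Q : Set G)) (avgFun X))) := by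
    rw [← extendByZero_conv, ← subgroupBlockCoeff_eq_extendByZero,
      ← extendByZero_resTo (Subgroup.centralizer (Q : Set G)) (avgFun X) ha0]
  have hcardK : Nat.card (X.subgroupOf (Subgroup.centralizer (Q : Set G))) = Nat.card X :=
    Nat.card_congr (Subgroup.subgroupOfEquivOfLe hXC).toEquiv
  have hXpos : (Nat.card X : ℂ) ≠ 0 := by exact_mod_cast Nat.card_pos.ne'
  have hbr : ∀ ξ : IrrCharacter (Subgroup.centralizer (P : Set G)),
      brauerOmega P (avgFun X) (ξ : Subgroup.centralizer (P : Set G) → ℂ) =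
        omega (ξ : Subgroup.centralizer (P : Set G) → ℂ)
          (fun c : Subgroup.centralizer (P : Set G) => avgFun X (c : G)) := by
    intro ξ
    rw [brauerOmega_eq_omega_resTo]
    rfl
  constructor
  · intro hf ξ hξ c hc
    by_contra hne
    have hc1 : conv (blockCoeff f) (resTo (Subgroup.centralizer (Q : Set G)) (avgFun X)) =
        blockCoeff f := by
      refine Cfsg.Agent.Lib.Helper22.eq_of_omega_eq _ _
        (conv_isClassFunction (blockCoeff_isClassFunction f) haK)
        (blockCoeff_isClassFunction f) fun ψ => ?_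
      rw [omega_conv ψ _ _ (blockCoeff_isClassFunction f) haK, omega_blockCoeff]
      by_cases hψ : ψ ∈ f
      · rw [if_pos hψ, one_mul]
        have h2 := omega_avgFun_res_of_ker (Subgroup.centralizer (Q : Set G)) X ψ (hf ψ hψ)
        rw [hcardK, div_self hXpos] at h2
        exact h2
      · rw [if_neg hψ, zero_mul]
    rw [hc1, ← subgroupBlockCoeff_eq_extendByZero] at hconv
    have h1 := brauerOmega_conv hM P hPe.1 hβ ha ξ
    rw [hconv, hbr ξ, omega_avgFun_res_of_not_ker (Subgroup.centralizer (P : Set G)) X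
      (hCPK.trans hXn) ξ c hc hne, mul_zero, sub_zero] at h1
    have h2 := locIdeal_sub hM h1 (hΛ ξ hξ)
    rw [sub_sub_cancel] at h2
    exact locIdeal_one_not hM h2
  · intro he
    by_contra hcon
    unfold KerOn at hcon
    push Not at hcon
    obtain ⟨θ₀, hθ₀, c₀, hc₀, hne₀⟩ := hcon
    haveI hn : (X.subgroupOf (Subgroup.centralizer (Q : Set G))).Normal := by
      constructor
      intro n hn g
      rw [Subgroup.mem_subgroupOf] at hn ⊢
      have h1 := Subgroup.mem_normalizer_iff.mp (hXn g.2) (n : G)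
      have e1 : ((g * n * g⁻¹ : Subgroup.centralizer (Q : Set G)) : G) =
          (g : G) * (n : G) * (g : G)⁻¹ := by simp
      rw [e1]
      exact h1.mp hn
    have hcardN : ¬ p ∣ Nat.card (X.subgroupOf (Subgroup.centralizer (Q : Set G))) := by
      rw [hcardK]; exact hX
    have hall : ∀ ψ ∈ f, ∃ c : Subgroup.centralizer (Q : Set G), (c : G) ∈ X ∧
        (ψ : Subgroup.centralizer (Q : Set G) → ℂ) c ≠
          (ψ : Subgroup.centralizer (Q : Set G) → ℂ) 1 := by
      intro ψ hψ
      by_contra hno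
      push Not at hno
      have hsame : SameBlock M (θ₀ : Subgroup.centralizer (Q : Set G) → ℂ)
          (ψ : Subgroup.centralizer (Q : Set G) → ℂ) := by
        have h3 := Cfsg.Agent.Lib.Helper79.blockOf_eq_of_mem hM hQf.2 hθ₀
        rw [h3] at hψ
        exact hψ
      have h4 := ker_of_sameBlock hM (X.subgroupOf (Subgroup.centralizer (Q : Set G))) hcardN
        θ₀ ψ hsame (fun n hn => hno n (Subgroup.mem_subgroupOf.mp hn))
      exact hne₀ (h4 c₀ (Subgroup.mem_subgroupOf.mpr hc₀))
    have hc0 : conv (blockCoeff f) (resTo (Subgroup.centralizer (Q : Set G)) (avgFun X)) =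
        fun _ => 0 := by
      refine Cfsg.Agent.Lib.Helper22.eq_of_omega_eq _ _
        (conv_isClassFunction (blockCoeff_isClassFunction f) haK) (fun _ _ => rfl) fun ψ => ?_
      rw [omega_conv ψ _ _ (blockCoeff_isClassFunction f) haK, omega_blockCoeff]
      have hz : omega (ψ : Subgroup.centralizer (Q : Set G) → ℂ) (fun _ => 0) = 0 := by
        simp [omega_def]
      rw [hz]
      by_cases hψ : ψ ∈ f
      · obtain ⟨c, hc, hne⟩ := hall ψ hψ
        rw [if_pos hψ, one_mul]
        exact omega_avgFun_res_of_not_ker (Subgroup.centralizer (Q : Set G)) X hXn ψ c hc hne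
      · rw [if_neg hψ, zero_mul]
    have hconv0 : conv (subgroupBlockCoeff (Subgroup.centralizer (Q : Set G)) f) (avgFun X) =
        0 := by
      rw [hconv, hc0]
      funext g
      by_cases hg : g ∈ Subgroup.centralizer (Q : Set G)
      · rw [extendByZero_apply_mem' _ _ hg]; rfl
      · rw [extendByZero_apply_not_mem _ _ hg]; rfl
    obtain ⟨ξ₀, hξ₀⟩ := hPe.2
    have hξ₀e : ξ₀ ∈ e := by
      rw [hξ₀]; exact Cfsg.Agent.Lib.Helper22.mem_blockOf_self hM ξ₀
    have h1 := brauerOmega_conv hM P hPe.1 hβ ha ξ₀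
    rw [hconv0, brauerOmega_zero, zero_sub] at h1
    have h2 := locIdeal_neg h1
    rw [neg_neg] at h2
    have h3 := locIdeal_mul_right hM (hΛ ξ₀ hξ₀e) (brauerOmega_locRing hM P ha ξ₀)
    have h4 := locIdeal_sub hM h2 h3
    have e4 : brauerOmega P (subgroupBlockCoeff (Subgroup.centralizer (Q : Set G)) f)
          (ξ₀ : Subgroup.centralizer (P : Set G) → ℂ) *
        brauerOmega P (avgFun X) (ξ₀ : Subgroup.centralizer (P : Set G) → ℂ) -
        (brauerOmega P (subgroupBlockCoeff (Subgroup.centralizer (Q : Set G)) f)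
          (ξ₀ : Subgroup.centralizer (P : Set G) → ℂ) - 1) *
        brauerOmega P (avgFun X) (ξ₀ : Subgroup.centralizer (P : Set G) → ℂ) =
        brauerOmega P (avgFun X) (ξ₀ : Subgroup.centralizer (P : Set G) → ℂ) := by ring
    rw [e4, hbr ξ₀, omega_avgFun_res_of_ker (Subgroup.centralizer (P : Set G)) X ξ₀
      (he ξ₀ hξ₀e)] at h4
    exact card_ratio_not_locIdeal hM _ X h4

end NormalStep

end Cfsg.Agent.Lib.Helper22
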