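import Mathlib
import Cfsg.Prelude.Def_OddOrderLocal
import Cfsg.Agent.Lib.Helper22.BlockKer
import Cfsg.Agent.Lib.Helper22.IndCent2
import Cfsg.Agent.Lib.Helper32.Trans3
import Cfsg.Agent.Lib.Helper40.PiCore
import Cfsg.Agent.Lib.Helper81.BrConj

/-!
# `π'`-cores of centralizers in the kernels of the blocks of Brauer pairs (helper22)

Fix a set of primes `π ∋ p`.  For a Brauer pair `(Q, f)`:

* `KD π Q f`: `O_{π'}(C_G(Q))` lies in the kernel of `f`;
* `KU1 π Q f`: every `π'`-element of `C_G(Q)` lies in the kernel of `f`;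
* `HallC π Q`: every `π'`-element of `C_G(Q)` lies in `O_{π'}(C_G(Q))`.

`KD` passes down along inclusions of Brauer pairs (`kd_of_le`), `KU1 ∧ HallC` passes up
(`ku_of_le`); both are compatible with conjugation, and with the transport `centMapEquiv`.
-/

set_option autoImplicit false
set_option linter.style.haveILetI false
set_option linter.unusedSectionVars false

namespace Cfsg.Agent.Lib.Helper22

open Cfsg Cfsg.Agent.Lib.Helper4 Cfsg.Agent.Lib.Helper21 Cfsg.Agent.Lib.Helper81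

section PiKer

variable {G : Type*} [Group G]

/-- `x` is a `π'`-element: no prime divisor of its order lies in `π`. -/
def IsPiPrimeElt (π : Set ℕ) (x : G) : Prop := ∀ q : ℕ, q.Prime → q ∣ orderOf x → q ∉ π

/-- `O_{π'}(C_G(Q))` lies in the kernel of `f`. -/
def KD (π : Set ℕ) (Q : Subgroup G)
    (f : Set (IrrCharacter (Subgroup.centralizer (Q : Set G)))) : Prop :=
  KerOn (Subgroup.centralizer (Q : Set G)) f
    (piCoreOf {q | q ∉ π} (Subgroup.centralizer (Q : Set G)))

/-- Every `π'`-element of `C_G(Q)` lies in the kernel of `f`. -/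
def KU1 (π : Set ℕ) (Q : Subgroup G)
    (f : Set (IrrCharacter (Subgroup.centralizer (Q : Set G)))) : Prop :=
  ∀ θ ∈ f, ∀ c : Subgroup.centralizer (Q : Set G), IsPiPrimeElt π (c : G) →
    (θ : Subgroup.centralizer (Q : Set G) → ℂ) c = (θ : Subgroup.centralizer (Q : Set G) → ℂ) 1

/-- Every `π'`-element of `C_G(Q)` lies in `O_{π'}(C_G(Q))`. -/
def HallC (π : Set ℕ) (Q : Subgroup G) : Prop :=
  ∀ c ∈ Subgroup.centralizer (Q : Set G), IsPiPrimeElt π c →
    c ∈ piCoreOf {q | q ∉ π} (Subgroup.centralizer (Q : Set G))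

theorem mem_normalizer_inf {A B : Subgroup G} {c : G}
    (hA : c ∈ Subgroup.normalizer (A : Set G)) (hB : c ∈ Subgroup.normalizer (B : Set G)) :
    c ∈ Subgroup.normalizer ((A ⊓ B : Subgroup G) : Set G) := by
  rw [Subgroup.mem_normalizer_iff]
  intro h
  have h1 := Subgroup.mem_normalizer_iff.mp hA h
  have h2 := Subgroup.mem_normalizer_iff.mp hB h
  rw [Subgroup.mem_inf, Subgroup.mem_inf, h1, h2]

variable [Finite G]

theorem isPiPrimeElt_of_mem_piCoreOf (π : Set ℕ) (X : Subgroup G) {x : G}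
    (hx : x ∈ piCoreOf {q | q ∉ π} X) : IsPiPrimeElt π x := by
  intro q hq hdvd
  exact Cfsg.Agent.Lib.Helper32.piCoreOf_primes {q | q ∉ π} X q hq
    (hdvd.trans (Subgroup.orderOf_dvd_natCard _ hx))

theorem not_dvd_card_piCoreOf (π : Set ℕ) {p : ℕ} (hp : p.Prime) (hpπ : p ∈ π) (X : Subgroup G) :
    ¬ p ∣ Nat.card (piCoreOf {q | q ∉ π} X) := fun hdvd =>
  Cfsg.Agent.Lib.Helper32.piCoreOf_primes {q | q ∉ π} X p hp hdvd hpπ

/-- A `π'`-subgroup normalized by `C`, intersected with `C`, lies in `O_{π'}(C)`. -/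
theorem inf_le_piCoreOf (π : Set ℕ) (Y C : Subgroup G)
    (hYn : C ≤ Subgroup.normalizer (Y : Set G))
    (hYπ : ∀ q : ℕ, q.Prime → q ∣ Nat.card Y → q ∈ {q | q ∉ π}) :
    Y ⊓ C ≤ piCoreOf {q | q ∉ π} C := by
  refine Cfsg.Agent.Lib.Helper32.le_piCoreOf {q | q ∉ π} inf_le_right ?_ ?_
  · intro c hc
    exact mem_normalizer_inf (hYn hc) (Subgroup.le_normalizer hc)
  · intro q hq hdvd
    exact hYπ q hq (hdvd.trans (Subgroup.card_dvd_of_le inf_le_left))

variable [Fintype G] {p : ℕ} [Fact p.Prime] {M : Ideal AlgInt}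

/-- `KD` passes down a normal inclusion. -/
theorem kd_step (hM : IsPModular p M) (π : Set ℕ) (hpπ : p ∈ π) (Q P : Subgroup G)
    (f : Set (IrrCharacter (Subgroup.centralizer (Q : Set G))))
    (e : Set (IrrCharacter (Subgroup.centralizer (P : Set G))))
    (h : IsNormalSubpair p M Q f P e) (hP : KD π P e) : KD π Q f := by
  have hp : p.Prime := Fact.out
  have hCPK : Subgroup.centralizer (P : Set G) ≤ Subgroup.centralizer (Q : Set G) :=
    Subgroup.centralizer_le h.2.2.1
  have hXn := Cfsg.Agent.Lib.Helper32.le_normalizer_piCoreOf {q | q ∉ π}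
    (Subgroup.centralizer (Q : Set G))
  have hXP : P ≤ Subgroup.normalizer
      ((piCoreOf {q | q ∉ π} (Subgroup.centralizer (Q : Set G)) : Subgroup G) : Set G) :=
    h.2.2.2.1.trans ((Cfsg.Agent.Lib.Helper81.normalizer_le_normalizer_centralizer Q).trans
      (Cfsg.Agent.Lib.Helper32.normalizer_le_normalizer_piCoreOf {q | q ∉ π}
        (Subgroup.centralizer (Q : Set G))))
  refine (ker_normalSubpair_iff hM Q P f e h _
    (Cfsg.Agent.Lib.Helper32.piCoreOf_le _ _) hXn hXP (not_dvd_card_piCoreOf π hp hpπ _)).mpr ?_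
  intro ξ hξ c hc
  refine hP ξ hξ c ?_
  exact inf_le_piCoreOf π _ _ (hCPK.trans hXn)
    (Cfsg.Agent.Lib.Helper32.piCoreOf_primes _ _) ⟨hc, c.2⟩

/-- `KD` passes down inclusions of Brauer pairs. -/
theorem kd_of_le (hM : IsPModular p M) (π : Set ℕ) (hpπ : p ∈ π) (a c : BrauerPairIdx G)
    (h : Relation.ReflTransGen (NormalSubpairRel p M) a c) (hc : KD π c.1 c.2) :
    KD π a.1 a.2 := by
  induction h using Relation.ReflTransGen.head_induction_on with
  | refl => exact hc
  | head hab _ ih => exact kd_step hM π hpπ _ _ _ _ hab ih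

/-- `KU1 ∧ HallC` passes up a normal inclusion. -/
theorem ku_step (hM : IsPModular p M) (π : Set ℕ) (hpπ : p ∈ π) (Q P : Subgroup G)
    (f : Set (IrrCharacter (Subgroup.centralizer (Q : Set G))))
    (e : Set (IrrCharacter (Subgroup.centralizer (P : Set G))))
    (h : IsNormalSubpair p M Q f P e) (hQ : KU1 π Q f) (hH : HallC π Q) :
    KU1 π P e ∧ HallC π P := by
  have hp : p.Prime := Fact.out
  have hCPK : Subgroup.centralizer (P : Set G) ≤ Subgroup.centralizer (Q : Set G) :=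
    Subgroup.centralizer_le h.2.2.1
  have hXn := Cfsg.Agent.Lib.Helper32.le_normalizer_piCoreOf {q | q ∉ π}
    (Subgroup.centralizer (Q : Set G))
  have hXP : P ≤ Subgroup.normalizer
      ((piCoreOf {q | q ∉ π} (Subgroup.centralizer (Q : Set G)) : Subgroup G) : Set G) :=
    h.2.2.2.1.trans ((Cfsg.Agent.Lib.Helper81.normalizer_le_normalizer_centralizer Q).trans
      (Cfsg.Agent.Lib.Helper32.normalizer_le_normalizer_piCoreOf {q | q ∉ π}
        (Subgroup.centralizer (Q : Set G))))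
  have hker := (ker_normalSubpair_iff hM Q P f e h _
    (Cfsg.Agent.Lib.Helper32.piCoreOf_le _ _) hXn hXP (not_dvd_card_piCoreOf π hp hpπ _)).mp
    (fun θ hθ c hc => hQ θ hθ c (isPiPrimeElt_of_mem_piCoreOf π _ hc))
  refine ⟨fun ξ hξ c hc => hker ξ hξ c (hH (c : G) (hCPK c.2) hc), fun c hc hcπ => ?_⟩
  exact inf_le_piCoreOf π _ _ (hCPK.trans hXn)
    (Cfsg.Agent.Lib.Helper32.piCoreOf_primes _ _) ⟨hH c (hCPK hc) hcπ, hc⟩

/-- `KU1 ∧ HallC` passes up inclusions of Brauer pairs. -/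
theorem ku_of_le (hM : IsPModular p M) (π : Set ℕ) (hpπ : p ∈ π) (a c : BrauerPairIdx G)
    (h : Relation.ReflTransGen (NormalSubpairRel p M) a c) (ha : KU1 π a.1 a.2)
    (haH : HallC π a.1) : KU1 π c.1 c.2 ∧ HallC π c.1 := by
  induction h with
  | refl => exact ⟨ha, haH⟩
  | tail _ hbc ih => exact ku_step hM π hpπ _ _ _ _ hbc ih.1 ih.2

/-- `KU1` is invariant under conjugation. -/
theorem ku_of_conj (π : Set ℕ) (Q : Subgroup G) (x : G)
    (f : Set (IrrCharacter (Subgroup.centralizer (Q : Set G))))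
    (h : KU1 π (Q.map (MulAut.conj x).toMonoidHom) (conjBlock Q x f)) : KU1 π Q f := by
  intro θ hθ c hc
  have h1 := h (irrMap (conjCent Q x) θ) (by
    rw [conjBlock_eq_image]; exact ⟨θ, hθ, rfl⟩) (conjCent Q x c) (by
    intro q hq hdvd
    rw [conjCent_apply] at hdvd
    have e : orderOf (x * (c : G) * x⁻¹) = orderOf (c : G) := (MulAut.conj x).orderOf_eq (c : G)
    rw [e] at hdvd
    exact hc q hq hdvd)
  rw [irrMap_apply_apply, irrMap_one] at h1
  exact h1

/-- `KD` is invariant under conjugation. -/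
theorem kd_of_conj (π : Set ℕ) (Q : Subgroup G) (x : G)
    (f : Set (IrrCharacter (Subgroup.centralizer (Q : Set G))))
    (h : KD π (Q.map (MulAut.conj x).toMonoidHom) (conjBlock Q x f)) : KD π Q f := by
  intro θ hθ c hc
  have hmem : ((conjCent Q x c : Subgroup.centralizer
      ((Q.map (MulAut.conj x).toMonoidHom : Subgroup G) : Set G)) : G) ∈
      piCoreOf {q | q ∉ π} (Subgroup.centralizer
        ((Q.map (MulAut.conj x).toMonoidHom : Subgroup G) : Set G)) := by
    rw [conjCent_apply]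
    have hle : (piCoreOf {q | q ∉ π} (Subgroup.centralizer (Q : Set G))).map
        (MulAut.conj x).toMonoidHom ≤ piCoreOf {q | q ∉ π} (Subgroup.centralizer
          ((Q.map (MulAut.conj x).toMonoidHom : Subgroup G) : Set G)) := by
      refine Cfsg.Agent.Lib.Helper32.le_piCoreOf {q | q ∉ π} ?_ ?_ ?_
      · intro y hy
        rw [mem_conj_map_iff] at hy
        rw [mem_centralizer_conj_map_iff]
        exact Cfsg.Agent.Lib.Helper32.piCoreOf_le _ _ hy
      · intro k hk
        rw [mem_centralizer_conj_map_iff] at hk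
        have hk' := Cfsg.Agent.Lib.Helper32.le_normalizer_piCoreOf {q | q ∉ π}
          (Subgroup.centralizer (Q : Set G)) hk
        rw [Subgroup.mem_normalizer_iff]
        intro y
        rw [mem_conj_map_iff, mem_conj_map_iff]
        have h2 := Subgroup.mem_normalizer_iff.mp hk' (x⁻¹ * y * x)
        have e : x⁻¹ * (k * y * k⁻¹) * x = x⁻¹ * k * x * (x⁻¹ * y * x) * (x⁻¹ * k * x)⁻¹ := by
          group
        rw [e]
        exact h2
      · rw [card_conj_map]
        exact Cfsg.Agent.Lib.Helper32.piCoreOf_primes _ _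
    exact hle ⟨(c : G), hc, rfl⟩
  have h1 := h (irrMap (conjCent Q x) θ) (by
    rw [conjBlock_eq_image]; exact ⟨θ, hθ, rfl⟩) (conjCent Q x c) hmem
  rw [irrMap_apply_apply, irrMap_one] at h1
  exact h1

end PiKer

section Transport

variable {G : Type*} [Group G] [Fintype G] {p : ℕ} [Fact p.Prime] {M : Ideal AlgInt}

theorem le_normalizer_map_subtype_of_normal (H : Subgroup G) (N : Subgroup H) [N.Normal] :
    H ≤ Subgroup.normalizer ((N.map H.subtype : Subgroup G) : Set G) := by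
  have h1 := Subgroup.le_normalizer_map (H := N) H.subtype
  rw [Subgroup.normalizer_eq_top] at h1
  intro x hx
  exact h1 ⟨⟨x, hx⟩, Subgroup.mem_top _, rfl⟩

theorem not_dvd_card_piCore (π : Set ℕ) (hpπ : p ∈ π) (K : Type*) [Group K] [Finite K] :
    ¬ p ∣ Nat.card (piCore {q | q ∉ π} K) := fun hdvd =>
  Cfsg.Agent.Lib.Helper40.isPiNat_card_piCore {q | q ∉ π} p Fact.out hdvd hpπ

/-- `O_{π'}(C_G(D₁))`, pulled back to `H`, is a normal subgroup of `H` when `H ≤ N_G(D₁)`. -/
theorem piCoreOf_subgroupOf_normal (π : Set ℕ) (H : Subgroup G) (D : Subgroup G)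
    (hC : Subgroup.centralizer (D : Set G) ≤ H)
    (hHN : H ≤ Subgroup.normalizer (D : Set G)) :
    ((piCoreOf {q | q ∉ π} (Subgroup.centralizer (D : Set G))).subgroupOf H).Normal := by
  rw [Subgroup.normal_subgroupOf_iff_le_normalizer
    ((Cfsg.Agent.Lib.Helper32.piCoreOf_le _ _).trans hC)]
  exact hHN.trans ((Cfsg.Agent.Lib.Helper81.normalizer_le_normalizer_centralizer _).trans
    (Cfsg.Agent.Lib.Helper32.normalizer_le_normalizer_piCoreOf _ _))

/-- Top of the chain, downward direction: if `O_{π'}(H)` lies in the kernel of `B₁` and `f₁`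
(a block of `C_H(D₁)`) induces `B₁`, then the transported pair satisfies `KD`. -/
theorem kd_top (hM : IsPModular p M) (π : Set ℕ) (hpπ : p ∈ π) (H : Subgroup G)
    (B₁ : Set (IrrCharacter H)) (D₁ : Subgroup H)
    (hC₁ : Subgroup.centralizer ((D₁.map H.subtype : Subgroup G) : Set G) ≤ H)
    (hHN : H ≤ Subgroup.normalizer ((D₁.map H.subtype : Subgroup G) : Set G))
    (f₁ : Set (IrrCharacter (Subgroup.centralizer (D₁ : Set H))))
    (hind₁ : IsInducedBlock M (Subgroup.centralizer (D₁ : Set H)) f₁ B₁)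
    (hker : ∀ n : H, n ∈ piCore {q | q ∉ π} H → n ∈ blockKer B₁) :
    KD π (D₁.map H.subtype) (irrMap (centMapEquiv H D₁ hC₁) '' f₁) := by
  classical
  letI : Fintype H := Fintype.ofFinite _
  have h1 := (ker_induced_iff hM (Subgroup.centralizer (D₁ : Set H)) f₁ B₁ hind₁
    (piCore {q | q ∉ π} H) (not_dvd_card_piCore π hpπ H)).mpr (fun χ hχ x hx => hker x hx χ hχ)
  rintro _ ⟨θ, hθ, rfl⟩ c hc
  have hpcH : piCoreOf {q | q ∉ π}
      (Subgroup.centralizer ((D₁.map H.subtype : Subgroup G) : Set G)) ≤ H :=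
    (Cfsg.Agent.Lib.Helper32.piCoreOf_le _ _).trans hC₁
  have hZn := piCoreOf_subgroupOf_normal π H (D₁.map H.subtype) hC₁ hHN
  have hZle : (piCoreOf {q | q ∉ π}
      (Subgroup.centralizer ((D₁.map H.subtype : Subgroup G) : Set G))).subgroupOf H ≤
      piCore {q | q ∉ π} H := by
    refine Cfsg.Agent.Lib.Helper40.le_piCore_of_normal hZn ?_
    intro q hq hdvd
    rw [Nat.card_congr (Subgroup.subgroupOfEquivOfLe hpcH).toEquiv] at hdvd
    exact Cfsg.Agent.Lib.Helper32.piCoreOf_primes _ _ q hq hdvd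
  have h2 := h1 θ hθ ((centMapEquiv H D₁ hC₁).symm c)
    (hZle (Subgroup.mem_subgroupOf.mpr hc))
  rw [irrMap_apply, irrMap_one]
  exact h2

/-- Bottom of the chain, downward direction: if the transported pair satisfies `KD` and `f₀`
(a block of `C_{G₀}(D₀)`) induces `B₀`, then `O_{π'}(G₀)` lies in the kernel of `B₀`. -/
theorem ker_bottom_of_kd (hM : IsPModular p M) (π : Set ℕ) (hpπ : p ∈ π) (G₀ : Subgroup G)
    (B₀ : Set (IrrCharacter G₀)) (D₀ : Subgroup G₀)
    (hC : Subgroup.centralizer ((D₀.map G₀.subtype : Subgroup G) : Set G) ≤ G₀)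
    (f₀ : Set (IrrCharacter (Subgroup.centralizer (D₀ : Set G₀))))
    (hind₀ : IsInducedBlock M (Subgroup.centralizer (D₀ : Set G₀)) f₀ B₀)
    (hKD : KD π (D₀.map G₀.subtype) (irrMap (centMapEquiv G₀ D₀ hC) '' f₀)) :
    ∀ x : G₀, x ∈ piCore {q | q ∉ π} G₀ → x ∈ blockKer B₀ := by
  classical
  letI : Fintype G₀ := Fintype.ofFinite _
  have h1 := (ker_induced_iff hM (Subgroup.centralizer (D₀ : Set G₀)) f₀ B₀ hind₀
    (piCore {q | q ∉ π} G₀) (not_dvd_card_piCore π hpπ G₀)).mp ?_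
  · intro x hx χ hχ
    exact h1 χ hχ x hx
  · intro θ hθ h hh
    have hle := inf_le_piCoreOf π ((piCore {q | q ∉ π} G₀).map G₀.subtype)
      (Subgroup.centralizer ((D₀.map G₀.subtype : Subgroup G) : Set G))
      (hC.trans (le_normalizer_map_subtype_of_normal G₀ _)) (by
        intro q hq hdvd
        rw [Subgroup.card_map_of_injective G₀.subtype_injective] at hdvd
        exact Cfsg.Agent.Lib.Helper40.isPiNat_card_piCore {q | q ∉ π} q hq hdvd)
    have h2 := hKD (irrMap (centMapEquiv G₀ D₀ hC) θ) ⟨θ, hθ, rfl⟩ (centMapEquiv G₀ D₀ hC h)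
      (hle ⟨⟨(h : G₀), hh, rfl⟩, (centMapEquiv G₀ D₀ hC h).2⟩)
    rw [irrMap_apply_apply, irrMap_one] at h2
    exact h2

/-- Top of the chain, upward direction: if the transported pair satisfies `KU1` and `f₁`
(a block of `C_H(D₁)`) induces `B₁`, then `O_{π'}(H)` lies in the kernel of `B₁`. -/
theorem ker_top_of_ku (hM : IsPModular p M) (π : Set ℕ) (hpπ : p ∈ π) (H : Subgroup G)
    (B₁ : Set (IrrCharacter H)) (D₁ : Subgroup H)
    (hC₁ : Subgroup.centralizer ((D₁.map H.subtype : Subgroup G) : Set G) ≤ H)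
    (f₁ : Set (IrrCharacter (Subgroup.centralizer (D₁ : Set H))))
    (hind₁ : IsInducedBlock M (Subgroup.centralizer (D₁ : Set H)) f₁ B₁)
    (hKU : KU1 π (D₁.map H.subtype) (irrMap (centMapEquiv H D₁ hC₁) '' f₁)) :
    ∀ n : H, n ∈ piCore {q | q ∉ π} H → n ∈ blockKer B₁ := by
  classical
  letI : Fintype H := Fintype.ofFinite _
  have h1 := (ker_induced_iff hM (Subgroup.centralizer (D₁ : Set H)) f₁ B₁ hind₁
    (piCore {q | q ∉ π} H) (not_dvd_card_piCore π hpπ H)).mp ?_
  · intro x hx χ hχ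
    exact h1 χ hχ x hx
  · intro θ hθ h hh
    have h2 := hKU (irrMap (centMapEquiv H D₁ hC₁) θ) ⟨θ, hθ, rfl⟩ (centMapEquiv H D₁ hC₁ h) (by
      intro q hq hdvd
      rw [centMapEquiv_apply, Subgroup.orderOf_coe] at hdvd
      exact Cfsg.Agent.Lib.Helper40.isPiNat_card_piCore {q | q ∉ π} q hq
        (hdvd.trans (Subgroup.orderOf_dvd_natCard _ hh)))
    rw [irrMap_apply_apply, irrMap_one] at h2
    exact h2

/-- Bottom of the chain, upward direction: if `O_{π'}(C_G(D₀))` contains all `π'`-elements of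
`C_G(D₀)` and lies in the kernel of `b`, and `f'` (a block of `C_{H₀}(D₀)`) induces `b`, then the
transported pair satisfies `KU1`. -/
theorem ku_bottom (hM : IsPModular p M) (π : Set ℕ) (hpπ : p ∈ π) (H₀ : Subgroup G)
    (b : Set (IrrCharacter H₀)) (D₀ : Subgroup H₀)
    (hC₀ : Subgroup.centralizer ((D₀.map H₀.subtype : Subgroup G) : Set G) ≤ H₀)
    (hHN₀ : H₀ ≤ Subgroup.normalizer ((D₀.map H₀.subtype : Subgroup G) : Set G))
    (f' : Set (IrrCharacter (Subgroup.centralizer (D₀ : Set H₀))))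
    (hind' : IsInducedBlock M (Subgroup.centralizer (D₀ : Set H₀)) f' b)
    (hHall : HallC π (D₀.map H₀.subtype))
    (hkerb : ∀ θ ∈ b, ∀ h : H₀, (h : G) ∈ piCoreOf {q | q ∉ π}
      (Subgroup.centralizer ((D₀.map H₀.subtype : Subgroup G) : Set G)) →
      (θ : H₀ → ℂ) h = (θ : H₀ → ℂ) 1) :
    KU1 π (D₀.map H₀.subtype) (irrMap (centMapEquiv H₀ D₀ hC₀) '' f') := by
  classical
  letI : Fintype H₀ := Fintype.ofFinite _
  have hp : p.Prime := Fact.out
  have hpcH : piCoreOf {q | q ∉ π}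
      (Subgroup.centralizer ((D₀.map H₀.subtype : Subgroup G) : Set G)) ≤ H₀ :=
    (Cfsg.Agent.Lib.Helper32.piCoreOf_le _ _).trans hC₀
  haveI hZn := piCoreOf_subgroupOf_normal π H₀ (D₀.map H₀.subtype) hC₀ hHN₀
  have hcard : ¬ p ∣ Nat.card ((piCoreOf {q | q ∉ π}
      (Subgroup.centralizer ((D₀.map H₀.subtype : Subgroup G) : Set G))).subgroupOf H₀) := by
    rw [Nat.card_congr (Subgroup.subgroupOfEquivOfLe hpcH).toEquiv]
    exact not_dvd_card_piCoreOf π hp hpπ _
  have h1 := (ker_induced_iff hM (Subgroup.centralizer (D₀ : Set H₀)) f' b hind' _ hcard).mpr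
    (fun χ hχ x hx => hkerb χ hχ x (Subgroup.mem_subgroupOf.mp hx))
  rintro _ ⟨θ, hθ, rfl⟩ c hc
  have h2 := h1 θ hθ ((centMapEquiv H₀ D₀ hC₀).symm c)
    (Subgroup.mem_subgroupOf.mpr (hHall (c : G) c.2 hc))
  rw [irrMap_apply, irrMap_one]
  exact h2

end Transport

end Cfsg.Agent.Lib.Helper22
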