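import Mathlib
import Cfsg.Agent.Lib.Helper22.DefectTwoA
import Cfsg.Agent.Lib.Helper22.WeakOrth
import Cfsg.Agent.Lib.Helper81.RelDefect

/-!
# A `2`-block with a central defect group of order two (helper22)

`central_two_block`: if `z` is a central involution of `K`, `b` a `2`-block of `K` with defect
group `⟨z⟩` and `θ ∈ b` with `θ z = θ 1`, then `b = {θ, θ'}` with `θ' z = -θ' 1` and `θ' = θ` on
elements of odd order.
-/

set_option autoImplicit false

namespace Cfsg.Agent.Lib.Helper22

open Cfsg Cfsg.Agent.Lib.Helper4 Cfsg.Agent.Lib.Helper21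
open scoped ComplexConjugate

variable {G : Type*} [Group G] {p : ℕ} {M : Ideal AlgInt}

/-- In a block whose defect group `D` has order `p`, the degrees have the `p`-exponent of the
index of `D`. -/
theorem factorization_degree_eq_index_of_defect_one [Finite G] [Fact p.Prime]
    (hM : IsPModular p M) (B : Set (IrrCharacter G)) (hB : IsPBlock M B) (D : Subgroup G)
    (hD : IsDefectGroup p M B D) (hcard : Nat.card D = p) (χ : IrrCharacter G) (hχ : χ ∈ B) :
    (charDegree (χ : G → ℂ)).factorization p = D.index.factorization p := by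
  have hp : p.Prime := Fact.out
  have h1 := factorization_degree_of_defect_one hM B hB D hD hcard χ hχ
  have h2 : Nat.card G = Nat.card D * D.index := (Subgroup.card_mul_index D).symm
  have hi : D.index ≠ 0 := Subgroup.index_ne_zero_of_finite
  rw [h2, hcard, Nat.factorization_mul hp.ne_zero hi] at h1
  simp only [Finsupp.coe_add, Pi.add_apply, hp.factorization_self] at h1
  omega

theorem mem_zpowers_of_mul_self {z w : G} (hz : z * z = 1) (hw : w ∈ Subgroup.zpowers z) :
    w = 1 ∨ w = z := by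
  obtain ⟨k, rfl⟩ := hw
  show z ^ k = 1 ∨ z ^ k = z
  have h2 : z ^ (2 : ℤ) = 1 := by rw [zpow_ofNat, pow_two]; exact hz
  rcases Int.emod_two_eq_zero_or_one k with h | h
  · left
    have hk : k = 2 * (k / 2) := by omega
    rw [hk, zpow_mul, h2, one_zpow]
  · right
    have hk : k = 2 * (k / 2) + 1 := by omega
    rw [hk, zpow_add, zpow_mul, h2, one_zpow, one_mul, zpow_one]

/-- An irreducible character takes the value `± χ 1` at a central involution. -/
theorem irr_central_involution [Finite G] (ψ : IrrCharacter G) (z : G)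
    (hz : z ∈ Subgroup.center G) (hz2 : z * z = 1) :
    (ψ : G → ℂ) z = (ψ : G → ℂ) 1 ∨ (ψ : G → ℂ) z = -(ψ : G → ℂ) 1 := by
  have h := Cfsg.Agent.Lib.Helper81.irr_mul_central ψ z z hz
  rw [hz2] at h
  have h2 : ((ψ : G → ℂ) z - (ψ : G → ℂ) 1) * ((ψ : G → ℂ) z + (ψ : G → ℂ) 1) = 0 := by
    linear_combination h
  rcases mul_eq_zero.mp h2 with h3 | h3
  · left; linear_combination h3
  · right; linear_combination h3

/-- A `2`-block with central defect group `⟨z⟩` of order two consists of two characters, one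
with `z` in its kernel and one with `z ↦ -1`; they agree on elements of odd order. -/
theorem central_two_block [Fintype G] (hM : IsPModular 2 M) (z : G)
    (hz : z ∈ Subgroup.center G) (hz2 : orderOf z = 2) (b : Set (IrrCharacter G))
    (hb : IsPBlock M b) (hbD : IsDefectGroup 2 M b (Subgroup.zpowers z)) (θ : IrrCharacter G)
    (hθ : θ ∈ b) (hθz : (θ : G → ℂ) z = (θ : G → ℂ) 1) :
    ∃ θ' ∈ b, θ' ≠ θ ∧ (θ' : G → ℂ) z = -(θ' : G → ℂ) 1 ∧
      (θ' : G → ℂ) 1 = (θ : G → ℂ) 1 ∧
      (∀ y : G, ¬ 2 ∣ orderOf y → (θ' : G → ℂ) y = (θ : G → ℂ) y) ∧ b = {θ, θ'} := by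
  classical
  have : Fact (Nat.Prime 2) := ⟨Nat.prime_two⟩
  have hzz : z * z = 1 := by rw [← pow_two, ← hz2]; exact pow_orderOf_eq_one z
  have hcard : Nat.card (Subgroup.zpowers z) = 2 := by rw [Nat.card_zpowers, hz2]
  have hDZ : Subgroup.zpowers z ≤ Subgroup.center G := by
    rw [Subgroup.zpowers_le]; exact hz
  have hDp : IsPGroup 2 (Subgroup.zpowers z) := by
    refine IsPGroup.of_card (n := 1) ?_
    rw [hcard, pow_one]
  have hdeg : ∀ ψ ∈ b, (charDegree (ψ : G → ℂ)).factorization 2 =
      (Subgroup.zpowers z).index.factorization 2 := fun ψ hψ =>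
    factorization_degree_eq_index_of_defect_one hM b hb _ hbD hcard ψ hψ
  have hone : ∀ ψ : IrrCharacter G, (ψ : G → ℂ) 1 ≠ 0 := fun ψ => irr_one_ne_zero ψ
  -- uniqueness
  have huniq : ∀ ψ ∈ b, ∀ ψ' ∈ b, (ψ' : G → ℂ) z / (ψ' : G → ℂ) 1 =
      (ψ : G → ℂ) z / (ψ : G → ℂ) 1 → ψ' = ψ := by
    intro ψ hψ ψ' hψ' hzz'
    refine Cfsg.Agent.Lib.Helper81.eq_of_sameBlock_of_over hM (Subgroup.zpowers z) hDZ hDp ψ ψ'
      (hdeg ψ hψ) ?_ ?_
    · intro w hw
      rcases mem_zpowers_of_mul_self hzz hw with rfl | rfl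
      · rw [div_self (hone ψ'), div_self (hone ψ)]
      · exact hzz'
    · rw [blockOf_eq_of_mem hM b hb ψ hψ] at hψ'
      exact hψ'
  -- existence
  have hex : ∃ θ' ∈ b, (θ' : G → ℂ) z = -(θ' : G → ℂ) 1 := by
    by_contra hcon
    push Not at hcon
    have hb1 : b = {θ} := by
      ext ψ
      simp only [Set.mem_singleton_iff]
      constructor
      · intro hψ
        refine huniq θ hθ ψ hψ ?_
        rcases irr_central_involution ψ z hz hzz with h | h
        · rw [h, hθz, div_self (hone ψ), div_self (hone θ)]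
        · exact absurd h (hcon ψ hψ)
      · rintro rfl; exact hθ
    have h1 := weak_block_orth hM b hb 1 z (by rw [orderOf_one]; norm_num) (by rw [hz2])
    rw [hb1, finsum_mem_singleton, hθz, irr_one_conj] at h1
    exact hone θ (mul_self_eq_zero.mp h1)
  obtain ⟨θ', hθ', hθ'z⟩ := hex
  have hne : θ' ≠ θ := by
    rintro rfl
    rw [hθz] at hθ'z
    have : (θ' : G → ℂ) 1 = 0 := by linear_combination hθ'z / 2
    exact hone θ' this
  have hb2 : b = {θ, θ'} := by
    ext ψ
    simp only [Set.mem_insert_iff, Set.mem_singleton_iff]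
    constructor
    · intro hψ
      rcases irr_central_involution ψ z hz hzz with h | h
      · left
        refine huniq θ hθ ψ hψ ?_
        rw [h, hθz, div_self (hone ψ), div_self (hone θ)]
      · right
        refine huniq θ' hθ' ψ hψ ?_
        rw [h, hθ'z, neg_div, neg_div, div_self (hone ψ), div_self (hone θ')]
    · rintro (rfl | rfl)
      · exact hθ
      · exact hθ'
  have horth : ∀ y : G, ¬ 2 ∣ orderOf y →
      (θ : G → ℂ) y * (θ : G → ℂ) 1 - (θ' : G → ℂ) y * (θ' : G → ℂ) 1 = 0 := by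
    intro y hy
    have h1 := weak_block_orth hM b hb y z hy (by rw [hz2])
    rw [hb2, finsum_mem_pair hne.symm, hθz, hθ'z, map_neg, irr_one_conj, irr_one_conj] at h1
    linear_combination h1
  have h11 : (θ' : G → ℂ) 1 = (θ : G → ℂ) 1 := by
    have h1 := horth 1 (by rw [orderOf_one]; norm_num)
    obtain ⟨n, hn, hn1⟩ := irr_one_nat θ
    obtain ⟨n', hn', hn1'⟩ := irr_one_nat θ'
    rw [hn1, hn1'] at h1 ⊢
    have h2 : (n : ℂ) * n = (n' : ℂ) * n' := by linear_combination h1
    have h3 : n * n = n' * n' := by exact_mod_cast h2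
    have h4 : n = n' := Nat.mul_self_inj.mp h3
    rw [h4]
  refine ⟨θ', hθ', hne, hθ'z, h11, fun y hy => ?_, hb2⟩
  have h1 := horth y hy
  rw [h11] at h1
  have h2 : ((θ : G → ℂ) y - (θ' : G → ℂ) y) * (θ : G → ℂ) 1 = 0 := by linear_combination h1
  rcases mul_eq_zero.mp h2 with h3 | h3
  · linear_combination -h3
  · exact absurd h3 (hone θ)

end Cfsg.Agent.Lib.Helper22
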