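import Mathlib
import Cfsg.Agent.S0912
import Cfsg.Agent.S0917
import Cfsg.Agent.S0919
import Cfsg.Agent.S0931
import Cfsg.Agent.Lib.Helper22.DefectTwoB
import Cfsg.Agent.Lib.Helper22.FMT
import Cfsg.Agent.Lib.Helper22.IndBlock
import Cfsg.Agent.Lib.Helper22.IndDefect
import Cfsg.Agent.Lib.Helper22.MultChar
import Cfsg.Agent.Lib.Helper82.Sect

/-!
# `2`-blocks with a defect group of order two: the block of the centralizer (helper22)

Let `x` be an involution of `G`, `C = C_G(x)`, `B` a `2`-block of `G` with defect group `⟨x⟩`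
and `b` a block of `C` inducing `B`.

* `centralizer_eq_normalizer_zpowers_two`: `C_G(x) = N_G(⟨x⟩)`;
* `isDefectGroup_of_induced_centralizer_two`: `⟨x⟩` is a defect group of `b`;
* `sectSet_eq_of_defect_two`: the irreducible characters of `C` whose central character does
  not kill the block idempotent of `B` are exactly the members of `b`.
-/

set_option autoImplicit false

namespace Cfsg.Agent.Lib.Helper22

open Cfsg Cfsg.Agent.Lib.Helper4 Cfsg.Agent.Lib.Helper21
open scoped ComplexConjugate

variable {G : Type*} [Group G] {p : ℕ} {M : Ideal AlgInt}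

theorem mul_self_of_orderOf_two {x : G} (hx : orderOf x = 2) : x * x = 1 := by
  rw [← pow_two, ← hx]; exact pow_orderOf_eq_one x

theorem centralizer_eq_normalizer_zpowers_two (x : G) (hx : orderOf x = 2) :
    Subgroup.centralizer ({x} : Set G) =
      Subgroup.normalizer ((Subgroup.zpowers x : Subgroup G) : Set G) := by
  have hxx := mul_self_of_orderOf_two hx
  have hfix : ∀ g : G, g * x = x * g → ∀ h ∈ Subgroup.zpowers x, g * h * g⁻¹ = h := by
    intro g hg h hh
    obtain ⟨k, rfl⟩ := hh
    have hc : Commute g x := hg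
    show g * x ^ k * g⁻¹ = x ^ k
    rw [(hc.zpow_right k).eq, mul_inv_cancel_right]
  ext g
  constructor
  · intro hg
    have hgx : g * x = x * g := (Subgroup.mem_centralizer_iff.mp hg x rfl).symm
    rw [Subgroup.mem_normalizer_iff]
    intro h
    constructor
    · intro hh
      rw [hfix g hgx h hh]; exact hh
    · intro hh
      have hgx' : g⁻¹ * x = x * g⁻¹ := by
        have hc : Commute g x := hgx
        exact hc.inv_left.eq
      have h1 := hfix g⁻¹ hgx' _ hh
      have h2 : g⁻¹ * (g * h * g⁻¹) * g⁻¹⁻¹ = h := by group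
      rw [h2] at h1
      rw [h1]; exact hh
  · intro hg
    rw [Subgroup.mem_normalizer_iff] at hg
    have h1 := (hg x).mp (Subgroup.mem_zpowers x)
    rw [Subgroup.mem_centralizer_iff]
    intro h hh
    rw [Set.mem_singleton_iff.mp hh]
    rcases mem_zpowers_of_mul_self hxx h1 with h2 | h2
    · exfalso
      have h3 : x = 1 := by
        have : x = g⁻¹ * (g * x * g⁻¹) * g := by group
        rw [this, h2]; group
      rw [h3, orderOf_one] at hx
      omega
    · have : g * x = x * g := by
        have h3 : g * x * g⁻¹ * g = x * g := by rw [h2]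
        rwa [inv_mul_cancel_right] at h3
      exact this.symm

/-- Uniqueness in the First Main Theorem, transported to a subgroup equal to `N_G(D)`. -/
theorem induced_unique_of_eq_normalizer [Fintype G] [Fact p.Prime] (hM : IsPModular p M)
    (D : Subgroup G) (hD : IsPGroup p D) (H : Subgroup G)
    (hH : H = Subgroup.normalizer (D : Set G)) (B : Set (IrrCharacter G))
    (b₁ b₂ : Set (IrrCharacter H)) (h₁ : IsInducedBlock M H b₁ B)
    (h₂ : IsInducedBlock M H b₂ B) (hD₁ : IsDefectGroup p M b₁ (D.subgroupOf H))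
    (hD₂ : IsDefectGroup p M b₂ (D.subgroupOf H)) : b₁ = b₂ := by
  classical
  subst hH
  letI : Fintype (Subgroup.normalizer (D : Set G)) := Fintype.ofFinite _
  exact fmt_unique hM D hD B b₁ b₂ h₁ h₂ hD₁ hD₂

theorem isPGroup_zpowers_two (x : G) (hx : orderOf x = 2) : IsPGroup 2 (Subgroup.zpowers x) := by
  refine IsPGroup.of_card (n := 1) ?_
  rw [Nat.card_zpowers, hx, pow_one]

theorem zpowers_subgroupOf (H : Subgroup G) (x : H) :
    (Subgroup.zpowers (x : G)).subgroupOf H = Subgroup.zpowers x := by
  have h1 : (Subgroup.zpowers x).map H.subtype = Subgroup.zpowers (x : G) := by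
    rw [MonoidHom.map_zpowers]; rfl
  rw [← h1]
  exact Subgroup.comap_map_eq_self_of_injective H.subtype_injective _

/-- If `b` is a block of `C_G(x)` inducing a block with defect group `⟨x⟩` of order two, then
`⟨x⟩` is a defect group of `b`. -/
theorem isDefectGroup_of_induced_centralizer_two [Finite G] (hM : IsPModular 2 M) (x : G)
    (hx : orderOf x = 2) (B : Set (IrrCharacter G)) (hB : IsPBlock M B)
    (hBD : IsDefectGroup 2 M B (Subgroup.zpowers x))
    (b : Set (IrrCharacter (Subgroup.centralizer ({x} : Set G))))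
    (hb : IsInducedBlock M (Subgroup.centralizer ({x} : Set G)) b B) :
    IsDefectGroup 2 M b ((Subgroup.zpowers x).subgroupOf (Subgroup.centralizer ({x} : Set G))) := by
  classical
  letI := Fintype.ofFinite G
  have : Fact (Nat.Prime 2) := ⟨Nat.prime_two⟩
  obtain ⟨D', hD'⟩ := Cfsg.Agent.S0931.exists_defectGroup 2 M hM b hb.1
  have hxC : x ∈ Subgroup.centralizer ({x} : Set G) := by
    rw [Subgroup.mem_centralizer_iff]
    intro h hh
    rw [Set.mem_singleton_iff.mp hh]
  have hle : Subgroup.zpowers x ≤ Subgroup.centralizer ({x} : Set G) := by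
    rw [Subgroup.zpowers_le]; exact hxC
  have hP := isPGroup_zpowers_two x hx
  have hN : ((Subgroup.zpowers x).subgroupOf (Subgroup.centralizer ({x} : Set G))).Normal := by
    refine ⟨fun n hn g => ?_⟩
    rw [Subgroup.mem_subgroupOf] at hn ⊢
    obtain ⟨k, hk⟩ := hn
    have hg : (g : G) ∈ Subgroup.centralizer ({x} : Set G) := g.2
    have hc : Commute (g : G) x := (Subgroup.mem_centralizer_iff.mp hg x rfl).symm
    have h1 : ((g * n * g⁻¹ : Subgroup.centralizer ({x} : Set G)) : G) = (n : G) := by
      show (g : G) * (n : G) * (g : G)⁻¹ = (n : G)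
      rw [← hk]
      show (g : G) * x ^ k * (g : G)⁻¹ = x ^ k
      rw [(hc.zpow_right k).eq, mul_inv_cancel_right]
    rw [h1, ← hk]
    exact ⟨k, rfl⟩
  have h1 : (Subgroup.zpowers x).subgroupOf (Subgroup.centralizer ({x} : Set G)) ≤ D' :=
    (Cfsg.Agent.Lib.Helper55.le_pCore hN hP.comap_subtype).trans
      (Cfsg.Agent.S0912.result 2 M hM b hb.1 D' hD')
  obtain ⟨E, hE, hDE⟩ := Cfsg.Agent.S0917.result 2 M hM _ b hb.1 B hB hb D' hD'
  have h2 : Nat.card E ≤ Nat.card (Subgroup.zpowers x) :=
    card_defectGroup_le hM B hB (Subgroup.zpowers x) E hBD hE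
  have h3 : Nat.card D' ≤ Nat.card (Subgroup.zpowers x) := by
    rw [← Subgroup.card_map_of_injective (Subgroup.centralizer ({x} : Set G)).subtype_injective]
    exact (Subgroup.card_le_of_le hDE).trans h2
  have h4 : Nat.card ((Subgroup.zpowers x).subgroupOf (Subgroup.centralizer ({x} : Set G))) =
      Nat.card (Subgroup.zpowers x) :=
    Nat.card_congr (Subgroup.subgroupOfEquivOfLe hle).toEquiv
  have h5 := Subgroup.eq_of_le_of_card_ge h1 (h4 ▸ h3)
  rw [h5]
  exact hD'

/-- For a `2`-block `B` with defect group `⟨x⟩` of order two, the irreducible characters of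
`C_G(x)` whose central character does not kill the idempotent of `B` form the block `b` of
`C_G(x)` inducing `B`. -/
theorem sectSet_eq_of_defect_two [Fintype G] (hM : IsPModular 2 M) (x : G)
    (hx : orderOf x = 2) (B : Set (IrrCharacter G)) (hB : IsPBlock M B)
    (hBD : IsDefectGroup 2 M B (Subgroup.zpowers x))
    [Fintype (Subgroup.centralizer ({x} : Set G))]
    (b : Set (IrrCharacter (Subgroup.centralizer ({x} : Set G))))
    (hb : IsInducedBlock M (Subgroup.centralizer ({x} : Set G)) b B) :
    Cfsg.Agent.Lib.Helper82.sectSet M B (Subgroup.centralizer ({x} : Set G)) = b := by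
  classical
  have : Fact (Nat.Prime 2) := ⟨Nat.prime_two⟩
  have ha := isLocClass_blockCoeff hM B hB
  have hkey : ∀ (b₁ : Set (IrrCharacter (Subgroup.centralizer ({x} : Set G))))
      (B₁ : Set (IrrCharacter G)), IsInducedBlock M (Subgroup.centralizer ({x} : Set G)) b₁ B₁ →
      ∀ ψ ∈ b₁, ∀ χ ∈ B₁, MemLocalIdeal M
        (omega (ψ : Subgroup.centralizer ({x} : Set G) → ℂ)
          (fun c : Subgroup.centralizer ({x} : Set G) => blockCoeff B c) -
          (if χ ∈ B then (1 : ℂ) else 0)) := by
    intro b₁ B₁ hind ψ hψ χ hχ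
    have h1 := omega_indFun_sub_locIdeal hM _ b₁ B₁ hind ψ hψ χ hχ _ ha.1 ha.2
    rwa [omega_indFun_res _ _ _ ha.1, omega_blockCoeff] at h1
  have hne : ∀ B₁ : Set (IrrCharacter G), IsPBlock M B₁ → ∃ χ, χ ∈ B₁ := by
    rintro B₁ ⟨χ, rfl⟩
    exact ⟨χ, mem_blockOf_self hM χ⟩
  ext ψ
  constructor
  · intro hψ
    have hb' : IsPBlock M (blockOf M (ψ : Subgroup.centralizer ({x} : Set G) → ℂ)) := ⟨ψ, rfl⟩
    have hP := isPGroup_zpowers_two x hx
    have hxC : x ∈ Subgroup.centralizer ({x} : Set G) := by
      rw [Subgroup.mem_centralizer_iff]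
      intro h hh
      rw [Set.mem_singleton_iff.mp hh]
    have hle : Subgroup.zpowers x ≤ Subgroup.centralizer ({x} : Set G) := by
      rw [Subgroup.zpowers_le]; exact hxC
    have hcen : Subgroup.centralizer ((Subgroup.zpowers x : Subgroup G) : Set G) ≤
        Subgroup.centralizer ({x} : Set G) :=
      Subgroup.centralizer_le (by
        intro y hy
        rw [Set.mem_singleton_iff.mp hy]
        exact Subgroup.mem_zpowers x)
    have hnorm := centralizer_eq_normalizer_zpowers_two x hx
    obtain ⟨B', hB'⟩ := Cfsg.Agent.S0919.result 2 M hM (Subgroup.zpowers x)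
      (Subgroup.centralizer ({x} : Set G)) hP hle hcen hnorm.le _ hb'
    obtain ⟨χ', hχ'⟩ := hne B' hB'.2.1
    have h1 := hkey _ B' hB' ψ (mem_blockOf_self hM ψ) χ' hχ'
    have hχ'B : χ' ∈ B := by
      by_contra hcon
      rw [if_neg hcon, sub_zero] at h1
      exact hψ h1
    have hBB' : B' = B := by
      rw [blockOf_eq_of_mem hM B' hB'.2.1 χ' hχ', blockOf_eq_of_mem hM B hB χ' hχ'B]
    rw [hBB'] at hB'
    have h2 := induced_unique_of_eq_normalizer hM (Subgroup.zpowers x) hP _ hnorm B _ b hB' hb
      (isDefectGroup_of_induced_centralizer_two hM x hx B hB hBD _ hB')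
      (isDefectGroup_of_induced_centralizer_two hM x hx B hB hBD _ hb)
    rw [← h2]
    exact mem_blockOf_self hM ψ
  · intro hψ
    obtain ⟨χ, hχ⟩ := hne B hB
    have h1 := hkey b B hb ψ hψ χ hχ
    rw [if_pos hχ] at h1
    intro hcon
    apply locIdeal_one_not hM
    have := locIdeal_sub hM hcon h1
    simpa using this

end Cfsg.Agent.Lib.Helper22
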