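import Mathlib
import Cfsg.Agent.S0927
import Cfsg.Agent.Lib.Helper22.DefectTwoC
import Cfsg.Agent.Lib.Helper4.CharDecomp
import Cfsg.Agent.Lib.Helper4.CharClosure

/-!
# `2`-blocks with a defect group of order two (helper22)

`two_block_defect_one`: a `2`-block `B` with defect group `⟨x⟩` of order two has exactly two
irreducible characters; they agree on elements of odd order, and
`χᵢ(x y) = εᵢ θ(y)` for `y ∈ C_G(x)` of odd order, with signs `ε₁ ε₂ = -1`, where `θ` is the
member of the Brauer correspondent of `B` in `C_G(x)` having `x` in its kernel.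
-/

set_option autoImplicit false

namespace Cfsg.Agent.Lib.Helper22

open Cfsg Cfsg.Agent.Lib.Helper4 Cfsg.Agent.Lib.Helper21
open scoped ComplexConjugate

variable {G : Type*} [Group G] {M : Ideal AlgInt}

theorem pow_eq_self_of_odd {z : G} (hz : z * z = 1) {n : ℕ} (hn : Odd n) : z ^ n = z := by
  obtain ⟨k, rfl⟩ := hn
  rw [pow_succ, pow_mul, pow_two, hz, one_pow, one_mul]

theorem sum_ite_pair {ι : Type*} [Fintype ι] [DecidableEq ι] (a b : ι) (hab : a ≠ b)
    (s : Set ι) [DecidablePred (· ∈ s)] (hs : s = {a, b}) (f : ι → ℂ) :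
    ∑ i : ι, (if i ∈ s then (1 : ℂ) else 0) * f i = f a + f b := by
  have h1 : ∀ i : ι, (if i ∈ s then (1 : ℂ) else 0) * f i =
      (if i = a then f i else 0) + (if i = b then f i else 0) := by
    intro i
    by_cases ha : i = a
    · have hb : i ≠ b := fun h => hab (ha.symm.trans h)
      have hi : i ∈ s := by rw [hs, ha]; exact Set.mem_insert _ _
      rw [if_pos hi, if_pos ha, if_neg hb, one_mul, add_zero]
    · by_cases hb : i = b
      · have hi : i ∈ s := by rw [hs, hb]; exact Set.mem_insert_of_mem _ rfl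
        rw [if_pos hi, if_neg ha, if_pos hb, one_mul, zero_add]
      · have hi : i ∉ s := by
          rw [hs]
          rintro (h | h)
          · exact ha h
          · exact hb h
        rw [if_neg hi, if_neg ha, if_neg hb, zero_mul, add_zero]
  simp only [h1, Finset.sum_add_distrib, Finset.sum_ite_eq', Finset.mem_univ, if_true]

theorem sq_eq_two_false (k : ℤ) (h : k ^ 2 = 2) : False := by
  have h1 : k ≤ 1 := by nlinarith
  have h2 : -1 ≤ k := by nlinarith
  interval_cases k <;> omega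

theorem sq_eq_one_int (k : ℤ) (h : k ^ 2 = 1) : k = 1 ∨ k = -1 := by
  have h1 : k ≤ 1 := by nlinarith
  have h2 : -1 ≤ k := by nlinarith
  interval_cases k <;> simp_all

/-- **Blocks of defect one for `p = 2`.** -/
theorem two_block_defect_one [Finite G] (hM : IsPModular 2 M) (x : G) (hx : orderOf x = 2)
    (B : Set (IrrCharacter G)) (hB : IsPBlock M B)
    (hBD : IsDefectGroup 2 M B (Subgroup.zpowers x))
    (C : Subgroup G) (hCdef : C = Subgroup.centralizer ({x} : Set G))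
    (b : Set (IrrCharacter C)) (hb : IsInducedBlock M C b B)
    (θ : IrrCharacter C) (hθ : θ ∈ b)
    (hθx : ∀ z : C, (z : G) = x → (θ : C → ℂ) z = (θ : C → ℂ) 1) :
    Nat.card B = 2 ∧
      (∀ χ ∈ B, ∀ ψ ∈ B, ∀ g : G, ¬ 2 ∣ orderOf g → (χ : G → ℂ) g = (ψ : G → ℂ) g) ∧
      ∃ χ₁ ∈ B, ∃ χ₂ ∈ B, χ₁ ≠ χ₂ ∧ ∃ ε₁ ε₂ : ℤ, (ε₁ = 1 ∨ ε₁ = -1) ∧ (ε₂ = 1 ∨ ε₂ = -1) ∧
        ε₁ * ε₂ = -1 ∧
        ∀ y : C, ¬ 2 ∣ orderOf y →
          (χ₁ : G → ℂ) (x * y) = (ε₁ : ℂ) * (θ : C → ℂ) y ∧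
          (χ₂ : G → ℂ) (x * y) = (ε₂ : ℂ) * (θ : C → ℂ) y := by
  classical
  letI := Fintype.ofFinite G
  have : Fact (Nat.Prime 2) := ⟨Nat.prime_two⟩
  letI : Fintype C := Fintype.ofFinite _
  haveI := irr_finite (G := G)
  letI := Fintype.ofFinite (IrrCharacter G)
  haveI := irr_finite (G := C)
  letI := Fintype.ofFinite (IrrCharacter C)
  have hxx : x * x = 1 := mul_self_of_orderOf_two hx
  have hCmem : ∀ g : G, g ∈ C ↔ g * x = x * g := by
    intro g
    rw [hCdef, Subgroup.mem_centralizer_iff]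
    constructor
    · intro h; exact (h x rfl).symm
    · intro h y hy
      rw [Set.mem_singleton_iff.mp hy]; exact h.symm
  have hxC : x ∈ C := (hCmem x).mpr rfl
  set xC : C := ⟨x, hxC⟩ with hxCdef
  have hxcen : xC ∈ Subgroup.center C := by
    rw [Subgroup.mem_center_iff]
    intro c
    apply Subtype.ext
    exact (hCmem c).mp c.2
  have hxC2 : orderOf xC = 2 := by
    rw [← Subgroup.orderOf_coe]; exact hx
  have hxCxC : xC * xC = 1 := mul_self_of_orderOf_two hxC2
  have hbD : IsDefectGroup 2 M b (Subgroup.zpowers xC) := by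
    have h1 : IsDefectGroup 2 M b ((Subgroup.zpowers x).subgroupOf C) := by
      subst hCdef
      exact isDefectGroup_of_induced_centralizer_two hM x hx B hB hBD b hb
    have h2 := zpowers_subgroupOf C xC
    rw [← h2]
    exact h1
  have hθz : (θ : C → ℂ) xC = (θ : C → ℂ) 1 := hθx xC rfl
  obtain ⟨θ', hθ', hne, hθ'z, h11, hodd, hb2⟩ :=
    central_two_block hM xC hxcen hxC2 b hb.1 hbD θ hθ hθz
  have hsect : Cfsg.Agent.Lib.Helper82.sectSet M B C = b := by
    subst hCdef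
    exact sectSet_eq_of_defect_two hM x hx B hB hBD b hb
  have hθ1 : (θ : C → ℂ) 1 ≠ 0 := irr_one_ne_zero θ
  have hθ'1 : (θ' : C → ℂ) 1 ≠ 0 := irr_one_ne_zero θ'
  -- values at `xC * y`
  have hθmul : ∀ y : C, (θ : C → ℂ) (xC * y) = (θ : C → ℂ) y := by
    intro y
    rw [Cfsg.Agent.Lib.Helper81.irr_central_mul θ xC y hxcen, hθz, div_self hθ1, one_mul]
  have hθ'mul : ∀ y : C, (θ' : C → ℂ) (xC * y) = -(θ' : C → ℂ) y := by
    intro y
    rw [Cfsg.Agent.Lib.Helper81.irr_central_mul θ' xC y hxcen, hθ'z, neg_div, div_self hθ'1,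
      neg_one_mul]
  -- the orthogonality relations
  have hpow : ∀ (y : C) (n : ℕ), Odd n → orderOf y ∣ n → ((xC * y : C) : G) ^ n = x := by
    intro y n hn hyn
    have hc : Commute xC y := (Subgroup.mem_center_iff.mp hxcen y).symm
    have h1 : (xC * y) ^ n = xC := by
      rw [hc.mul_pow, pow_eq_self_of_odd hxCxC hn, orderOf_dvd_iff_pow_eq_one.mp hyn, mul_one]
    rw [← Subgroup.coe_pow, h1]
  have horth : ∀ y y' : C, ¬ 2 ∣ orderOf y → ¬ 2 ∣ orderOf y' →
      ∑ χ : IrrCharacter G, (if χ ∈ B then (1 : ℂ) else 0) *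
        (conj ((χ : G → ℂ) (x * (y : G))) * (χ : G → ℂ) (x * (y' : G))) =
      2 * (conj ((θ : C → ℂ) y) * (θ : C → ℂ) y') := by
    intro y y' hy hy'
    have hxy : ∀ c : ℕ, ¬ 2 ∣ c → ∃ j : ℕ, ((xC * y : C) : G) ^ (c * j) = x ∧
        ((xC * y' : C) : G) ^ (c * j) = x := by
      intro c hc
      have hc' : Odd c := Nat.not_even_iff_odd.mp fun h => hc (even_iff_two_dvd.mp h)
      have hy1 : Odd (orderOf y) := Nat.not_even_iff_odd.mp fun h => hy (even_iff_two_dvd.mp h)
      have hy1' : Odd (orderOf y') :=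
        Nat.not_even_iff_odd.mp fun h => hy' (even_iff_two_dvd.mp h)
      refine ⟨orderOf y * orderOf y', hpow y _ (hc'.mul (hy1.mul hy1')) ?_,
        hpow y' _ (hc'.mul (hy1.mul hy1')) ?_⟩
      · exact Dvd.dvd.mul_left (Dvd.intro _ rfl) _
      · exact Dvd.dvd.mul_left (Dvd.intro_left _ rfl) _
    have h1 := Cfsg.Agent.Lib.Helper82.sect_block_orth hM B hB x (isPGroup_zpowers_two x hx) C
      hCmem (xC * y) (xC * y') hxy
    rw [hsect, sum_ite_pair θ θ' hne.symm b hb2, hθmul, hθmul, hθ'mul, hθ'mul, hodd y hy,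
      hodd y' hy'] at h1
    rw [show x * (y : G) = ((xC * y : C) : G) from rfl,
      show x * (y' : G) = ((xC * y' : C) : G) from rfl, h1]
    simp only [map_neg]
    ring
  have hone_odd : ¬ 2 ∣ orderOf (1 : C) := by rw [orderOf_one]; norm_num
  -- proportionality
  have hprop : ∀ χ ∈ B, ∀ y : C, ¬ 2 ∣ orderOf y →
      (θ : C → ℂ) 1 * (χ : G → ℂ) (x * (y : G)) = (θ : C → ℂ) y * (χ : G → ℂ) x := by
    intro χ₀ hχ₀ y hy
    set w : IrrCharacter G → ℂ := fun χ =>
      (θ : C → ℂ) 1 * (χ : G → ℂ) (x * (y : G)) - (θ : C → ℂ) y * (χ : G → ℂ) x with hw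
    have hS : ∑ χ : IrrCharacter G, (if χ ∈ B then (1 : ℂ) else 0) * (conj (w χ) * w χ) = 0 := by
      have h1 := horth y y hy hy
      have h2 := horth y 1 hy hone_odd
      have h3 := horth 1 y hone_odd hy
      have h4 := horth 1 1 hone_odd hone_odd
      simp only [OneMemClass.coe_one, mul_one] at h2 h3 h4
      have h5 : ∑ χ : IrrCharacter G, (if χ ∈ B then (1 : ℂ) else 0) * (conj (w χ) * w χ) =
          (θ : C → ℂ) 1 ^ 2 * (∑ χ : IrrCharacter G, (if χ ∈ B then (1 : ℂ) else 0) *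
            (conj ((χ : G → ℂ) (x * (y : G))) * (χ : G → ℂ) (x * (y : G)))) -
          (θ : C → ℂ) 1 * (θ : C → ℂ) y * (∑ χ : IrrCharacter G,
            (if χ ∈ B then (1 : ℂ) else 0) *
            (conj ((χ : G → ℂ) (x * (y : G))) * (χ : G → ℂ) x)) -
          (θ : C → ℂ) 1 * conj ((θ : C → ℂ) y) * (∑ χ : IrrCharacter G,
            (if χ ∈ B then (1 : ℂ) else 0) *
            (conj ((χ : G → ℂ) x) * (χ : G → ℂ) (x * (y : G)))) +
          conj ((θ : C → ℂ) y) * (θ : C → ℂ) y * (∑ χ : IrrCharacter G,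
            (if χ ∈ B then (1 : ℂ) else 0) *
            (conj ((χ : G → ℂ) x) * (χ : G → ℂ) x)) := by
        simp only [Finset.mul_sum, ← Finset.sum_sub_distrib, ← Finset.sum_add_distrib]
        refine Finset.sum_congr rfl fun χ _ => ?_
        simp only [hw, map_sub, map_mul, irr_one_conj]
        ring
      rw [h5, h1, h2, h3, h4]
      simp only [irr_one_conj]
      ring
    have hS' : ∑ χ : IrrCharacter G, (if χ ∈ B then Complex.normSq (w χ) else 0) = 0 := by
      apply Complex.ofReal_injective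
      rw [Complex.ofReal_zero, ← hS, Complex.ofReal_sum]
      refine Finset.sum_congr rfl fun χ _ => ?_
      by_cases h : χ ∈ B
      · rw [if_pos h, if_pos h, one_mul, Complex.normSq_eq_conj_mul_self]
      · rw [if_neg h, if_neg h, zero_mul, Complex.ofReal_zero]
    have h6 := (Finset.sum_eq_zero_iff_of_nonneg (fun χ _ => by
      split_ifs
      · exact Complex.normSq_nonneg _
      · exact le_refl _)).mp hS' χ₀ (Finset.mem_univ _)
    rw [if_pos hχ₀, Complex.normSq_eq_zero] at h6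
    simp only [hw] at h6
    linear_combination h6
  -- integrality of `χ x / θ 1`
  have hint : ∀ χ ∈ B, ∃ d : ℤ, (χ : G → ℂ) x = (d : ℂ) * (θ : C → ℂ) 1 := by
    intro χ hχ
    set φ : C → ℂ := fun h => (χ : G → ℂ) h with hφ
    have hφc : IsCharacter C φ := isCharacter_restrict _ _ (isCharacter_of_irr χ)
    obtain ⟨m, hm⟩ := exists_decomp_of_isCharacter φ hφc
    set ε : IrrCharacter C → ℂ := fun ψ => (ψ : C → ℂ) xC / (ψ : C → ℂ) 1 with hε
    have hεmul : ∀ (ψ : IrrCharacter C) (c : C), (ψ : C → ℂ) (xC * c) = ε ψ * (ψ : C → ℂ) c :=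
      fun ψ c => Cfsg.Agent.Lib.Helper81.irr_central_mul ψ xC c hxcen
    set ϑ : C → ℂ := fun c => (χ : G → ℂ) (x * (c : G)) with hϑ
    have hϑeq : ϑ = ∑ ψ : IrrCharacter C, ((m ψ : ℂ) * ε ψ) • (ψ : C → ℂ) := by
      funext c
      have h1 : ϑ c = φ (xC * c) := rfl
      rw [h1, hm]
      simp only [Finset.sum_apply, Pi.smul_apply, smul_eq_mul]
      refine Finset.sum_congr rfl fun ψ _ => ?_
      rw [hεmul]; ring
    have h1 : classInner ϑ (θ : C → ℂ) = (m θ : ℂ) * ε θ := by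
      rw [hϑeq]; exact classInner_sum_irr (fun ψ => (m ψ : ℂ) * ε ψ) θ
    have h2 : classInner ϑ (θ' : C → ℂ) = (m θ' : ℂ) * ε θ' := by
      rw [hϑeq]; exact classInner_sum_irr (fun ψ => (m ψ : ℂ) * ε ψ) θ'
    have hεθ : ε θ = 1 := by
      simp only [hε]; rw [hθz, div_self hθ1]
    have hεθ' : ε θ' = -1 := by
      simp only [hε]; rw [hθ'z, neg_div, div_self hθ'1]
    set d : ℂ := (χ : G → ℂ) x / (θ : C → ℂ) 1 with hd
    have hcard : Nat.card (Subgroup.zpowers xC) = 2 := by rw [Nat.card_zpowers, hxC2]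
    have hDZ : Subgroup.zpowers xC ≤ Subgroup.center C := by
      rw [Subgroup.zpowers_le]; exact hxcen
    have hDp : IsPGroup 2 (Subgroup.zpowers xC) := isPGroup_zpowers_two xC hxC2
    have hpt : ∀ c : C, ϑ c * conj ((θ : C → ℂ) c + (θ' : C → ℂ) c) =
        d * ((θ : C → ℂ) c * conj ((θ : C → ℂ) c + (θ' : C → ℂ) c)) := by
      intro c
      obtain ⟨t, ht⟩ := exists_isPPart (p := 2) Nat.prime_two c
      by_cases htD : t ∈ Subgroup.zpowers xC
      · obtain ⟨y, hty, -, -, hy⟩ := ht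
        rcases mem_zpowers_of_mul_self hxCxC htD with rfl | rfl
        · rw [one_mul] at hty
          subst hty
          have h3 := hprop χ hχ y hy
          have h4 : ϑ y = d * (θ : C → ℂ) y := by
            simp only [hϑ, hd]
            field_simp
            linear_combination h3
          rw [h4]; ring
        · subst hty
          rw [hθmul, hθ'mul, hodd y hy, add_neg_cancel, map_zero, mul_zero, mul_zero, mul_zero]
      · have h3 := Cfsg.Agent.Lib.Helper81.irr_eq_zero_of_ppart_not_mem hM (Subgroup.zpowers xC)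
          hDZ hDp θ (factorization_degree_eq_index_of_defect_one hM b hb.1 _ hbD hcard θ hθ)
          c t ht htD
        have h4 := Cfsg.Agent.Lib.Helper81.irr_eq_zero_of_ppart_not_mem hM (Subgroup.zpowers xC)
          hDZ hDp θ' (factorization_degree_eq_index_of_defect_one hM b hb.1 _ hbD hcard θ' hθ')
          c t ht htD
        rw [h3, h4, add_zero, map_zero, mul_zero, mul_zero, mul_zero]
    have h3 : classInner ϑ (θ : C → ℂ) + classInner ϑ (θ' : C → ℂ) =
        d * (classInner (θ : C → ℂ) (θ : C → ℂ) + classInner (θ : C → ℂ) (θ' : C → ℂ)) := by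
      have e1 : ∑ c : C, ϑ c * conj ((θ : C → ℂ) c) + ∑ c : C, ϑ c * conj ((θ' : C → ℂ) c) =
          d * (∑ c : C, (θ : C → ℂ) c * conj ((θ : C → ℂ) c) +
            ∑ c : C, (θ : C → ℂ) c * conj ((θ' : C → ℂ) c)) := by
        rw [← Finset.sum_add_distrib, ← Finset.sum_add_distrib, Finset.mul_sum]
        refine Finset.sum_congr rfl fun c _ => ?_
        have h4 := hpt c
        rw [map_add] at h4
        linear_combination h4
      simp only [classInner]
      linear_combination (Nat.card C : ℂ)⁻¹ * e1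
    rw [classInner_irr, classInner_irr, if_pos rfl, if_neg hne.symm, h1, h2, hεθ, hεθ'] at h3
    refine ⟨(m θ : ℤ) - (m θ' : ℤ), ?_⟩
    have h4 : d = (m θ : ℂ) - (m θ' : ℂ) := by linear_combination -h3
    rw [hd] at h4
    push_cast
    rw [← h4]
    field_simp
  choose! d hd using hint
  -- nonvanishing
  have hdeg1 : ∀ χ ∈ B, (charDegree (χ : G → ℂ)).factorization 2 + 1 =
      (Nat.card G).factorization 2 := fun χ hχ =>
    factorization_degree_of_defect_one hM B hB _ hBD (by rw [Nat.card_zpowers, hx]) χ hχ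
  have hheight : ∀ χ ∈ B, blockHeight 2 B (χ : G → ℂ) = 0 := by
    intro χ hχ
    have hle : (charDegree (χ : G → ℂ)).factorization 2 ≤
        sInf ((fun ψ : IrrCharacter G => (charDegree (ψ : G → ℂ)).factorization 2) '' B) := by
      apply le_csInf
      · exact ⟨_, ⟨χ, hχ, rfl⟩⟩
      · rintro s ⟨ψ, hψ, rfl⟩
        have h1 := hdeg1 χ hχ
        have h2 := hdeg1 ψ hψ
        show _ ≤ (charDegree (ψ : G → ℂ)).factorization 2
        omega
    exact Nat.sub_eq_zero_of_le hle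
  have hnz : ∀ χ ∈ B, d χ ≠ 0 := by
    intro χ hχ hd0
    have hχx : (χ : G → ℂ) x = 0 := by rw [hd χ hχ, hd0]; simp
    obtain ⟨g₀, hg₀, P, hP⟩ := hBD
    have hxmem : x ∈ (P : Subgroup (Subgroup.centralizer ({g₀} : Set G))).map
        (Subgroup.centralizer ({g₀} : Set G)).subtype := by
      rw [← hP]; exact Subgroup.mem_zpowers x
    obtain ⟨xP, hxP, hxPx⟩ := hxmem
    have h1 := (Cfsg.Agent.S0927.result 2 M hM B hB g₀ hg₀ P xP hxP).1 χ hχ (hheight χ hχ)
    have hxPx' : (xP : G) = x := hxPx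
    rw [hxPx'] at h1
    have hg₀reg : ¬ 2 ∣ orderOf g₀ := by
      apply pRegular_of_blockCoeff_ne_zero hM B hB g₀
      intro h0
      apply hg₀.2.1
      rw [h0]
      exact locIdeal_zero hM
    have hg₀C : g₀ ∈ C := by
      rw [hCmem]
      have hxP2 : (xP : G) ∈ Subgroup.centralizer ({g₀} : Set G) := xP.2
      have := Subgroup.mem_centralizer_iff.mp hxP2 g₀ rfl
      rw [hxPx'] at this
      exact this
    have h2 := hprop χ hχ ⟨g₀, hg₀C⟩ (by rw [← Subgroup.orderOf_coe]; exact hg₀reg)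
    rw [hχx, mul_zero] at h2
    rcases mul_eq_zero.mp h2 with h3 | h3
    · exact hθ1 h3
    · apply h1
      have h4 : (χ : G → ℂ) (x * g₀) = 0 := h3
      rw [h4]
      exact locIdeal_zero hM
  -- counting
  set Bf : Finset (IrrCharacter G) := Finset.univ.filter (· ∈ B) with hBf
  have hBfmem : ∀ χ, χ ∈ Bf ↔ χ ∈ B := by
    intro χ; simp [hBf]
  have hsum : ∑ χ ∈ Bf, (d χ) ^ 2 = 2 := by
    have h1 := horth 1 1 hone_odd hone_odd
    simp only [OneMemClass.coe_one, mul_one] at h1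
    have h2 : ∑ χ : IrrCharacter G, (if χ ∈ B then (1 : ℂ) else 0) *
        (conj ((χ : G → ℂ) x) * (χ : G → ℂ) x) =
        ((∑ χ ∈ Bf, (d χ) ^ 2 : ℤ) : ℂ) * ((θ : C → ℂ) 1 * (θ : C → ℂ) 1) := by
      rw [hBf, Finset.sum_filter]
      push_cast
      rw [Finset.sum_mul]
      refine Finset.sum_congr rfl fun χ _ => ?_
      by_cases h : χ ∈ B
      · rw [if_pos h, if_pos h, hd χ h, map_mul, map_intCast, irr_one_conj]
        ring
      · rw [if_neg h, if_neg h, zero_mul, zero_mul]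
    rw [h2, irr_one_conj] at h1
    have h3 : ((∑ χ ∈ Bf, (d χ) ^ 2 : ℤ) : ℂ) = 2 := by
      have h4 : (θ : C → ℂ) 1 * (θ : C → ℂ) 1 ≠ 0 := mul_ne_zero hθ1 hθ1
      apply mul_right_cancel₀ h4
      rw [h1]
    exact_mod_cast h3
  have hge : ∀ χ ∈ Bf, 1 ≤ (d χ) ^ 2 := by
    intro χ hχ
    have h1 := hnz χ ((hBfmem χ).mp hχ)
    have h2 : 0 < (d χ) ^ 2 := by positivity
    omega
  have hcard_le : (Bf.card : ℤ) ≤ 2 := by
    rw [← hsum, Finset.card_eq_sum_ones]
    push_cast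
    exact Finset.sum_le_sum hge
  have hcard2 : Bf.card = 2 := by
    have h1 : Bf.card ≤ 2 := by exact_mod_cast hcard_le
    interval_cases h : Bf.card
    · rw [Finset.card_eq_zero] at h
      rw [h, Finset.sum_empty] at hsum
      omega
    · obtain ⟨a, ha⟩ := Finset.card_eq_one.mp h
      rw [ha, Finset.sum_singleton] at hsum
      exact (sq_eq_two_false _ hsum).elim
    · rfl
  obtain ⟨χ₁, χ₂, h12, hBf2⟩ := Finset.card_eq_two.mp hcard2
  have hχ₁ : χ₁ ∈ B := (hBfmem χ₁).mp (by rw [hBf2]; simp)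
  have hχ₂ : χ₂ ∈ B := (hBfmem χ₂).mp (by rw [hBf2]; simp)
  have hBset : B = {χ₁, χ₂} := by
    ext χ
    rw [← hBfmem, hBf2]
    simp
  rw [hBf2, Finset.sum_pair h12] at hsum
  have hd1 : (d χ₁) ^ 2 = 1 := by
    have h1 := hge χ₁ (by rw [hBf2]; simp)
    have h2 := hge χ₂ (by rw [hBf2]; simp)
    omega
  have hd2 : (d χ₂) ^ 2 = 1 := by omega
  have hε1 := sq_eq_one_int _ hd1
  have hε2 := sq_eq_one_int _ hd2
  -- weak orthogonality against `x`
  have hweak : ∀ g : G, ¬ 2 ∣ orderOf g →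
      (d χ₁ : ℂ) * (χ₁ : G → ℂ) g + (d χ₂ : ℂ) * (χ₂ : G → ℂ) g = 0 := by
    intro g hg
    have h1 := weak_block_orth hM B hB g x hg (by rw [hx])
    rw [hBset, finsum_mem_pair h12, hd χ₁ hχ₁, hd χ₂ hχ₂, map_mul, map_mul, map_intCast,
      map_intCast, irr_one_conj] at h1
    have h2 : ((d χ₁ : ℂ) * (χ₁ : G → ℂ) g + (d χ₂ : ℂ) * (χ₂ : G → ℂ) g) *
        (θ : C → ℂ) 1 = 0 := by linear_combination h1
    rcases mul_eq_zero.mp h2 with h3 | h3
    · exact h3
    · exact absurd h3 hθ1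
  have hprod : d χ₁ * d χ₂ = -1 := by
    have h1 := hweak 1 (by rw [orderOf_one]; norm_num)
    obtain ⟨n₁, hn₁, hn₁'⟩ := irr_one_nat χ₁
    obtain ⟨n₂, hn₂, hn₂'⟩ := irr_one_nat χ₂
    rw [hn₁', hn₂'] at h1
    have h2 : d χ₁ * (n₁ : ℤ) + d χ₂ * (n₂ : ℤ) = 0 := by exact_mod_cast h1
    rcases hε1 with h3 | h3 <;> rcases hε2 with h4 | h4 <;> rw [h3, h4] at h2 ⊢ <;>
      first | rfl | (exfalso; omega)
  have hagree : ∀ g : G, ¬ 2 ∣ orderOf g → (χ₁ : G → ℂ) g = (χ₂ : G → ℂ) g := by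
    intro g hg
    have h1 := hweak g hg
    rcases hε1 with h3 | h3 <;> rcases hε2 with h4 | h4 <;> rw [h3, h4] at h1 hprod
    · norm_num at hprod
    · push_cast at h1; linear_combination h1
    · push_cast at h1; linear_combination -h1
    · norm_num at hprod
  refine ⟨?_, ?_, χ₁, hχ₁, χ₂, hχ₂, h12, d χ₁, d χ₂, hε1, hε2, hprod, ?_⟩
  · rw [Nat.card_coe_set_eq, hBset, Set.ncard_pair h12]
  · intro χ hχ ψ hψ g hg
    rw [hBset] at hχ hψ
    rcases hχ with rfl | rfl <;> rcases hψ with rfl | rfl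
    · rfl
    · exact hagree g hg
    · exact (hagree g hg).symm
    · rfl
  · intro y hy
    have h1 := hprop χ₁ hχ₁ y hy
    have h2 := hprop χ₂ hχ₂ y hy
    rw [hd χ₁ hχ₁] at h1
    rw [hd χ₂ hχ₂] at h2
    constructor
    · apply mul_left_cancel₀ hθ1
      linear_combination h1
    · apply mul_left_cancel₀ hθ1
      linear_combination h2

end Cfsg.Agent.Lib.Helper22
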