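import Mathlib
import Cfsg.Agent.Lib.Helper22.HPDefs
import Cfsg.Agent.Lib.Helper22.HPDefs2
import Cfsg.Agent.Lib.Helper31.HPETA
import Cfsg.Agent.Lib.Helper83.Linear

/-!
# S4504 (helper22): the counting step `hp_count` of the piece STAR
-/

set_option autoImplicit false
set_option linter.style.haveILetI false
set_option maxHeartbeats 1600000

namespace Cfsg.Agent.Lib.Helper22.HPT

open Cfsg Cfsg.Agent.Lib.Helper22.BFD Cfsg.Agent.Lib.Helper22.HPD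
open scoped ComplexConjugate

universe u

/-- splitting off three distinct indices of a sum -/
theorem cnt_sum_three {ι M : Type*} [Fintype ι] [DecidableEq ι] [AddCommMonoid M] (a b c : ι)
    (hab : a ≠ b) (hac : a ≠ c) (hbc : b ≠ c) (f : ι → M) :
    ∑ i, f i = f a + f b + f c + ∑ i ∈ ((Finset.univ.erase a).erase b).erase c, f i := by
  have hb : b ∈ (Finset.univ : Finset ι).erase a :=
    Finset.mem_erase.mpr ⟨fun h => hab h.symm, Finset.mem_univ _⟩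
  have hc : c ∈ ((Finset.univ : Finset ι).erase a).erase b :=
    Finset.mem_erase.mpr ⟨fun h => hbc h.symm,
      Finset.mem_erase.mpr ⟨fun h => hac h.symm, Finset.mem_univ _⟩⟩
  rw [← Finset.add_sum_erase _ f (Finset.mem_univ a), ← Finset.add_sum_erase _ f hb,
    ← Finset.add_sum_erase _ f hc]
  simp only [add_assoc]

/-- the sums of `‖η‖ ^ 2` over the nonzero residues -/
theorem cnt_eta_sum (p : ℕ) [Fact p.Prime] (hp2 : p ≠ 2) (ζ : ℂ) (hζ : IsPrimitiveRoot ζ p)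
    (e : ℕ) (he : 2 * e + 1 = p) (s : ZMod p) (hs0 : s ≠ 0) :
    ∑ t ∈ Finset.univ.filter (fun t : ZMod p => t ≠ 0), ‖eta p ζ (s * t)‖ ^ 2 =
      (e : ℝ) * ((e : ℝ) + 1) := by
  obtain ⟨-, hη0, -, -, hηsum, -⟩ := Cfsg.Agent.Lib.Helper31.HPT.eta_facts p hp2 ζ hζ
  have hpe : (p - 1) / 2 = e := by omega
  rw [hpe] at hη0 hηsum
  have h1 : ∑ t ∈ Finset.univ.filter (fun t : ZMod p => t ≠ 0), ‖eta p ζ (s * t)‖ ^ 2 =
      ∑ t ∈ Finset.univ.filter (fun t : ZMod p => t ≠ 0), ‖eta p ζ t‖ ^ 2 := by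
    refine Finset.sum_nbij' (fun t => s * t) (fun t => s⁻¹ * t) ?_ ?_ ?_ ?_ ?_
    · intro t ht
      simp only [Finset.mem_filter, Finset.mem_univ, true_and] at ht ⊢
      exact mul_ne_zero hs0 ht
    · intro t ht
      simp only [Finset.mem_filter, Finset.mem_univ, true_and] at ht ⊢
      exact mul_ne_zero (inv_ne_zero hs0) ht
    · intro t _
      simp only [← mul_assoc, inv_mul_cancel₀ hs0, one_mul]
    · intro t _
      simp only [← mul_assoc, mul_inv_cancel₀ hs0, one_mul]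
    · intro t _
      rfl
  rw [h1]
  have h2 : ((∑ t : ZMod p, ‖eta p ζ t‖ ^ 2 : ℝ) : ℂ) = ((p * e : ℕ) : ℂ) := by
    rw [← hηsum]
    push_cast
    refine Finset.sum_congr rfl fun t _ => ?_
    rw [Complex.mul_conj']
  have h3 : ∑ t : ZMod p, ‖eta p ζ t‖ ^ 2 = ((p * e : ℕ) : ℝ) := by exact_mod_cast h2
  have h4 : ∑ t : ZMod p, ‖eta p ζ t‖ ^ 2 = ‖eta p ζ 0‖ ^ 2 +
      ∑ t ∈ Finset.univ.filter (fun t : ZMod p => t ≠ 0), ‖eta p ζ t‖ ^ 2 := by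
    rw [Finset.filter_ne']
    exact (Finset.add_sum_erase _ (fun t : ZMod p => ‖eta p ζ t‖ ^ 2) (Finset.mem_univ 0)).symm
  rw [hη0, Complex.norm_natCast] at h4
  have h5 : ((p * e : ℕ) : ℝ) = (2 * (e : ℝ) + 1) * e := by
    rw [← he]; push_cast; ring
  rw [h3, h5] at h4
  linarith

open Classical in
/-- COUNT: the counting step of STAR -/
theorem hp_count {G : Type u} [Group G] [Fintype G] [Fintype (IrrCharacter G)]
    (p : ℕ) [Fact p.Prime] (hdiv : p ∣ Nat.card G) (e : ℕ) (he2 : 2 ≤ e) (hdeg : 2 * e + 1 = p)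
    (z : G) (ζ : ℂ)
    (hζ : IsPrimitiveRoot ζ p) (k : ℕ) (hk : GalExp p G k) (m₁ m₂ : IrrCharacter G → ℕ)
    (h11 : ∀ φ : IrrCharacter G, φ.1 = (fun _ => 1) → m₁ φ = 1)
    (hd1 : ∑ φ : IrrCharacter G, m₁ φ * charDegree φ.1 = e ^ 2)
    (hd2 : ∑ φ : IrrCharacter G, m₂ φ * charDegree φ.1 = e ^ 2)
    (hn : ∑ φ : IrrCharacter G, (m₂ φ) ^ 2 ≤ ∑ φ : IrrCharacter G, (m₁ φ) ^ 2)
    (hl1 : ∀ φ : IrrCharacter G, φ.1 ≠ (fun _ => 1) → m₁ φ ≠ 0 →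
      TrivZ φ.1 ∧ ((IsEp p z φ.1 ∧ charDegree φ.1 = p + 1) ∨
        (IsXp p ζ z k φ.1 ∧ charDegree φ.1 = e + 1)))
    (hl2 : ∀ φ : IrrCharacter G, m₂ φ ≠ 0 →
      TrivZ φ.1 ∧ ((IsEm p z φ.1 ∧ charDegree φ.1 = p - 1) ∨
        (IsXm p ζ z k φ.1 ∧ charDegree φ.1 = e)))
    (hmu : ∀ φ : IrrCharacter G, φ.1 ≠ (fun _ => 1) → m₁ φ ≠ 0 → m₁ φ = 1)
    (hbud : ∑ φ ∈ Finset.univ.filter (fun φ : IrrCharacter G => TrivZ φ.1),
      ∑ t ∈ Finset.univ.filter (fun t : ZMod p => t ≠ 0), ‖φ.1 (z ^ t.val)‖ ^ 2 =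
        (p : ℝ) * ((p : ℝ) - 1))
    (huq : ∀ φ ψ : IrrCharacter G, TrivZ φ.1 → TrivZ ψ.1 → φ.1 z ≠ φ.1 (z ^ k) →
      ψ.1 z ≠ ψ.1 (z ^ k) → ψ = φ ∨ ψ = gc hk φ)
    (hgc1 : ∀ φ : IrrCharacter G, gc hk (gc hk φ) = φ)
    (hgc2 : ∀ (φ : IrrCharacter G) (t : ZMod p),
      (gc hk φ).1 (z ^ t.val) = φ.1 (z ^ ((k : ZMod p) * t).val))
    (hgc3 : ∀ φ : IrrCharacter G, TrivZ φ.1 → TrivZ (gc hk φ).1)
    (hz : orderOf z = p) (hdg : ∀ φ : IrrCharacter G, φ.1 1 = (charDegree φ.1 : ℂ)) :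
    ∃ φ₀ : IrrCharacter G, TrivZ φ₀.1 ∧ gc hk φ₀ ≠ φ₀ ∧
      (∀ φ : IrrCharacter G, TrivZ φ.1 → φ ≠ φ₀ → φ ≠ gc hk φ₀ →
        φ.1 z * (φ.1 z + φ.1 (z ^ k)) / φ.1 1 =
          (if φ.1 = (fun _ => 1) then 2 - 1 / ((e : ℂ) + 1) else 0) +
            (m₁ φ : ℂ) / ((e : ℂ) + 1) + (m₂ φ : ℂ) / (e : ℂ)) ∧
      φ₀.1 z * (φ₀.1 z + φ₀.1 (z ^ k)) / φ₀.1 1 +
          (gc hk φ₀).1 z * ((gc hk φ₀).1 z + (gc hk φ₀).1 (z ^ k)) / (gc hk φ₀).1 1 =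
        ((m₁ φ₀ : ℂ) + (m₁ (gc hk φ₀) : ℂ)) / ((e : ℂ) + 1) +
          ((m₂ φ₀ : ℂ) + (m₂ (gc hk φ₀) : ℂ)) / (e : ℂ) := by
  classical
  have hp : p.Prime := Fact.out
  have hp2 : p ≠ 2 := by omega
  have hk0 : (k : ZMod p) ≠ 0 := by
    intro h0
    have h2 : p ∣ k := (ZMod.natCast_eq_zero_iff k p).mp h0
    have h3 : p ∣ Nat.gcd k (Nat.card G) := Nat.dvd_gcd h2 hdiv
    rw [hk.cop] at h3
    exact hp.one_lt.ne' (Nat.dvd_one.mp h3)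
  obtain ⟨-, -, -, hηsq, -, hη⟩ := Cfsg.Agent.Lib.Helper31.HPT.eta_facts p hp2 ζ hζ
  obtain ⟨-, hηk⟩ := hη (k : ZMod p) hk0 hk.nsq
  have hη1 := hηk 1 one_ne_zero
  rw [mul_one] at hη1
  have hηne : eta p ζ 1 ≠ eta p ζ (k : ZMod p) := by
    intro h
    have h2 := hη1.2
    rw [h, sub_self, norm_zero] at h2
    have h3 : (p : ℝ) ≠ 0 := by exact_mod_cast hp.ne_zero
    apply h3
    rw [← h2]
    norm_num
  have hηkk : eta p ζ ((k : ZMod p) * k) = eta p ζ 1 := by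
    have hmem : (k : ZMod p) * k ∈ Sq p :=
      (Cfsg.Agent.Lib.Helper31.HPT.eta_aux_mem p _).2 ⟨mul_ne_zero hk0 hk0, ⟨_, rfl⟩⟩
    have h := hηsq _ hmem 1
    rw [mul_one] at h
    rw [h]
  have hz1 : z ^ ((1 : ZMod p)).val = z := by
    haveI : Fact (1 < p) := ⟨hp.one_lt⟩
    rw [ZMod.val_one, pow_one]
  have hzk : z ^ ((k : ZMod p)).val = z ^ k := by
    rw [ZMod.val_natCast, ← hz, pow_mod_orderOf]
  have hpe : (p : ℝ) = 2 * e + 1 := by rw [← hdeg]; push_cast; ring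
  have hcard : ((Finset.univ.filter (fun t : ZMod p => t ≠ 0)).card : ℝ) = 2 * e := by
    rw [Finset.filter_ne', Finset.card_erase_of_mem (Finset.mem_univ _), Finset.card_univ,
      ZMod.card, ← hdeg]
    push_cast
    simp
  have hE1 := cnt_eta_sum p hp2 ζ hζ e hdeg 1 one_ne_zero
  simp only [one_mul] at hE1
  have hE2 := cnt_eta_sum p hp2 ζ hζ e hdeg (k : ZMod p) hk0
  obtain ⟨bud, hbd⟩ : ∃ bud : IrrCharacter G → ℝ, ∀ φ : IrrCharacter G, bud φ =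
      ∑ t ∈ Finset.univ.filter (fun t : ZMod p => t ≠ 0), ‖φ.1 (z ^ t.val)‖ ^ 2 :=
    ⟨_, fun _ => rfl⟩
  have hbud0 : ∀ φ, 0 ≤ bud φ := fun φ => by
    rw [hbd]
    exact Finset.sum_nonneg fun t _ => by positivity
  have hbz : ∀ φ, bud φ = 0 → φ.1 z = 0 := by
    intro φ h
    rw [hbd] at h
    have h1 := (Finset.sum_eq_zero_iff_of_nonneg (fun t _ => by positivity)).1 h 1
      (Finset.mem_filter.mpr ⟨Finset.mem_univ _, one_ne_zero⟩)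
    rw [hz1] at h1
    simpa using h1
  have hEp : ∀ φ : IrrCharacter G, IsEp p z φ.1 →
      φ.1 z = 1 ∧ φ.1 (z ^ k) = 1 ∧ bud φ = 2 * e := by
    intro φ h
    refine ⟨?_, ?_, ?_⟩
    · have := h 1 one_ne_zero
      rwa [hz1] at this
    · have := h (k : ZMod p) hk0
      rwa [hzk] at this
    · have h3 : bud φ = ∑ t ∈ Finset.univ.filter (fun t : ZMod p => t ≠ 0), (1 : ℝ) := by
        rw [hbd]
        exact Finset.sum_congr rfl fun t ht => by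
          rw [h t (Finset.mem_filter.mp ht).2, norm_one, one_pow]
      rw [h3, Finset.sum_const, nsmul_eq_mul, mul_one, hcard]
  have hEm : ∀ φ : IrrCharacter G, IsEm p z φ.1 →
      φ.1 z = -1 ∧ φ.1 (z ^ k) = -1 ∧ bud φ = 2 * e := by
    intro φ h
    refine ⟨?_, ?_, ?_⟩
    · have := h 1 one_ne_zero
      rwa [hz1] at this
    · have := h (k : ZMod p) hk0
      rwa [hzk] at this
    · have h3 : bud φ = ∑ t ∈ Finset.univ.filter (fun t : ZMod p => t ≠ 0), (1 : ℝ) := by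
        rw [hbd]
        exact Finset.sum_congr rfl fun t ht => by
          rw [h t (Finset.mem_filter.mp ht).2, norm_neg, norm_one, one_pow]
      rw [h3, Finset.sum_const, nsmul_eq_mul, mul_one, hcard]
  have hXm : ∀ φ : IrrCharacter G, IsXm p ζ z k φ.1 →
      φ.1 z + φ.1 (z ^ k) = -1 ∧ φ.1 z ≠ φ.1 (z ^ k) ∧ bud φ = e * (e + 1) := by
    intro φ h
    rcases h with h | h
    · have a1 := h 1 one_ne_zero
      have a2 := h (k : ZMod p) hk0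
      rw [hz1] at a1
      rw [hzk] at a2
      refine ⟨by rw [a1, a2]; exact hη1.1, by rw [a1, a2]; exact hηne, ?_⟩
      rw [← hE1, hbd]
      exact Finset.sum_congr rfl fun t ht => by rw [h t (Finset.mem_filter.mp ht).2]
    · have a1 := h 1 one_ne_zero
      have a2 := h (k : ZMod p) hk0
      rw [hz1, mul_one] at a1
      rw [hzk, hηkk] at a2
      refine ⟨by rw [a1, a2, add_comm]; exact hη1.1, by rw [a1, a2]; exact hηne.symm, ?_⟩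
      rw [← hE2, hbd]
      exact Finset.sum_congr rfl fun t ht => by rw [h t (Finset.mem_filter.mp ht).2]
  have hXp : ∀ φ : IrrCharacter G, IsXp p ζ z k φ.1 →
      φ.1 z + φ.1 (z ^ k) = 1 ∧ φ.1 z ≠ φ.1 (z ^ k) ∧ bud φ = e * (e + 1) := by
    intro φ h
    rcases h with h | h
    · have a1 := h 1 one_ne_zero
      have a2 := h (k : ZMod p) hk0
      rw [hz1] at a1
      rw [hzk] at a2
      refine ⟨by rw [a1, a2, ← neg_add, hη1.1, neg_neg],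
        by rw [a1, a2]; exact fun h' => hηne (neg_injective h'), ?_⟩
      rw [← hE1, hbd]
      exact Finset.sum_congr rfl fun t ht => by
        rw [h t (Finset.mem_filter.mp ht).2, norm_neg]
    · have a1 := h 1 one_ne_zero
      have a2 := h (k : ZMod p) hk0
      rw [hz1, mul_one] at a1
      rw [hzk, hηkk] at a2
      refine ⟨by rw [a1, a2, ← neg_add, add_comm, hη1.1, neg_neg],
        by rw [a1, a2]; exact fun h' => hηne (neg_injective h').symm, ?_⟩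
      rw [← hE2, hbd]
      exact Finset.sum_congr rfl fun t ht => by
        rw [h t (Finset.mem_filter.mp ht).2, norm_neg]
  have hT : ∀ φ : IrrCharacter G, φ.1 = (fun _ => 1) →
      TrivZ φ.1 ∧ bud φ = 2 * e ∧ charDegree φ.1 = 1 ∧ m₁ φ = 1 ∧ m₂ φ = 0 := by
    intro φ h
    have h1 : φ.1 1 = 1 := by rw [h]
    have hd : charDegree φ.1 = 1 := by
      have h2 := hdg φ
      rw [h1] at h2
      exact_mod_cast h2.symm
    refine ⟨fun u _ => by rw [h], ?_, hd, h11 φ h, ?_⟩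
    · have h3 : bud φ = ∑ t ∈ Finset.univ.filter (fun t : ZMod p => t ≠ 0), (1 : ℝ) := by
        rw [hbd]
        exact Finset.sum_congr rfl fun t ht => by
          rw [h, norm_one, one_pow]
      rw [h3, Finset.sum_const, nsmul_eq_mul, mul_one, hcard]
    · by_contra hne
      obtain ⟨-, (⟨-, hd'⟩ | ⟨-, hd'⟩)⟩ := hl2 φ hne <;> omega
  obtain ⟨τ, hτ⟩ : ∃ τ : IrrCharacter G, τ.1 = fun _ => 1 :=
    ⟨Cfsg.Agent.Lib.Helper83.trivIrr G, rfl⟩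
  have hτiff : ∀ φ : IrrCharacter G, φ.1 = (fun _ => 1) ↔ φ = τ :=
    fun φ => ⟨fun h => Subtype.ext (h.trans hτ.symm), fun h => by rw [h, hτ]⟩
  obtain ⟨hτZ, hτbud, hτdeg, hτm1, hτm2⟩ := hT τ hτ
  -- existence of the exceptional character
  obtain ⟨φ₀, hφ₀Z, hφ₀ne, hφ₀bud, hcase⟩ : ∃ φ₀ : IrrCharacter G, TrivZ φ₀.1 ∧
      φ₀.1 z ≠ φ₀.1 (z ^ k) ∧ bud φ₀ = e * (e + 1) ∧
      ((¬ Even e ∧ m₂ φ₀ ≠ 0 ∧ charDegree φ₀.1 = e ∧ φ₀.1 z + φ₀.1 (z ^ k) = -1) ∨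
        (Even e ∧ m₁ φ₀ ≠ 0 ∧ charDegree φ₀.1 = e + 1 ∧ φ₀.1 z + φ₀.1 (z ^ k) = 1)) := by
    by_contra hno
    by_cases hev : Even e
    · have hall : ∀ φ : IrrCharacter G, φ ≠ τ →
          m₁ φ * charDegree φ.1 = 2 * (m₁ φ * (e + 1)) := by
        intro φ hnt
        by_cases hm : m₁ φ = 0
        · rw [hm]; simp
        · obtain ⟨hZ, (⟨-, hd⟩ | ⟨hx, hd⟩)⟩ := hl1 φ (fun h => hnt ((hτiff φ).1 h)) hm
          · rw [hd, ← hdeg]; ring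
          · exfalso
            obtain ⟨h1, h2, h3⟩ := hXp φ hx
            exact hno ⟨φ, hZ, h2, h3, Or.inr ⟨hev, hm, hd, h1⟩⟩
      have hsum : ∑ φ, m₁ φ * charDegree φ.1 =
          1 + 2 * ∑ φ ∈ Finset.univ.erase τ, m₁ φ * (e + 1) := by
        rw [← Finset.add_sum_erase _ _ (Finset.mem_univ τ), Finset.mul_sum]
        congr 1
        · rw [hτm1, hτdeg]
        · exact Finset.sum_congr rfl fun φ hφ => hall φ (Finset.mem_erase.mp hφ).1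
      obtain ⟨c, hc⟩ := hev
      rw [hd1, hc] at hsum
      have h4 : (c + c) ^ 2 = 2 * (2 * c * c) := by ring
      omega
    · have hall : ∀ φ : IrrCharacter G, m₂ φ * charDegree φ.1 = 2 * (m₂ φ * e) := by
        intro φ
        by_cases hm : m₂ φ = 0
        · rw [hm]; simp
        · obtain ⟨hZ, (⟨-, hd⟩ | ⟨hx, hd⟩)⟩ := hl2 φ hm
          · rw [hd, ← hdeg]
            simp only [Nat.add_sub_cancel]
            ring
          · exfalso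
            obtain ⟨h1, h2, h3⟩ := hXm φ hx
            exact hno ⟨φ, hZ, h2, h3, Or.inl ⟨hev, hm, hd, h1⟩⟩
      have hsum : ∑ φ, m₂ φ * charDegree φ.1 = 2 * ∑ φ, m₂ φ * e := by
        rw [Finset.mul_sum]
        exact Finset.sum_congr rfl fun φ _ => hall φ
      obtain ⟨c, hc⟩ := Nat.not_even_iff_odd.mp hev
      rw [hd2, hc] at hsum
      have h4 : (2 * c + 1) ^ 2 = 2 * (2 * c * c + 2 * c) + 1 := by ring
      omega
  obtain ⟨ψ₀, hψ₀⟩ : ∃ ψ₀ : IrrCharacter G, ψ₀ = gc hk φ₀ := ⟨_, rfl⟩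
  have hψz : ψ₀.1 z = φ₀.1 (z ^ k) := by rw [hψ₀]; rfl
  have hψzk : ψ₀.1 (z ^ k) = φ₀.1 z := by
    have h : (gc hk ψ₀).1 z = φ₀.1 z := by rw [hψ₀, hgc1]
    exact h
  have hψne : ψ₀ ≠ φ₀ := by
    intro h
    apply hφ₀ne
    rw [← hψz, h]
  have hψZ : TrivZ ψ₀.1 := by rw [hψ₀]; exact hgc3 φ₀ hφ₀Z
  have hψbud : bud ψ₀ = e * (e + 1) := by
    rw [← hφ₀bud, hbd, hbd]
    refine Finset.sum_nbij' (fun t => (k : ZMod p) * t) (fun t => (k : ZMod p)⁻¹ * t)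
      ?_ ?_ ?_ ?_ ?_
    · intro t ht
      simp only [Finset.mem_filter, Finset.mem_univ, true_and] at ht ⊢
      exact mul_ne_zero hk0 ht
    · intro t ht
      simp only [Finset.mem_filter, Finset.mem_univ, true_and] at ht ⊢
      exact mul_ne_zero (inv_ne_zero hk0) ht
    · intro t _
      simp only [← mul_assoc, inv_mul_cancel₀ hk0, one_mul]
    · intro t _
      simp only [← mul_assoc, mul_inv_cancel₀ hk0, one_mul]
    · intro t _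
      rw [hψ₀, hgc2]
  have hψ1 : ψ₀.1 1 = φ₀.1 1 := by
    rw [hψ₀]
    show φ₀.1 (1 ^ k) = φ₀.1 1
    rw [one_pow]
  have hψdeg : charDegree ψ₀.1 = charDegree φ₀.1 := by
    have h := hdg ψ₀
    rw [hψ1, hdg φ₀] at h
    exact_mod_cast h.symm
  have hψne' : ψ₀.1 z ≠ ψ₀.1 (z ^ k) := by
    rw [hψz, hψzk]
    exact hφ₀ne.symm
  have hexc : ∀ φ : IrrCharacter G, TrivZ φ.1 → φ.1 z ≠ φ.1 (z ^ k) → φ = φ₀ ∨ φ = ψ₀ := by
    intro φ h1 h2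
    rw [hψ₀]
    exact huq φ₀ φ hφ₀Z h1 hφ₀ne h2
  have hτφ : τ ≠ φ₀ := by
    intro h
    rw [← h] at hφ₀ne
    exact hφ₀ne (by rw [hτ])
  have hτψ : τ ≠ ψ₀ := by
    intro h
    rw [← h] at hψne'
    exact hψne' (by rw [hτ])
  have hφ₀nt : φ₀.1 ≠ (fun _ => 1) := fun h => hτφ ((hτiff φ₀).1 h).symm
  have hψ₀nt : ψ₀.1 ≠ (fun _ => 1) := fun h => hτψ ((hτiff ψ₀).1 h).symm
  have hc1 : ∀ φ : IrrCharacter G, φ ≠ φ₀ → φ ≠ ψ₀ → φ ≠ τ → m₁ φ ≠ 0 →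
      TrivZ φ.1 ∧ IsEp p z φ.1 ∧ charDegree φ.1 = p + 1 ∧ m₁ φ = 1 := by
    intro φ h1 h2 h3 hm
    have hnt : φ.1 ≠ (fun _ => 1) := fun h => h3 ((hτiff φ).1 h)
    obtain ⟨hZ, (⟨hep, hd⟩ | ⟨hx, hd⟩)⟩ := hl1 φ hnt hm
    · exact ⟨hZ, hep, hd, hmu φ hnt hm⟩
    · exfalso
      rcases hexc φ hZ (hXp φ hx).2.1 with h | h
      · exact h1 h
      · exact h2 h
  have hc2 : ∀ φ : IrrCharacter G, φ ≠ φ₀ → φ ≠ ψ₀ → m₂ φ ≠ 0 →
      TrivZ φ.1 ∧ IsEm p z φ.1 ∧ charDegree φ.1 = p - 1 := by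
    intro φ h1 h2 hm
    obtain ⟨hZ, (⟨hem, hd⟩ | ⟨hx, hd⟩)⟩ := hl2 φ hm
    · exact ⟨hZ, hem, hd⟩
    · exfalso
      rcases hexc φ hZ (hXm φ hx).2.1 with h | h
      · exact h1 h
      · exact h2 h
  have hc12 : ∀ φ : IrrCharacter G, φ ≠ φ₀ → φ ≠ ψ₀ → φ ≠ τ → m₁ φ ≠ 0 → m₂ φ = 0 := by
    intro φ h1 h2 h3 hm1
    by_contra hm2
    obtain ⟨-, hep, -, -⟩ := hc1 φ h1 h2 h3 hm1
    obtain ⟨-, hem, -⟩ := hc2 φ h1 h2 hm2
    have h := (hEp φ hep).1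
    rw [(hEm φ hem).1] at h
    norm_num at h
  -- the rest
  obtain ⟨R, hR⟩ : ∃ R : Finset (IrrCharacter G),
      R = ((Finset.univ.erase τ).erase φ₀).erase ψ₀ := ⟨_, rfl⟩
  have hRmem : ∀ φ, φ ∈ R ↔ φ ≠ ψ₀ ∧ φ ≠ φ₀ ∧ φ ≠ τ := by
    intro φ
    rw [hR]
    simp
  have hsplitN : ∀ f : IrrCharacter G → ℕ,
      ∑ φ, f φ = f τ + f φ₀ + f ψ₀ + ∑ φ ∈ R, f φ := by
    intro f
    rw [hR]
    exact cnt_sum_three τ φ₀ ψ₀ hτφ hτψ hψne.symm f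
  have hsplitR : ∀ f : IrrCharacter G → ℝ,
      ∑ φ, f φ = f τ + f φ₀ + f ψ₀ + ∑ φ ∈ R, f φ := by
    intro f
    rw [hR]
    exact cnt_sum_three τ φ₀ ψ₀ hτφ hτψ hψne.symm f
  obtain ⟨a, ha⟩ : ∃ a : ℕ, a = (R.filter (fun φ => m₁ φ ≠ 0)).card := ⟨_, rfl⟩
  obtain ⟨c, hc⟩ : ∃ c : ℕ, c = (R.filter (fun φ => m₂ φ ≠ 0)).card := ⟨_, rfl⟩
  obtain ⟨S, hS⟩ : ∃ S : ℕ, S = ∑ φ ∈ R, m₂ φ := ⟨_, rfl⟩
  obtain ⟨Q, hQ⟩ : ∃ Q : ℕ, Q = ∑ φ ∈ R, (m₂ φ) ^ 2 := ⟨_, rfl⟩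
  have hR1d : ∑ φ ∈ R, m₁ φ * charDegree φ.1 = (p + 1) * a := by
    rw [ha, Finset.card_filter, Finset.mul_sum]
    refine Finset.sum_congr rfl fun φ hφ => ?_
    obtain ⟨h2, h1, h3⟩ := (hRmem φ).1 hφ
    by_cases hm : m₁ φ = 0
    · simp [hm]
    · obtain ⟨-, -, hd, hm1⟩ := hc1 φ h1 h2 h3 hm
      rw [if_pos hm, hd, hm1]
      ring
  have hR1q : ∑ φ ∈ R, (m₁ φ) ^ 2 = a := by
    rw [ha, Finset.card_filter]
    refine Finset.sum_congr rfl fun φ hφ => ?_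
    obtain ⟨h2, h1, h3⟩ := (hRmem φ).1 hφ
    by_cases hm : m₁ φ = 0
    · simp [hm]
    · obtain ⟨-, -, hd, hm1⟩ := hc1 φ h1 h2 h3 hm
      rw [if_pos hm, hm1]
      norm_num
  have hR2d : ∑ φ ∈ R, m₂ φ * charDegree φ.1 = (p - 1) * S := by
    rw [hS, Finset.mul_sum]
    refine Finset.sum_congr rfl fun φ hφ => ?_
    obtain ⟨h2, h1, h3⟩ := (hRmem φ).1 hφ
    by_cases hm : m₂ φ = 0
    · simp [hm]
    · obtain ⟨-, -, hd⟩ := hc2 φ h1 h2 hm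
      rw [hd]
      ring
  have hP3 : 3 * S ≤ Q + 2 * c := by
    rw [hS, hQ, hc, Finset.card_filter, Finset.mul_sum, Finset.mul_sum,
      ← Finset.sum_add_distrib]
    refine Finset.sum_le_sum fun φ _ => ?_
    generalize m₂ φ = m
    rcases m with _ | _ | m
    · simp
    · simp
    · rw [if_pos (by omega)]
      nlinarith
  have hSQ : S ≤ Q := by
    rw [hS, hQ]
    exact Finset.sum_le_sum fun φ _ => Nat.le_self_pow two_ne_zero _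
  have hcSpt : ∀ φ ∈ R, (if m₂ φ ≠ 0 then 1 else 0) ≤ m₂ φ := by
    intro φ _
    by_cases hm : m₂ φ = 0
    · simp [hm]
    · rw [if_pos hm]
      omega
  have hcS : c ≤ S := by
    rw [hc, hS, Finset.card_filter]
    exact Finset.sum_le_sum hcSpt
  have hD1 : e ^ 2 = 1 + (m₁ φ₀ + m₁ ψ₀) * charDegree φ₀.1 + (p + 1) * a := by
    rw [← hd1, hsplitN, hR1d, hτm1, hτdeg, hψdeg]
    ring
  have hD2 : e ^ 2 = (m₂ φ₀ + m₂ ψ₀) * charDegree φ₀.1 + (p - 1) * S := by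
    rw [← hd2, hsplitN, hR2d, hτm2, hψdeg]
    ring
  have hN : (m₂ φ₀) ^ 2 + (m₂ ψ₀) ^ 2 + Q ≤ 1 + (m₁ φ₀) ^ 2 + (m₁ ψ₀) ^ 2 + a := by
    have h := hn
    rw [hsplitN (fun φ => (m₂ φ) ^ 2), hsplitN (fun φ => (m₁ φ) ^ 2), hR1q, hτm1, hτm2,
      ← hQ] at h
    norm_num at h
    linarith
  have hp1 : p + 1 = 2 * e + 2 := by omega
  have hp1' : p - 1 = 2 * e := by omega
  rw [hp1] at hD1
  rw [hp1'] at hD2
  have hx1 : m₂ φ₀ ≤ (m₂ φ₀) ^ 2 := Nat.le_self_pow two_ne_zero _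
  have hx2 : m₂ ψ₀ ≤ (m₂ ψ₀) ^ 2 := Nat.le_self_pow two_ne_zero _
  have key : ((m₁ φ₀ + m₁ ψ₀ = 0 ∧ m₂ φ₀ + m₂ ψ₀ = 1 ∧ charDegree φ₀.1 = e ∧
        φ₀.1 z + φ₀.1 (z ^ k) = -1) ∨
      (m₁ φ₀ + m₁ ψ₀ = 1 ∧ m₂ φ₀ + m₂ ψ₀ = 0 ∧ charDegree φ₀.1 = e + 1 ∧
        φ₀.1 z + φ₀.1 (z ^ k) = 1)) ∧ e ≤ a + c + 1 ∧ S ≤ c := by
    rcases hcase with ⟨hodd, hm2, hd, hs⟩ | ⟨hev, hm1, hd, hs⟩
    · have hm1φ : m₁ φ₀ = 0 := by
        by_contra h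
        obtain ⟨-, (⟨-, hd'⟩ | ⟨-, hd'⟩)⟩ := hl1 φ₀ hφ₀nt h <;> omega
      have hm1ψ : m₁ ψ₀ = 0 := by
        by_contra h
        obtain ⟨-, (⟨-, hd'⟩ | ⟨-, hd'⟩)⟩ := hl1 ψ₀ hψ₀nt h <;> omega
      obtain ⟨j, hj⟩ := Nat.not_even_iff_odd.mp hodd
      rw [hm1φ, hm1ψ, hd] at hD1
      rw [hd] at hD2
      rw [hm1φ, hm1ψ] at hN
      have ha' : a = j := by
        have h : (4 * (j + 1)) * a = (4 * (j + 1)) * j := by
          rw [hj] at hD1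
          nlinarith [hD1]
        exact Nat.eq_of_mul_eq_mul_left (by omega) h
      have hB : e = (m₂ φ₀ + m₂ ψ₀) + 2 * S := by
        have h : e * e = e * ((m₂ φ₀ + m₂ ψ₀) + 2 * S) := by nlinarith [hD2]
        exact Nat.eq_of_mul_eq_mul_left (by omega) h
      have hB1 : m₂ φ₀ + m₂ ψ₀ = 1 := by omega
      refine ⟨Or.inl ⟨by omega, hB1, hd, hs⟩, by omega, by omega⟩
    · have hm1φ : m₁ φ₀ = 1 := hmu φ₀ hφ₀nt hm1
      have hm2φ : m₂ φ₀ = 0 := by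
        by_contra h
        obtain ⟨-, (⟨-, hd'⟩ | ⟨-, hd'⟩)⟩ := hl2 φ₀ h <;> omega
      have hm2ψ : m₂ ψ₀ = 0 := by
        by_contra h
        obtain ⟨-, (⟨-, hd'⟩ | ⟨-, hd'⟩)⟩ := hl2 ψ₀ h <;> omega
      have hb : m₁ ψ₀ ≤ 1 := by
        by_cases h : m₁ ψ₀ = 0
        · omega
        · rw [hmu ψ₀ hψ₀nt h]
      have hb2 : (m₁ ψ₀) ^ 2 = m₁ ψ₀ := by
        rcases Nat.le_one_iff_eq_zero_or_eq_one.mp hb with h | h <;> rw [h] <;> norm_num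
      obtain ⟨j, hj⟩ := hev
      rw [hm1φ, hd] at hD1
      rw [hm2φ, hm2ψ] at hD2
      rw [hm1φ, hm2φ, hm2ψ, hb2] at hN
      have ha' : 2 + m₁ ψ₀ + 2 * a = 2 * j := by
        have h : (2 * j + 1) * (2 + m₁ ψ₀ + 2 * a) = (2 * j + 1) * (2 * j) := by
          rw [hj] at hD1
          nlinarith [hD1]
        exact Nat.eq_of_mul_eq_mul_left (by omega) h
      have hS' : S = j := by
        have h : (2 * e) * S = (2 * e) * j := by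
          rw [hj] at hD2 ⊢
          nlinarith [hD2]
        exact Nat.eq_of_mul_eq_mul_left (by omega) h
      refine ⟨Or.inr ⟨by omega, by omega, hd, hs⟩, by omega, by omega⟩
  obtain ⟨key, hac, hSc⟩ := key
  -- budget
  have hB : ∑ φ : IrrCharacter G, (if TrivZ φ.1 then bud φ else 0) =
      (p : ℝ) * ((p : ℝ) - 1) := by
    rw [← Finset.sum_filter, ← hbud]
    exact Finset.sum_congr rfl fun φ _ => hbd φ
  have hBsplit := hsplitR (fun φ => if TrivZ φ.1 then bud φ else 0)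
  rw [hB] at hBsplit
  simp only [if_pos hτZ, if_pos hφ₀Z, if_pos hψZ, hτbud, hφ₀bud, hψbud] at hBsplit
  have hlow : ∀ φ ∈ R, 2 * (e : ℝ) * ((if m₁ φ ≠ 0 then (1 : ℝ) else 0) +
      (if m₂ φ ≠ 0 then (1 : ℝ) else 0)) ≤ (if TrivZ φ.1 then bud φ else 0) := by
    intro φ hφ
    obtain ⟨h2, h1, h3⟩ := (hRmem φ).1 hφ
    by_cases hm1 : m₁ φ = 0
    · by_cases hm2 : m₂ φ = 0
      · simp only [hm1, hm2, ne_eq, not_true_eq_false, if_false, add_zero, mul_zero]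
        split_ifs
        · exact hbud0 φ
        · exact le_refl _
      · obtain ⟨hZ, hem, -⟩ := hc2 φ h1 h2 hm2
        rw [if_pos hZ, (hEm φ hem).2.2]
        simp [hm1, hm2]
    · obtain ⟨hZ, hep, -, -⟩ := hc1 φ h1 h2 h3 hm1
      have hm2 : m₂ φ = 0 := hc12 φ h1 h2 h3 hm1
      rw [if_pos hZ, (hEp φ hep).2.2]
      simp [hm1, hm2]
  have hlowsum : ∑ φ ∈ R, 2 * (e : ℝ) * ((if m₁ φ ≠ 0 then (1 : ℝ) else 0) +
      (if m₂ φ ≠ 0 then (1 : ℝ) else 0)) = 2 * e * ((a : ℝ) + c) := by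
    rw [← Finset.mul_sum, Finset.sum_add_distrib, ha, hc, Finset.card_filter,
      Finset.card_filter]
    simp only [Nat.cast_sum, Nat.cast_ite, Nat.cast_one, Nat.cast_zero]
  have hpt : ∀ φ ∈ R, (if TrivZ φ.1 then bud φ else 0) =
      2 * (e : ℝ) * ((if m₁ φ ≠ 0 then (1 : ℝ) else 0) +
        (if m₂ φ ≠ 0 then (1 : ℝ) else 0)) := by
    have hle : ∑ φ ∈ R, (if TrivZ φ.1 then bud φ else 0) ≤
        ∑ φ ∈ R, 2 * (e : ℝ) * ((if m₁ φ ≠ 0 then (1 : ℝ) else 0) +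
          (if m₂ φ ≠ 0 then (1 : ℝ) else 0)) := by
      rw [hlowsum]
      have h1 : (e : ℝ) ≤ (a : ℝ) + c + 1 := by exact_mod_cast hac
      have h2 : (0 : ℝ) ≤ (e : ℝ) := Nat.cast_nonneg _
      rw [hpe] at hBsplit
      nlinarith [mul_nonneg h2 (sub_nonneg.mpr h1)]
    have heq := le_antisymm (Finset.sum_le_sum hlow) hle
    exact fun φ hφ => ((Finset.sum_eq_sum_iff_of_le hlow).1 heq φ hφ).symm
  have hm2le : ∀ φ ∈ R, m₂ φ ≤ 1 := by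
    have heq : ∑ φ ∈ R, (if m₂ φ ≠ 0 then 1 else 0) = ∑ φ ∈ R, m₂ φ := by
      rw [← hS, ← Finset.card_filter, ← hc]
      omega
    intro φ hφ
    have h := (Finset.sum_eq_sum_iff_of_le hcSpt).1 heq φ hφ
    rw [← h]
    split_ifs <;> omega
  have he0 : (e : ℂ) ≠ 0 := by
    have : e ≠ 0 := by omega
    exact_mod_cast this
  have he1 : (e : ℂ) + 1 ≠ 0 := by
    have : e + 1 ≠ 0 := by omega
    exact_mod_cast this
  refine ⟨φ₀, hφ₀Z, by rw [← hψ₀]; exact hψne, ?_, ?_⟩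
  · rw [← hψ₀]
    intro φ hZ h1 h2
    have hφ1 : φ.1 1 = (charDegree φ.1 : ℂ) := hdg φ
    by_cases h3 : φ = τ
    · have e1 : φ.1 z = 1 := by rw [h3, hτ]
      have e2 : φ.1 (z ^ k) = 1 := by rw [h3, hτ]
      have e3 : φ.1 1 = 1 := by rw [h3, hτ]
      rw [if_pos ((hτiff φ).2 h3), e1, e2, e3, h3, hτm1, hτm2]
      push_cast
      field_simp
      ring
    · have hφR : φ ∈ R := (hRmem φ).2 ⟨h2, h1, h3⟩
      have hnt : φ.1 ≠ (fun _ => 1) := fun h => h3 ((hτiff φ).1 h)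
      rw [if_neg hnt]
      by_cases hm1 : m₁ φ = 0
      · by_cases hm2 : m₂ φ = 0
        · have h := hpt φ hφR
          rw [if_pos hZ] at h
          simp only [hm1, hm2, ne_eq, not_true_eq_false, if_false, add_zero, mul_zero] at h
          rw [hbz φ h, hm1, hm2]
          simp
        · obtain ⟨-, hem, hd⟩ := hc2 φ h1 h2 hm2
          have hm2' : m₂ φ = 1 :=
            le_antisymm (hm2le φ hφR) (Nat.one_le_iff_ne_zero.mpr hm2)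
          obtain ⟨e1, e2, -⟩ := hEm φ hem
          have hd' : ((charDegree φ.1 : ℕ) : ℂ) = 2 * (e : ℂ) := by
            rw [hd, hp1']
            push_cast
            ring
          rw [e1, e2, hφ1, hd', hm1, hm2']
          push_cast
          field_simp
          ring
      · obtain ⟨-, hep, hd, hm1'⟩ := hc1 φ h1 h2 h3 hm1
        have hm2 : m₂ φ = 0 := hc12 φ h1 h2 h3 hm1
        obtain ⟨e1, e2, -⟩ := hEp φ hep
        have hd' : ((charDegree φ.1 : ℕ) : ℂ) = 2 * ((e : ℂ) + 1) := by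
          rw [hd, hp1]
          push_cast
          ring
        rw [e1, e2, hφ1, hd', hm1', hm2]
        push_cast
        field_simp
        ring
  · rw [← hψ₀, hψz, hψzk, hψ1, hdg φ₀]
    rcases key with ⟨k1, k2, k3, k4⟩ | ⟨k1, k2, k3, k4⟩
    · have k1' : (m₁ φ₀ : ℂ) + (m₁ ψ₀ : ℂ) = 0 := by exact_mod_cast k1
      have k2' : (m₂ φ₀ : ℂ) + (m₂ ψ₀ : ℂ) = 1 := by exact_mod_cast k2
      have h5 : φ₀.1 z * (φ₀.1 z + φ₀.1 (z ^ k)) / ((charDegree φ₀.1 : ℕ) : ℂ) +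
          φ₀.1 (z ^ k) * (φ₀.1 (z ^ k) + φ₀.1 z) / ((charDegree φ₀.1 : ℕ) : ℂ) =
          (φ₀.1 z + φ₀.1 (z ^ k)) ^ 2 / ((charDegree φ₀.1 : ℕ) : ℂ) := by ring
      rw [h5, k1', k2', k3, k4]
      field_simp
      ring
    · have k1' : (m₁ φ₀ : ℂ) + (m₁ ψ₀ : ℂ) = 1 := by exact_mod_cast k1
      have k2' : (m₂ φ₀ : ℂ) + (m₂ ψ₀ : ℂ) = 0 := by exact_mod_cast k2
      have h5 : φ₀.1 z * (φ₀.1 z + φ₀.1 (z ^ k)) / ((charDegree φ₀.1 : ℕ) : ℂ) +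
          φ₀.1 (z ^ k) * (φ₀.1 (z ^ k) + φ₀.1 z) / ((charDegree φ₀.1 : ℕ) : ℂ) =
          (φ₀.1 z + φ₀.1 (z ^ k)) ^ 2 / ((charDegree φ₀.1 : ℕ) : ℂ) := by ring
      rw [h5, k1', k2', k3, k4]
      push_cast
      field_simp
      ring

end Cfsg.Agent.Lib.Helper22.HPT
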