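import Mathlib
import Cfsg.Agent.Lib.Helper72.JLDefs

/-! S2942 project JL (helper72), piece TRA (helper22): transport of the Sylow / characteristic 2
conditions to the group `↥L`. -/

set_option autoImplicit false

namespace Cfsg.Agent.Lib.Helper22.JL

open Cfsg.Agent.Lib.Helper72.JL Cfsg.Agent.Lib.Helper72.SC Cfsg.Agent.Lib.Helper78.Jc

universe u

theorem tra : TraStmt.{u} := by
  intro G _ _ T L hL
  obtain ⟨⟨hTL, hT2, hodd⟩, -, hcent⟩ := hL
  refine ⟨hT2.comap_subtype, hodd, ?_⟩
  intro x hx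
  rw [Subgroup.mem_centralizer_iff] at hx
  have h1 : (x : G) ∈ Subgroup.centralizer (Cfsg.pCoreOf 2 L : Set G) := by
    rw [Subgroup.mem_centralizer_iff]
    intro y hy
    obtain ⟨y', hy', rfl⟩ := hy
    have h2 := hx y' hy'
    have h3 := congrArg (Subtype.val) h2
    simpa using h3
  have h2 := hcent h1
  obtain ⟨x', hx', hxx⟩ := h2
  have h3 : x' = x := Subtype.ext hxx
  rw [← h3]
  exact hx'

end Cfsg.Agent.Lib.Helper22.JL
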