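import Mathlib
import Cfsg.Agent.Lib.Helper72.JLDefs
import Cfsg.Agent.Lib.Helper82.JcOCPC

/-! S2942 project JL (helper72), piece TRB (helper22): the overgroups `L ∈ ℒ(T)` of a ZN-group
are solvable. -/

set_option autoImplicit false

namespace Cfsg.Agent.Lib.Helper22.JL

open Cfsg.Agent.Lib.Helper72.JL Cfsg.Agent.Lib.Helper72.SC Cfsg.Agent.Lib.Helper78.Jc

universe u

theorem trb : TrbStmt.{u} := by
  intro G _ _ hZN T L hL
  obtain ⟨⟨hev, -⟩, hsolv, -⟩ := hZN
  obtain ⟨-, -, hcent⟩ := hL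
  have hP2 : IsPGroup 2 ↥(Cfsg.pCoreOf 2 L) := Cfsg.Agent.Lib.Helper82.Jc.pc_pgroup L
  have hPne : Cfsg.pCoreOf 2 L ≠ ⊥ := by
    intro h0
    rw [h0] at hcent
    have h1 : ∀ g : G, g = 1 := by
      intro g
      have h2 : g ∈ Subgroup.centralizer (((⊥ : Subgroup G) : Subgroup G) : Set G) := by
        rw [Subgroup.mem_centralizer_iff]
        intro y hy
        have hy1 : y = 1 := by simpa using hy
        rw [hy1, one_mul, mul_one]
      exact Subgroup.mem_bot.mp (hcent h2)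
    have h3 : Nat.card G = 1 := by
      rw [Nat.card_eq_one_iff_unique]
      exact ⟨⟨fun a b => by rw [h1 a, h1 b]⟩, ⟨1⟩⟩
    rw [h3] at hev
    exact absurd hev (by decide)
  have hloc : Cfsg.IsTwoLocal (Subgroup.normalizer (Cfsg.pCoreOf 2 L : Set G)) :=
    ⟨Cfsg.pCoreOf 2 L, hP2, hPne, rfl⟩
  have hs := hsolv _ hloc
  have hle : L ≤ Subgroup.normalizer (Cfsg.pCoreOf 2 L : Set G) :=
    Cfsg.Agent.Lib.Helper82.Jc.pc_le_normalizer L
  exact solvable_of_solvable_injective (Subgroup.inclusion_injective hle)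

end Cfsg.Agent.Lib.Helper22.JL
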