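import Mathlib
import Cfsg.Agent.Lib.Helper72.JLDefs
import Cfsg.Agent.Lib.Helper94.JcTH

/-! S2942 project JL (helper72), piece TRK (helper22): the two generation properties of a
`J(T)`-component, transported to `↥L`. -/

set_option autoImplicit false

namespace Cfsg.Agent.Lib.Helper22.JL

open Cfsg.Agent.Lib.Helper72.JL Cfsg.Agent.Lib.Helper72.SC Cfsg.Agent.Lib.Helper78.Jc

open scoped commutatorElement

universe u

theorem trk : TrkStmt.{u} := by
  intro G _ _ T K L hK hKL hTL
  have hJL : Cfsg.thompsonSubgroupOf 2 T ≤ L :=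
    (Cfsg.Agent.Lib.Helper94.Jc.th_le_self T).trans hTL
  have hinj : Function.Injective (Subgroup.map L.subtype) :=
    Subgroup.map_injective L.subtype_injective
  refine ⟨?_, ?_⟩
  · apply hinj
    rw [Subgroup.map_commutator, Subgroup.map_subgroupOf_eq_of_le hKL,
      Subgroup.map_subgroupOf_eq_of_le hJL]
    exact hK.2.1
  · apply hinj
    rw [MonoidHom.map_closure, Subgroup.map_subgroupOf_eq_of_le hKL]
    have hset : (L.subtype '' {g : ↥L | g ∈ K.subgroupOf L ∧ Odd (orderOf g)}) =
        {g : G | g ∈ K ∧ Odd (orderOf g)} := by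
      ext g
      constructor
      · rintro ⟨x, ⟨hx1, hx2⟩, rfl⟩
        refine ⟨Subgroup.mem_subgroupOf.mp hx1, ?_⟩
        rw [Subgroup.coe_subtype, Subgroup.orderOf_coe]
        exact hx2
      · rintro ⟨hg1, hg2⟩
        refine ⟨⟨g, hKL hg1⟩, ⟨Subgroup.mem_subgroupOf.mpr hg1, ?_⟩, rfl⟩
        rw [← Subgroup.orderOf_coe]
        exact hg2
    rw [hset]
    exact hK.1

end Cfsg.Agent.Lib.Helper22.JL
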