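import Mathlib
import Cfsg.Agent.Lib.Helper72.JLDefs
import Cfsg.Agent.Lib.Helper82.JcOCPC
import Cfsg.Agent.Lib.Helper94.JcTH
import Cfsg.Agent.S2941

/-! S2942 project JL (helper72), piece TRQ (helper22): `O₂(↥L)` normalizes `K.subgroupOf L`
(from the landed S2941 with `Q = pCoreOf 2 L`). -/

set_option autoImplicit false

namespace Cfsg.Agent.Lib.Helper22.JL

open Cfsg.Agent.Lib.Helper72.JL Cfsg.Agent.Lib.Helper72.SC Cfsg.Agent.Lib.Helper78.Jc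

universe u

/-- a 2-subgroup of `L` normalized by a Sylow 2-subgroup `T` of `L` lies in `T` -/
theorem trq_le_sylowIn {G : Type*} [Group G] [Finite G] (T L P : Subgroup G) (hTL : T ≤ L)
    (hT2 : IsPGroup 2 ↥T) (hodd : Odd (T.relIndex L)) (hPL : P ≤ L) (hP2 : IsPGroup 2 ↥P)
    (hN : T ≤ Subgroup.normalizer (P : Set G)) : P ≤ T := by
  have hS : IsPGroup 2 (T ⊔ P : Subgroup G) := IsPGroup.to_sup_of_normal_right' hT2 hP2 hN
  have hle : T ⊔ P ≤ L := sup_le hTL hPL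
  have hmul : T.relIndex (T ⊔ P) * (T ⊔ P).relIndex L = T.relIndex L :=
    Subgroup.relIndex_mul_relIndex T (T ⊔ P) L le_sup_left hle
  obtain ⟨n, hn⟩ := IsPGroup.index hS (T.subgroupOf (T ⊔ P))
  have hn' : T.relIndex (T ⊔ P) = 2 ^ n := hn
  rw [hn'] at hmul
  have hn0 : n = 0 := by
    by_contra hne
    have h2dvd : 2 ∣ 2 ^ n * (T ⊔ P).relIndex L := Dvd.dvd.mul_right (dvd_pow_self 2 hne) _
    rw [hmul] at h2dvd
    exact (Nat.not_even_iff_odd.mpr hodd) (even_iff_two_dvd.mpr h2dvd)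
  rw [hn0, pow_zero] at hn'
  exact le_sup_right.trans (Subgroup.relIndex_eq_one.1 hn')

theorem trq : TrqStmt.{u} := by
  intro G _ _ hZN T hT2 hT1 L hL K hK hKL
  obtain ⟨hchar, hsolv, hZ⟩ := hZN
  obtain ⟨⟨hTL, -, hodd⟩, -, -⟩ := hL
  have hPT : Cfsg.pCoreOf 2 L ≤ T :=
    trq_le_sylowIn T L _ hTL hT2 hodd (Cfsg.Agent.Lib.Helper82.Jc.pc_le L)
      (Cfsg.Agent.Lib.Helper82.Jc.pc_pgroup L)
      (hTL.trans (Cfsg.Agent.Lib.Helper82.Jc.pc_le_normalizer L))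
  have hJT : Cfsg.thompsonSubgroupOf 2 T ≤ T := Cfsg.Agent.Lib.Helper94.Jc.th_le_self T
  have hQ1 : K ⊔ Cfsg.thompsonSubgroupOf 2 T ≤
      Subgroup.normalizer (Cfsg.pCoreOf 2 L : Set G) :=
    sup_le (hKL.trans (Cfsg.Agent.Lib.Helper82.Jc.pc_le_normalizer L))
      ((hJT.trans hTL).trans (Cfsg.Agent.Lib.Helper82.Jc.pc_le_normalizer L))
  have hQ2 : Cfsg.pCoreOf 2 L ≤
      Subgroup.normalizer (Cfsg.thompsonSubgroupOf 2 T : Set G) :=
    hPT.trans (Cfsg.Agent.Lib.Helper94.Jc.th_normal T)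
  have hmain := Cfsg.Agent.S2941.result hchar hsolv hZ T hT2 hT1 K hK (Cfsg.pCoreOf 2 L) hQ1 hQ2
  intro q hq
  have hqG : (q : G) ∈ Cfsg.pCoreOf 2 L := ⟨q, hq, rfl⟩
  have hqN := hmain hqG
  rw [Subgroup.mem_normalizer_iff] at hqN ⊢
  intro x
  rw [Subgroup.mem_subgroupOf, Subgroup.mem_subgroupOf]
  have h1 := hqN (x : G)
  simpa using h1

end Cfsg.Agent.Lib.Helper22.JL
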