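import Mathlib
import Cfsg.Prelude.Def_Solvable
import Cfsg.Agent.Lib.Helper5.Klein
import Cfsg.Agent.Lib.Helper81.PSolv2

set_option autoImplicit false

namespace Cfsg.Agent.Lib.Helper22

open Cfsg.Agent.Lib.Helper5 Cfsg.Agent.Lib.Helper81

section KleinCent

variable {G : Type*} [Group G] [Finite G] (P : Sylow 2 G)

/-- In a group with Klein four Sylow 2-subgroup `P`, an element of `N_G(P)` centralizing an
involution of `P` centralizes `P`. -/
theorem klein_normalizer_inf_centralizer (hP : IsKleinFour (P : Subgroup G)) (z : G)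
    (hz : z ∈ (P : Subgroup G)) (hz1 : z ≠ 1) (n : G)
    (hn : n ∈ Subgroup.normalizer ((P : Subgroup G) : Set G)) (hnz : n * z = z * n)
    (x : G) (hx : x ∈ (P : Subgroup G)) : n * x * n⁻¹ = x := by
  by_cases hx1 : x = 1
  · subst hx1; group
  by_cases hxz : x = z
  · subst hxz; rw [hnz, mul_inv_cancel_right]
  by_contra hne
  have hy : n * x * n⁻¹ ∈ (P : Subgroup G) := (Subgroup.mem_normalizer_iff.mp hn x).mp hx
  have hy1 : n * x * n⁻¹ ≠ 1 := by
    intro h
    apply hx1
    calc x = n⁻¹ * (n * x * n⁻¹) * n := by group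
      _ = 1 := by rw [h]; group
  have hyz : n * x * n⁻¹ ≠ z := by
    intro h
    apply hxz
    calc x = n⁻¹ * (n * x * n⁻¹) * n := by group
      _ = n⁻¹ * z * n := by rw [h]
      _ = n⁻¹ * (z * n) := by group
      _ = z := by rw [← hnz]; group
  have hyx := klein_eq_mul P hP z x (n * x * n⁻¹) hz hx hy hz1 hx1 (fun h => hxz h.symm)
    hy1 hyz hne
  refine klein_no_swap P hP n hn x (n * x * n⁻¹) hx (fun h => hne h.symm) rfl ?_
  have hzz : z * z = 1 := klein_mul_self P hP z hz
  calc n * (n * x * n⁻¹) * n⁻¹ = n * (z * x) * n⁻¹ := by rw [← hyx]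
    _ = (n * z) * n⁻¹ * (n * x * n⁻¹) := by group
    _ = z * (z * x) := by rw [hnz, mul_inv_cancel_right, ← hyx]
    _ = x := by rw [← mul_assoc, hzz, one_mul]

theorem klein_le_centralizer (hP : IsKleinFour (P : Subgroup G)) (z : G)
    (hz : z ∈ (P : Subgroup G)) : (P : Subgroup G) ≤ Subgroup.centralizer ({z} : Set G) := by
  intro x hx
  rw [Subgroup.mem_centralizer_iff]
  intro w hw
  rw [Set.mem_singleton_iff] at hw
  subst hw
  exact klein_comm P hP w x hz hx

/-- The 2-part of the order of the centralizer of an involution of the Klein four Sylow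
2-subgroup is 4. -/
theorem klein_centralizer_factorization (hP : IsKleinFour (P : Subgroup G)) (z : G)
    (hz : z ∈ (P : Subgroup G)) :
    (Nat.card (Subgroup.centralizer ({z} : Set G))).factorization 2 = 2 := by
  have hPH := klein_le_centralizer P hP z hz
  have h1 := (P.subtype hPH).card_eq_multiplicity
  have h2 : Nat.card ((P.subtype hPH : Sylow 2 (Subgroup.centralizer ({z} : Set G))) :
      Subgroup (Subgroup.centralizer ({z} : Set G))) = Nat.card (P : Subgroup G) := by
    rw [Sylow.coe_subtype]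
    exact Nat.card_congr (Subgroup.subgroupOfEquivOfLe hPH).toEquiv
  rw [h2, hP.card_four] at h1
  have h3 : (2 : ℕ) ^ 2 = 2 ^ (Nat.card (Subgroup.centralizer ({z} : Set G))).factorization 2 := by
    rw [← h1]; norm_num
  exact (Nat.pow_right_injective (le_refl 2) h3).symm

/-- Burnside: the centralizer of an involution in a group with Klein four Sylow 2-subgroups
has a normal 2-complement; in particular `O_{2'}(C(z))` has 2-power index. -/
theorem klein_centralizer_pPrimeCore_index (hP : IsKleinFour (P : Subgroup G)) (z : G)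
    (hz : z ∈ (P : Subgroup G)) (hz1 : z ≠ 1) :
    ∃ k : ℕ, (Cfsg.pPrimeCore 2 (Subgroup.centralizer ({z} : Set G))).index = 2 ^ k := by
  have hPH := klein_le_centralizer P hP z hz
  set H := Subgroup.centralizer ({z} : Set G) with hH
  set PH : Sylow 2 H := P.subtype hPH with hPHdef
  have hmemPH : ∀ h : H, h ∈ (PH : Subgroup H) ↔ (h : G) ∈ (P : Subgroup G) := by
    intro h
    rw [hPHdef, Sylow.coe_subtype, Subgroup.mem_subgroupOf]
  have hN : Subgroup.normalizer ((PH : Subgroup H) : Set H) ≤
      Subgroup.centralizer ((PH : Subgroup H) : Set H) := by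
    intro n hn
    have hnz : (n : G) * z = z * (n : G) := by
      have hn2 : (n : G) ∈ Subgroup.centralizer ({z} : Set G) := n.2
      rw [Subgroup.mem_centralizer_iff] at hn2
      exact (hn2 z rfl).symm
    have hnN : (n : G) ∈ Subgroup.normalizer ((P : Subgroup G) : Set G) := by
      rw [Subgroup.mem_normalizer_iff]
      intro x
      constructor
      · intro hx
        have := (Subgroup.mem_normalizer_iff.mp hn ⟨x, hPH hx⟩).mp ((hmemPH _).mpr hx)
        exact (hmemPH _).mp this
      · intro hx
        have hxH : (n : G)⁻¹ * ((n : G) * x * (n : G)⁻¹) * (n : G) ∈ H :=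
          H.mul_mem (H.mul_mem (H.inv_mem n.2) (hPH hx)) n.2
        have hxe : (n : G)⁻¹ * ((n : G) * x * (n : G)⁻¹) * (n : G) = x := by group
        rw [hxe] at hxH
        have := (Subgroup.mem_normalizer_iff.mp hn ⟨x, hxH⟩).mpr ((hmemPH _).mpr hx)
        exact (hmemPH _).mp this
    rw [Subgroup.mem_centralizer_iff]
    intro x hx
    have hx' : (x : G) ∈ (P : Subgroup G) := (hmemPH x).mp hx
    have h1 := klein_normalizer_inf_centralizer P hP z hz hz1 (n : G) hnN hnz (x : G) hx'
    apply Subtype.ext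
    push_cast
    calc (x : G) * (n : G) = (n : G) * (x : G) * (n : G)⁻¹ * (n : G) := by rw [h1]
      _ = (n : G) * (x : G) := by group
  set K := (MonoidHom.transferSylow PH hN).ker with hK
  have hcompl : Subgroup.IsComplement' K (PH : Subgroup H) :=
    MonoidHom.ker_transferSylow_isComplement' PH hN
  have hcard : ¬ 2 ∣ Nat.card K := MonoidHom.not_dvd_card_ker_transferSylow PH hN
  have hKn : K.Normal := MonoidHom.normal_ker _
  have hcop : (Nat.card K).Coprime 2 :=
    (Nat.coprime_comm.mp ((Nat.Prime.coprime_iff_not_dvd Nat.prime_two).mpr hcard))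
  have hle : K ≤ Cfsg.pPrimeCore 2 H := le_pPrimeCore 2 K hKn hcop
  have hidx : K.index = Nat.card (PH : Subgroup H) := hcompl.symm.index_eq_card
  have hdvd : (Cfsg.pPrimeCore 2 H).index ∣ K.index := Subgroup.index_dvd_of_le hle
  rw [hidx, PH.card_eq_multiplicity] at hdvd
  obtain ⟨k, -, hk⟩ := (Nat.dvd_prime_pow Nat.prime_two).mp hdvd
  exact ⟨k, hk⟩

end KleinCent

end Cfsg.Agent.Lib.Helper22
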