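import Mathlib
import Cfsg.Agent.Lib.Helper22.SepC
import Cfsg.Agent.Lib.Helper22.Defect
import Cfsg.Agent.Lib.Helper22.BrCorrB
import Cfsg.Agent.Lib.Helper21.Osima
import Cfsg.Agent.Lib.Helper79.Prin
import Cfsg.Agent.S0920

/-!
# Counting the blocks with a Sylow defect group (helper22)

* `card_dblock_le`: for a normal `p`-subgroup `Q`, the number of blocks with defect group `Q`
  is at most the number of classes of `p`-regular elements centralizing `Q` (the central
  characters of these blocks are linearly independent modulo the local ideal on these classes);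
* `card_regCentClass_le`: for a normal Sylow `p`-subgroup the reverse inequality (the classes
  are `p`-separated, `sep_blocks`);
* `card_dblock_eq_normalizer`: Brauer's first main theorem as an equality of cardinalities;
* `card_dblock_sylow`: the number of blocks of `G` with defect group a Sylow `p`-subgroup `P`
  is the number of classes of `N_G(P)` consisting of `p`-regular elements centralizing `P`.
-/

set_option autoImplicit false

namespace Cfsg.Agent.Lib.Helper22

open Cfsg Cfsg.Agent.Lib.Helper4 Cfsg.Agent.Lib.Helper21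
open scoped ComplexConjugate

section NormSyl

variable {H : Type*} [Group H] [Finite H] {p : ℕ} [Fact p.Prime] {M : Ideal AlgInt}

/-- The classes of `p`-regular elements centralizing `Q`. -/
abbrev RegCentClass (p : ℕ) (Q : Subgroup H) : Type _ :=
  {c : ConjClasses H // ∀ n : H, ConjClasses.mk n = c →
    ¬ p ∣ orderOf n ∧ n ∈ Subgroup.centralizer (Q : Set H)}

theorem card_dblock_le (hM : IsPModular p M) (Q : Subgroup H) [hQ : Q.Normal] :
    Nat.card (DBlock p M Q) ≤ Nat.card (RegCentClass p Q) := by
  classical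
  have hp : p.Prime := Fact.out
  have := Fintype.ofFinite H
  have hfin : Finite (IrrCharacter H) := irr_finite
  have := Fintype.ofFinite (IrrCharacter H)
  have := Fintype.ofFinite (DBlock p M Q)
  choose rep hrep using fun B : DBlock p M Q => exists_mem_of_isPBlock hM B.2.1
  let Ω : Matrix (DBlock p M Q) (RegCentClass p Q) ℂ := fun B c =>
    centralChar (rep B : H → ℂ) (Quotient.out c.1)
  let A : Matrix (RegCentClass p Q) (DBlock p M Q) ℂ := fun c B =>
    blockCoeff B.1 (Quotient.out c.1)
  have hΩ : ∀ B c, MemLocalRing M (Ω B c) := fun B c => centralChar_locRing hM _ _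
  have hA : ∀ c B, MemLocalRing M (A c B) := fun c B => osima hM B.1 B.2.1 _
  have hkey : ∀ B B', MemLocalIdeal M ((Ω * A) B B' - if B = B' then ((1 : ℕ) : ℂ) else 0) := by
    intro B B'
    have h1 := omega_blockCoeff B'.1 (rep B)
    have e0 : (if rep B ∈ B'.1 then (1 : ℂ) else 0) = if B = B' then ((1 : ℕ) : ℂ) else 0 := by
      by_cases hBB : B = B'
      · rw [if_pos hBB, if_pos (hBB ▸ hrep B), Nat.cast_one]
      · rw [if_neg hBB, if_neg]
        intro hmem
        exact hBB (Subtype.ext (block_eq_of_mem_of_mem hM B.2.1 B'.2.1 (rep B) (hrep B) hmem))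
    rw [e0] at h1
    have hθ : IsClassFunction H (fun g => blockCoeff B'.1 g *
        ((rep B : H → ℂ) g / (rep B : H → ℂ) 1)) := by
      intro g k
      simp only [blockCoeff_isClassFunction B'.1 g k, isClassFunction_irr (rep B) g k]
    have h2 : omega (rep B : H → ℂ) (blockCoeff B'.1) =
        ∑ c : ConjClasses H, blockCoeff B'.1 (Quotient.out c) *
          centralChar (rep B : H → ℂ) (Quotient.out c) := by
      have h3 : omega (rep B : H → ℂ) (blockCoeff B'.1) =
          ∑ g, blockCoeff B'.1 g * ((rep B : H → ℂ) g / (rep B : H → ℂ) 1) := by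
        simp only [omega_def, Finset.sum_div]
        refine Finset.sum_congr rfl fun g _ => ?_
        ring
      rw [h3, sum_eq_sum_conjClasses hθ]
      refine Finset.sum_congr rfl fun c _ => ?_
      unfold centralChar
      ring
    rw [h2] at h1
    have h4 : ∑ c : RegCentClass p Q, blockCoeff B'.1 (Quotient.out c.1) *
          centralChar (rep B : H → ℂ) (Quotient.out c.1) +
        ∑ c : {c : ConjClasses H // ¬ ∀ n : H, ConjClasses.mk n = c →
          ¬ p ∣ orderOf n ∧ n ∈ Subgroup.centralizer (Q : Set H)},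
          blockCoeff B'.1 (Quotient.out c.1) * centralChar (rep B : H → ℂ) (Quotient.out c.1) =
        ∑ c : ConjClasses H, blockCoeff B'.1 (Quotient.out c) *
          centralChar (rep B : H → ℂ) (Quotient.out c) :=
      Fintype.sum_subtype_add_sum_subtype
        (fun c : ConjClasses H => ∀ n : H, ConjClasses.mk n = c →
          ¬ p ∣ orderOf n ∧ n ∈ Subgroup.centralizer (Q : Set H))
        (fun c => blockCoeff B'.1 (Quotient.out c) *
          centralChar (rep B : H → ℂ) (Quotient.out c))
    rw [← h4] at h1
    have h5 : (Ω * A) B B' = ∑ c : RegCentClass p Q, blockCoeff B'.1 (Quotient.out c.1) *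
        centralChar (rep B : H → ℂ) (Quotient.out c.1) := by
      rw [Matrix.mul_apply]
      exact Finset.sum_congr rfl fun c _ => mul_comm _ _
    rw [h5, ← h1, sub_add_cancel_left]
    refine locIdeal_neg (locIdeal_sum hM _ _ fun c _ => ?_)
    have hc := c.2
    push Not at hc
    obtain ⟨n, hn, hbad⟩ := hc
    have hconj : IsConj n (Quotient.out c.1) := by
      rw [← ConjClasses.mk_eq_mk_iff_isConj, hn, ← ConjClasses.quotient_mk_eq_mk]
      exact (Quotient.out_eq c.1).symm
    obtain ⟨g, hg⟩ := isConj_iff.mp hconj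
    by_cases hsing : p ∣ orderOf n
    · have h0 : blockCoeff B'.1 (Quotient.out c.1) = 0 := by
        by_contra hne
        refine pRegular_of_blockCoeff_ne_zero hM B'.1 B'.2.1 _ hne ?_
        rw [← hg]
        have e1 : orderOf (g * n * g⁻¹) = orderOf n := (MulAut.conj g).orderOf_eq n
        rw [e1]; exact hsing
      rw [h0, zero_mul]
      exact locIdeal_zero hM
    · have hnC := hbad hsing
      refine locIdeal_mul_left hM (osima hM B'.1 B'.2.1 _) ?_
      by_contra hunit
      obtain ⟨z, hz⟩ := exists_conj_le_centralizer_of_centralChar_unit hM B.1 B.2.1 Q B.2.2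
        (rep B) (hrep B) _ hunit
      rw [map_conj_eq_of_normal, le_centralizer_singleton_iff] at hz
      apply hnC
      have e2 : n = g⁻¹ * Quotient.out c.1 * g := by rw [← hg]; group
      rw [e2]
      have hN : (Subgroup.centralizer (Q : Set H)).Normal := Subgroup.normal_centralizer
      have h6 := hN.conj_mem _ hz g⁻¹
      rwa [inv_inv] at h6
  obtain ⟨f, hf, -⟩ := exists_fun_det_not_locIdeal hM Ω A hΩ hA 1 hp.not_dvd_one hkey
  rw [Nat.card_eq_fintype_card, Nat.card_eq_fintype_card]
  exact Fintype.card_le_of_injective f hf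

theorem card_regCentClass_le (hM : IsPModular p M) (Q : Subgroup H) [hQ : Q.Normal]
    (hQcard : Nat.card Q = p ^ (Nat.card H).factorization p) :
    Nat.card (RegCentClass p Q) ≤ Nat.card (DBlock p M Q) := by
  classical
  have hp : p.Prime := Fact.out
  obtain ⟨r, hr⟩ : ∃ r, r = Nat.card (RegCentClass p Q) := ⟨_, rfl⟩
  have e : RegCentClass p Q ≃ Fin r := hr ▸ Finite.equivFin _
  let x : Fin r → H := fun i => Quotient.out (e.symm i).1
  have hmk : ∀ i, ConjClasses.mk (x i) = (e.symm i).1 := fun i => by
    rw [← ConjClasses.quotient_mk_eq_mk]; exact Quotient.out_eq _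
  have hprop : ∀ i g, IsConj (x i) g →
      ¬ p ∣ orderOf g ∧ g ∈ Subgroup.centralizer (Q : Set H) := by
    intro i g hg
    exact (e.symm i).2 g (by rw [← hmk i]; exact (ConjClasses.mk_eq_mk_iff_isConj.mpr hg).symm)
  have hx : ∀ i j, IsConj (x i) (x j) → i = j := by
    intro i j h
    have h1 : (e.symm i).1 = (e.symm j).1 := by
      rw [← hmk i, ← hmk j]; exact ConjClasses.mk_eq_mk_iff_isConj.mpr h
    exact e.symm.injective (Subtype.ext h1)
  have hD : ∀ i, IsSylowOf p (Subgroup.centralizer ({x i} : Set H)) Q := by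
    intro i
    rw [isSylowOf_iff]
    have hle : Q ≤ Subgroup.centralizer ({x i} : Set H) :=
      (le_centralizer_singleton_iff _ _).mpr (hprop i (x i) (IsConj.refl _)).2
    refine ⟨hle, ?_⟩
    rw [hQcard]
    congr 1
    apply le_antisymm
    · have h1 : p ^ (Nat.card H).factorization p ∣
          Nat.card (Subgroup.centralizer ({x i} : Set H)) := by
        rw [← hQcard]; exact Subgroup.card_dvd_of_le hle
      exact (hp.pow_dvd_iff_le_factorization Nat.card_pos.ne').mp h1
    · exact (Nat.factorization_le_iff_dvd Nat.card_pos.ne' Nat.card_pos.ne').mpr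
        (Subgroup.card_subgroup_dvd_card _) p
  have hsep : ∀ i j g h, IsConj (x i) g → IsConj (x j) h → ∀ k, 0 < k →
      orderOf (g * h⁻¹) ≠ p ^ k := by
    intro i j g h hg hh k hk hord
    obtain ⟨hgreg, hgC⟩ := hprop i g hg
    obtain ⟨hhreg, hhC⟩ := hprop j h hh
    have huQ : g * h⁻¹ ∈ Q := by
      have hpg : IsPGroup p (Subgroup.zpowers (g * h⁻¹)) := by
        apply IsPGroup.of_card (n := k); rw [Nat.card_zpowers, hord]
      obtain ⟨S', hS'⟩ := hpg.exists_le_sylow
      obtain ⟨z, hz⟩ := MulAction.exists_smul_eq H (Sylow.ofCard Q hQcard) S'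
      have : ((Sylow.ofCard Q hQcard : Sylow p H) : Subgroup H).Normal := by
        rw [Sylow.coe_ofCard]; exact hQ
      rw [Sylow.smul_eq_of_normal] at hz
      have h1 : g * h⁻¹ ∈ (S' : Subgroup H) := hS' (Subgroup.mem_zpowers _)
      rw [← hz, Sylow.coe_ofCard] at h1
      exact h1
    have hcomm : Commute (g * h⁻¹) h := Subgroup.mem_centralizer_iff.mp hhC _ huQ
    have hg' : g = g * h⁻¹ * h := by group
    have hcop : Nat.Coprime (orderOf (g * h⁻¹)) (orderOf h) := by
      rw [hord]; exact Nat.Coprime.pow_left k ((Nat.Prime.coprime_iff_not_dvd hp).mpr hhreg)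
    have h1 := hcomm.orderOf_mul_eq_mul_orderOf_of_coprime hcop
    rw [← hg', hord] at h1
    exact hgreg (h1 ▸ (dvd_mul_of_dvd_left (dvd_pow_self p hk.ne') _))
  obtain ⟨B, hBinj, hB, -⟩ := sep_blocks hM Q x hx hD hsep
  have hinj : Function.Injective (fun i : Fin r => (⟨B i, hB i⟩ : DBlock p M Q)) :=
    fun i j h => hBinj (congrArg Subtype.val h)
  have h2 := Nat.card_le_card_of_injective _ hinj
  rwa [Nat.card_fin, hr] at h2

theorem card_dblock_normal_sylow (hM : IsPModular p M) (Q : Subgroup H) [hQ : Q.Normal]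
    (hQcard : Nat.card Q = p ^ (Nat.card H).factorization p) :
    Nat.card (DBlock p M Q) = Nat.card (RegCentClass p Q) :=
  le_antisymm (card_dblock_le hM Q) (card_regCentClass_le hM Q hQcard)

end NormSyl

section FMT

variable {G : Type*} [Group G] [Finite G] {p : ℕ} [Fact p.Prime] {M : Ideal AlgInt}

/-- Brauer's first main theorem as an equality of cardinalities. -/
theorem card_dblock_eq_normalizer (hM : IsPModular p M) (D : Subgroup G) (hD : IsPGroup p D) :
    Nat.card (DBlock p M (D.subgroupOf (Subgroup.normalizer (D : Set G)))) =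
      Nat.card (DBlock p M D) := by
  obtain ⟨h1, h2⟩ := Cfsg.Agent.S0920.result p M hM D hD
  choose F hF using fun b : DBlock p M (D.subgroupOf (Subgroup.normalizer (D : Set G))) =>
    h1 b.1 b.2.1 b.2.2
  refine Nat.card_congr (Equiv.ofBijective (fun b => (⟨F b, (hF b).1, (hF b).2.1⟩ : DBlock p M D))
    ⟨?_, ?_⟩)
  · intro b b' hbb
    have hFF : F b = F b' := congrArg Subtype.val hbb
    obtain ⟨b₀, -, huniq⟩ := h2 (F b) (hF b).1 (hF b).2.1
    have e1 := huniq b.1 ⟨b.2.1, b.2.2, (hF b).2.2⟩
    have e2 := huniq b'.1 ⟨b'.2.1, b'.2.2, hFF ▸ (hF b').2.2⟩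
    exact Subtype.ext (e1.trans e2.symm)
  · intro B
    obtain ⟨b, ⟨hb1, hb2, hb3⟩, -⟩ := h2 B.1 B.2.1 B.2.2
    refine ⟨⟨b, hb1, hb2⟩, Subtype.ext ?_⟩
    exact Cfsg.Agent.Lib.Helper79.inducedBlock_unique hM (hF ⟨b, hb1, hb2⟩).2.2 hb3

/-- The number of blocks with defect group a Sylow `p`-subgroup `P` equals the number of classes
of `N_G(P)` consisting of `p`-regular elements centralizing `P`. -/
theorem card_dblock_sylow (hM : IsPModular p M) (P : Sylow p G) :
    Nat.card {B : Set (IrrCharacter G) // IsPBlock M B ∧ IsDefectGroup p M B (P : Subgroup G)} =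
      Nat.card {C : ConjClasses (Subgroup.normalizer ((P : Subgroup G) : Set G)) //
        ∀ n : Subgroup.normalizer ((P : Subgroup G) : Set G), ConjClasses.mk n = C →
          ¬ p ∣ orderOf n ∧ (n : G) ∈ Subgroup.centralizer ((P : Subgroup G) : Set G)} := by
  have hp : p.Prime := Fact.out
  have hPN : (P : Subgroup G) ≤ Subgroup.normalizer ((P : Subgroup G) : Set G) :=
    Subgroup.le_normalizer
  have hn : ((P : Subgroup G).subgroupOf
      (Subgroup.normalizer ((P : Subgroup G) : Set G))).Normal := Subgroup.normal_in_normalizer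
  have hcard : Nat.card ((P : Subgroup G).subgroupOf
      (Subgroup.normalizer ((P : Subgroup G) : Set G))) =
      p ^ (Nat.card (Subgroup.normalizer ((P : Subgroup G) : Set G))).factorization p := by
    have h1 : Nat.card ((P : Subgroup G).subgroupOf
        (Subgroup.normalizer ((P : Subgroup G) : Set G))) = Nat.card (P : Subgroup G) :=
      Nat.card_congr (Subgroup.subgroupOfEquivOfLe hPN).toEquiv
    rw [h1, P.card_eq_multiplicity]
    congr 1
    apply le_antisymm
    · have h2 : p ^ (Nat.card G).factorization p ∣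
          Nat.card (Subgroup.normalizer ((P : Subgroup G) : Set G)) := by
        rw [← P.card_eq_multiplicity]; exact Subgroup.card_dvd_of_le hPN
      exact (hp.pow_dvd_iff_le_factorization Nat.card_pos.ne').mp h2
    · exact (Nat.factorization_le_iff_dvd Nat.card_pos.ne' Nat.card_pos.ne').mpr
        (Subgroup.card_subgroup_dvd_card _) p
  have e1 := card_dblock_eq_normalizer hM (P : Subgroup G) P.isPGroup'
  have e2 := card_dblock_normal_sylow hM ((P : Subgroup G).subgroupOf
      (Subgroup.normalizer ((P : Subgroup G) : Set G))) hcard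
  have e3 : Nat.card (RegCentClass p ((P : Subgroup G).subgroupOf
      (Subgroup.normalizer ((P : Subgroup G) : Set G)))) =
      Nat.card {C : ConjClasses (Subgroup.normalizer ((P : Subgroup G) : Set G)) //
        ∀ n : Subgroup.normalizer ((P : Subgroup G) : Set G), ConjClasses.mk n = C →
          ¬ p ∣ orderOf n ∧ (n : G) ∈ Subgroup.centralizer ((P : Subgroup G) : Set G)} :=
    Nat.card_congr (Equiv.subtypeEquivRight fun c => forall_congr' fun n =>
      imp_congr_right fun _ => and_congr_right fun _ => mem_centralizer_subgroupOf_iff hPN n)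
  exact e1.symm.trans (e2.trans e3)

end FMT

end Cfsg.Agent.Lib.Helper22
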