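import Mathlib
import Cfsg.Prelude.Def_Characters
import Cfsg.Agent.Lib.Helper22.BFDefs

/-!
# S4705 project (helper22, "PT"): definitions

`G` finite, `p > 5` a prime with `p ∥ |G|`, `z` of order `p` with `⟨z⟩` not normal, `ζ` a faithful
irreducible character of degree `p - 2`.
* `ev p w v t = w ^ (v t) + w ^ (-(v t))` (`w` a primitive `p`-th root of unity);
* `Hyp`: the hypotheses; `Loc`: the local facts (`z ∼ z⁻¹`, `z ^ k ∼ z → k = ± 1`,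
  `∑_t ζ (z ^ t) = p`, `p`-regular elements of `C_G(z)` are central);
* `cz ζ c = ζ c / ζ 1` (the central character), `ZC η φ`: `φ (c g) = η c φ g` for central `c`;
* `Blk`: the structure of the irreducible characters with central character `η` on `⟨z⟩`;
* `Sq2`: the exponent `s` (`g ^ s = g` on `{2, p}`-elements, `g ^ s = g ^ 2` on `p`-regular
  elements of odd order); `Dec`: decomposition of a character along `Blk`.
-/

set_option autoImplicit false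

namespace Cfsg.Agent.Lib.Helper22.PT

open Cfsg
open scoped ComplexConjugate

universe u

/-- `ev p w v t = w ^ (v t) + w ^ (-(v t))`. -/
noncomputable def ev (p : ℕ) [Fact p.Prime] (w : ℂ) (v t : ZMod p) : ℂ :=
  w ^ (v * t).val + w ^ (-(v * t)).val

/-- The hypotheses of the project. -/
structure Hyp (G : Type u) [Group G] (p : ℕ) (z : G) (ζ : G → ℂ) : Prop where
  p5 : 5 < p
  ord : orderOf z = p
  sq : ¬ p ^ 2 ∣ Nat.card G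
  nn : ¬ (Subgroup.zpowers z).Normal
  irr : IsIrrCharacter G ζ
  faith : ∀ g : G, ζ g = ζ 1 → g = 1
  deg : ζ 1 = (p : ℂ) - 2

/-- The local facts. -/
structure Loc (G : Type u) [Group G] (p : ℕ) [Fact p.Prime] (z : G) (ζ : G → ℂ) : Prop where
  inv : ∃ n : G, n * z * n⁻¹ = z⁻¹
  cnj : ∀ k : ZMod p, IsConj (z ^ k.val) z → k = 1 ∨ k = -1
  fix : ∑ t : ZMod p, ζ (z ^ t.val) = (p : ℂ)
  cen : ∀ y : G, y * z = z * y → ¬ p ∣ orderOf y → y ∈ Subgroup.center G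

/-- The central character of `ζ` (as a function on `G`, meaningful on the centre). -/
noncomputable def cz {G : Type u} (ζ : G → ℂ) [One G] : G → ℂ := fun c => ζ c / ζ 1

/-- `φ` has central character `η`: `φ (c g) = η c φ g` for central `c`. -/
def ZC {G : Type u} [Group G] (η φ : G → ℂ) : Prop :=
  ∀ c ∈ Subgroup.center G, ∀ g : G, φ (c * g) = η c * φ g

/-- The irreducible characters with central character `η`, on the powers of `z`. -/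
structure Blk (G : Type u) [Group G] (p : ℕ) [Fact p.Prime] (w : ℂ) (z : G) (η : G → ℂ)
    (u : ZMod p) (χ₁ χ₂ : IrrCharacter G) (Y : (ZMod p)ˣ → IrrCharacter G) : Prop where
  zc1 : ZC η χ₁.1
  zc2 : ZC η χ₂.1
  zcY : ∀ k, ZC η (Y k).1
  val1 : ∀ t : ZMod p, t ≠ 0 → χ₁.1 (z ^ t.val) = 1
  val2 : ∀ t : ZMod p, t ≠ 0 → χ₂.1 (z ^ t.val) = -1
  valY : ∀ (k : (ZMod p)ˣ) (t : ZMod p), t ≠ 0 → (Y k).1 (z ^ t.val) = -ev p w (u * k) t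
  degY : ∀ k, (Y k).1 1 = (p : ℂ) - 2
  deg1 : ∃ a : ℕ, χ₁.1 1 = 1 + (a : ℂ) * p
  deg2 : χ₂.1 1 = χ₁.1 1 + ((p : ℂ) - 2)
  regY : ∀ (k : (ZMod p)ˣ) (g : G), ¬ p ∣ orderOf g → (Y k).1 g = (Y 1).1 g
  eqY : ∀ k l : (ZMod p)ˣ, Y k = Y l ↔ (k = l ∨ k = -l)
  ne12 : χ₁ ≠ χ₂
  neY1 : ∀ k, Y k ≠ χ₁
  neY2 : ∀ k, Y k ≠ χ₂
  rest : ∀ φ : IrrCharacter G, ZC η φ.1 → φ = χ₁ ∨ φ = χ₂ ∨ (∃ k, φ = Y k) ∨
    ∀ t : ZMod p, t ≠ 0 → φ.1 (z ^ t.val) = 0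

/-- The exponent `s`. -/
structure Sq2 (G : Type u) [Group G] (p : ℕ) (s : ℕ) : Prop where
  cop : s.Coprime (Nat.card G)
  fix : ∀ g : G, (∀ q : ℕ, q.Prime → q ∣ orderOf g → q = 2 ∨ q = p) → g ^ s = g
  sq : ∀ g : G, Odd (orderOf g) → ¬ p ∣ orderOf g → g ^ s = g ^ 2

open Classical in
/-- Twisted column orthogonality on the powers of `z`. -/
def TwCol {G : Type u} [Group G] [Fintype (IrrCharacter G)] (p : ℕ) [Fact p.Prime] (z : G)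
    (η : G → ℂ) : Prop :=
  ∀ j k : ZMod p, k ≠ 0 →
    ∑ φ : IrrCharacter G,
      (if ZC η φ.1 then φ.1 (z ^ j.val) * conj (φ.1 (z ^ k.val)) else 0) =
      if j = k ∨ j = -k then (p : ℂ) else 0

/-- Galois exponents. -/
def GExp (G : Type u) [Group G] (p : ℕ) [Fact p.Prime] : Prop :=
  ∀ k : (ZMod p)ˣ, ∃ m : ℕ, m.Coprime (Nat.card G) ∧ (m : ZMod p) = (k : ZMod p) ∧
    ∀ g : G, ¬ p ∣ orderOf g → g ^ m = g

/-- Decomposition of a character `Ξ` along `Blk`. -/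
def Dec {G : Type u} [Group G] [Fintype G] (p : ℕ) [Fact p.Prime] (z : G)
    (χ₁ χ₂ : IrrCharacter G) (Y : (ZMod p)ˣ → IrrCharacter G) (Ξ : G → ℂ) : Prop :=
  ∃ (α β : ℕ) (n : (ZMod p)ˣ → ℕ) (Δ : G → ℂ), (∀ k, n (-k) = n k) ∧
    (∀ g, 2 * Ξ g = 2 * (α : ℂ) * χ₁.1 g + 2 * (β : ℂ) * χ₂.1 g +
      ∑ k, (n k : ℂ) * (Y k).1 g + 2 * Δ g) ∧
    (∀ t : ZMod p, t ≠ 0 → Δ (z ^ t.val) = 0) ∧ (∃ d : ℕ, Δ 1 = (d : ℂ)) ∧
    (Δ 1 = 0 → ∀ g, Δ g = 0) ∧ (∀ k, ∑ g : G, Δ g * conj ((Y k).1 g) = 0)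

/-- The orbit lemma, as a property of a function `ζ` and an exponent `s`. -/
def Orb {G : Type u} [Group G] (ζ : G → ℂ) (s : ℕ) : Prop :=
  ∀ (C : ℝ), 0 < C → ∀ g : G, s.Coprime (orderOf g) →
    (∀ j : ℕ, ζ (g ^ (s ^ j)) ^ 2 = (C : ℂ) * ζ (g ^ (s ^ (j + 1)))) →
    (∀ j : ℕ, ‖ζ (g ^ (s ^ j))‖ ≤ C) → ζ g = 0 ∨ ‖ζ g‖ = C

open Classical in
/-- Sum over the `p`-singular elements of a class function. -/
def Sing {G : Type u} [Group G] [Fintype G] (p : ℕ) [Fact p.Prime] (z : G) : Prop :=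
  ∀ F : G → ℂ, (∀ g x : G, F (x * g * x⁻¹) = F g) →
    ∑ g : G, (if p ∣ orderOf g then F g else 0) =
      ((Nat.card G : ℂ) / (2 * (p : ℂ) * (Nat.card (Subgroup.center G) : ℂ))) *
        ∑ t : ZMod p, ∑ c : G,
          (if t ≠ 0 ∧ c ∈ Subgroup.center G then F (z ^ t.val * c) else 0)

/-- The family of `p`-conjugates of `ζ`. -/
def YFam {G : Type u} [Group G] (p : ℕ) [Fact p.Prime] (w : ℂ) (z : G) (ζ : G → ℂ)
    (u : ZMod p) (Y : (ZMod p)ˣ → IrrCharacter G) : Prop :=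
  (Y 1).1 = ζ ∧ (∀ k, ZC (cz ζ) (Y k).1) ∧
  (∀ (k : (ZMod p)ˣ) (t : ZMod p), t ≠ 0 → (Y k).1 (z ^ t.val) = -ev p w (u * k) t) ∧
  (∀ k, (Y k).1 1 = (p : ℂ) - 2) ∧
  (∀ (k : (ZMod p)ˣ) (g : G), ¬ p ∣ orderOf g → (Y k).1 g = ζ g) ∧
  (∀ k l : (ZMod p)ˣ, Y k = Y l ↔ (k = l ∨ k = -l))

open Classical in
/-- The irreducible characters with central character `η` outside the family `Y`. -/
def RestP {G : Type u} [Group G] [Fintype (IrrCharacter G)] (p : ℕ) [Fact p.Prime] (z : G)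
    (η : G → ℂ) (Y : (ZMod p)ˣ → IrrCharacter G) : Prop :=
  (∀ φ : IrrCharacter G, ZC η φ.1 → (∀ k, φ ≠ Y k) →
    ∃ n : ℤ, ∀ t : ZMod p, t ≠ 0 → φ.1 (z ^ t.val) = (n : ℂ)) ∧
  (∑ φ : IrrCharacter G,
    (if ZC η φ.1 ∧ ∀ k, φ ≠ Y k then φ.1 z * conj (φ.1 z) else 0) = 2) ∧
  (∑ φ : IrrCharacter G,
    (if ZC η φ.1 ∧ ∀ k, φ ≠ Y k then φ.1 1 * conj (φ.1 z) else 0) = -((p : ℂ) - 2))

end Cfsg.Agent.Lib.Helper22.PT
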