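import Cfsg.Agent.Lib.Helper22.PTDefs
import Cfsg.Agent.Lib.Helper4.FrobSchur

/-!
# S4705 project (helper22, "PT"): the exterior square character
-/

set_option autoImplicit false

namespace Cfsg.Agent.Lib.Helper22.PT

open Cfsg

universe u

/-- PIECE EXT2 -/
theorem ext2 {G : Type u} [Group G] (χ : G → ℂ) (hχ : IsCharacter G χ) :
    IsCharacter G (fun g => (χ g ^ 2 - χ (g ^ 2)) / 2) := by
  obtain ⟨n, ρ, rfl⟩ := hχ
  have h := Cfsg.Agent.Lib.Helper4.isCharacter_of_rep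
    (V := ↥(Cfsg.Agent.Lib.Helper4.altSub ρ).toSubmodule)
    (Cfsg.Agent.Lib.Helper4.altSub ρ).toRepresentation
  convert h using 1
  funext g
  have h1 := Cfsg.Agent.Lib.Helper4.char_sq_eq ρ g
  have h2 := Cfsg.Agent.Lib.Helper4.char_sq_arg_eq ρ g
  rw [pow_two, pow_two, h1, h2]
  ring

end Cfsg.Agent.Lib.Helper22.PT
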