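import Cfsg.Agent.Lib.Helper22.PTDefs
import Cfsg.Agent.Lib.Helper22.PTAux

/-!
# S4705 project (helper22, "PT"): the sum of a class function over the `p`-singular elements
-/

set_option autoImplicit false

namespace Cfsg.Agent.Lib.Helper22.PT

open Cfsg

universe u

variable {G : Type u} [Group G] [Fintype G]

/-- A central element with `c ^ p = 1` is trivial. -/
theorem sing_ctor (p : ℕ) [Fact p.Prime] (z : G) (ζ : G → ℂ) (h : Hyp G p z ζ) (c : G)
    (hc : c ∈ Subgroup.center G) (hcp : c ^ p = 1) : c = 1 := by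
  have hp : p.Prime := Fact.out
  by_contra hne
  have ho : orderOf c = p := orderOf_eq_prime hcp hne
  obtain ⟨Q, hQ⟩ := aux_sylow p z h.ord h.sq
  have hpx : IsPGroup p (Subgroup.zpowers c) := by
    apply IsPGroup.of_card (n := 1)
    rw [Nat.card_zpowers, ho, pow_one]
  obtain ⟨Q', hQ'⟩ := hpx.exists_le_sylow
  obtain ⟨a, ha⟩ := MulAction.exists_smul_eq G Q' Q
  have hmem : a * c * a⁻¹ ∈ Subgroup.zpowers z := by
    rw [← hQ, ← ha, Sylow.coe_subgroup_smul]
    have := Subgroup.smul_mem_pointwise_smul c (MulAut.conj a)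
      (Q' : Subgroup G) (hQ' (Subgroup.mem_zpowers c))
    simpa using this
  have hca : a * c * a⁻¹ = c := by
    have hc' := Subgroup.mem_center_iff.mp hc a
    rw [hc', mul_inv_cancel_right]
  rw [hca, Subgroup.mem_zpowers_iff] at hmem
  obtain ⟨i, hi⟩ := hmem
  have hi' : z ^ ((i : ZMod p).val) = c := by
    rw [← aux_zpow_val p z h.ord i, hi]
  by_cases h0 : (i : ZMod p) = 0
  · rw [h0, ZMod.val_zero, pow_zero] at hi'
    exact hne hi'.symm
  · exact aux_znc p z ζ h _ h0 (hi' ▸ hc)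

theorem sing_inj (p : ℕ) [Fact p.Prime] (z : G) (ζ : G → ℂ) (h : Hyp G p z ζ) (t t' : ZMod p)
    (c c' : G) (hc : c ∈ Subgroup.center G) (hc' : c' ∈ Subgroup.center G)
    (hE : z ^ t.val * c = z ^ t'.val * c') : t = t' ∧ c = c' := by
  have htt : t = t' := by
    by_contra hne
    have hd : t - t' ≠ 0 := sub_ne_zero.mpr hne
    apply aux_znc p z ζ h (t - t') hd
    have h1 : z ^ t.val = z ^ (t - t').val * z ^ t'.val := by
      rw [← pow_add]
      apply aux_pow_congr p z h.ord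
      push_cast
      rw [ZMod.natCast_rightInverse t, ZMod.natCast_rightInverse (t - t'),
        ZMod.natCast_rightInverse t']
      ring
    rw [h1] at hE
    have hcc' := Subgroup.mem_center_iff.mp hc' (z ^ t'.val)
    have h2 : z ^ (t - t').val = c' * c⁻¹ := by
      have h3 : z ^ (t - t').val * z ^ t'.val * c = c' * z ^ t'.val := by
        rw [hE, hcc']
      have hcc := Subgroup.mem_center_iff.mp hc (z ^ t'.val)
      have h4 : z ^ (t - t').val * c * z ^ t'.val = c' * z ^ t'.val := by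
        rw [mul_assoc, ← hcc, ← mul_assoc]
        exact h3
      have h5 := mul_right_cancel h4
      rw [← h5, mul_inv_cancel_right]
    rw [h2]
    exact Subgroup.mul_mem _ hc' (Subgroup.inv_mem _ hc)
  subst htt
  exact ⟨rfl, mul_left_cancel hE⟩

theorem sing_conj (p : ℕ) [Fact p.Prime] (z : G) (hz : orderOf z = p) (x : G) (k t : ZMod p)
    (hk : x * z * x⁻¹ = z ^ k.val) (c : G) (hc : c ∈ Subgroup.center G) :
    x * (z ^ t.val * c) * x⁻¹ = z ^ (k * t).val * c := by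
  have h1 : x * z ^ t.val * x⁻¹ = z ^ (k * t).val := by
    rw [← conj_pow, hk, ← pow_mul]
    apply aux_pow_congr p z hz
    push_cast
    rw [ZMod.natCast_rightInverse k, ZMod.natCast_rightInverse t,
      ZMod.natCast_rightInverse (k * t)]
  have hcx := Subgroup.mem_center_iff.mp hc x⁻¹
  calc x * (z ^ t.val * c) * x⁻¹ = x * z ^ t.val * (c * x⁻¹) := by group
    _ = x * z ^ t.val * (x⁻¹ * c) := by rw [hcx]
    _ = (x * z ^ t.val * x⁻¹) * c := by group
    _ = _ := by rw [h1]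

theorem sing_solve (p : ℕ) [Fact p.Prime] (z : G) (ζ : G → ℂ) (h : Hyp G p z ζ) (x : G)
    (t t₀ : ZMod p) (ht : t ≠ 0) (c u₀ : G) (hc : c ∈ Subgroup.center G)
    (hu₀ : u₀ ∈ Subgroup.center G)
    (hE : x * (z ^ t.val * c) * x⁻¹ = z ^ t₀.val * u₀) :
    x * z * x⁻¹ = z ^ (t₀ * t⁻¹).val ∧ c = u₀ := by
  have hp : p.Prime := Fact.out
  have hcx := Subgroup.mem_center_iff.mp hc x⁻¹
  have h1 : (x * z ^ t.val * x⁻¹) * c = z ^ t₀.val * u₀ := by
    rw [← hE]
    calc (x * z ^ t.val * x⁻¹) * c = x * z ^ t.val * (x⁻¹ * c) := by group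
      _ = x * z ^ t.val * (c * x⁻¹) := by rw [hcx]
      _ = _ := by group
  have hzp : ∀ m : ℕ, (z ^ m) ^ p = 1 := by
    intro m
    rw [← pow_mul, mul_comm, pow_mul, ← h.ord, pow_orderOf_eq_one, one_pow]
  have hyp : (x * z ^ t.val * x⁻¹) ^ p = 1 := by
    rw [conj_pow, hzp]
    group
  have h2 : x * z ^ t.val * x⁻¹ = z ^ t₀.val * (u₀ * c⁻¹) := by
    rw [← mul_assoc, ← h1, mul_inv_cancel_right]
  have hcc : u₀ * c⁻¹ ∈ Subgroup.center G :=
    Subgroup.mul_mem _ hu₀ (Subgroup.inv_mem _ hc)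
  have h3 : (u₀ * c⁻¹) ^ p = 1 := by
    have hcomm : Commute (z ^ t₀.val) (u₀ * c⁻¹) :=
      Subgroup.mem_center_iff.mp hcc (z ^ t₀.val)
    have h4 := hyp
    rw [h2, hcomm.mul_pow, hzp, one_mul] at h4
    exact h4
  have h4 : u₀ * c⁻¹ = 1 := sing_ctor p z ζ h _ hcc h3
  have hcu : c = u₀ := by
    have h5 := mul_eq_one_iff_eq_inv.mp h4
    rw [inv_inv] at h5
    exact h5.symm
  refine ⟨?_, hcu⟩
  rw [h4, mul_one] at h2
  have h5 : z = (z ^ t.val) ^ (t⁻¹).val := by
    rw [← pow_mul]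
    conv_lhs => rw [← pow_one z]
    apply aux_pow_congr p z h.ord
    push_cast
    rw [ZMod.natCast_rightInverse t, ZMod.natCast_rightInverse t⁻¹, mul_inv_cancel₀ ht]
  calc x * z * x⁻¹ = x * (z ^ t.val) ^ (t⁻¹).val * x⁻¹ := by rw [← h5]
    _ = (x * z ^ t.val * x⁻¹) ^ (t⁻¹).val := by rw [conj_pow]
    _ = (z ^ t₀.val) ^ (t⁻¹).val := by rw [h2]
    _ = z ^ (t₀ * t⁻¹).val := by
      rw [← pow_mul]
      apply aux_pow_congr p z h.ord
      push_cast
      rw [ZMod.natCast_rightInverse t₀, ZMod.natCast_rightInverse t⁻¹,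
        ZMod.natCast_rightInverse (t₀ * t⁻¹)]

open Classical in
theorem sing_fiber (p : ℕ) [Fact p.Prime] (z : G) (ζ : G → ℂ) (h : Hyp G p z ζ) (t₀ : ZMod p)
    (ht₀ : t₀ ≠ 0) (u₀ : G) (hu₀ : u₀ ∈ Subgroup.center G) (x : G) :
    ∑ t : ZMod p, ∑ c : G, (if t ≠ 0 ∧ c ∈ Subgroup.center G ∧
        x * (z ^ t.val * c) * x⁻¹ = z ^ t₀.val * u₀ then (1 : ℂ) else 0) =
      if (∃ k : ZMod p, k ≠ 0 ∧ x * z * x⁻¹ = z ^ k.val) then 1 else 0 := by
  split_ifs with hN
  · obtain ⟨k, hk0, hk⟩ := hN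
    rw [Finset.sum_eq_single (k⁻¹ * t₀)]
    · rw [Finset.sum_eq_single u₀]
      · rw [if_pos]
        refine ⟨mul_ne_zero (inv_ne_zero hk0) ht₀, hu₀, ?_⟩
        rw [sing_conj p z h.ord x k _ hk u₀ hu₀, ← mul_assoc, mul_inv_cancel₀ hk0, one_mul]
      · intro c _ hcne
        rw [if_neg]
        rintro ⟨h1, h2, h3⟩
        exact hcne (sing_solve p z ζ h x _ t₀ h1 c u₀ h2 hu₀ h3).2
      · intro hx
        exact absurd (Finset.mem_univ _) hx
    · intro t _ htne
      apply Finset.sum_eq_zero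
      intro c _
      rw [if_neg]
      rintro ⟨h1, h2, h3⟩
      apply htne
      rw [sing_conj p z h.ord x k t hk c h2] at h3
      have h4 := (sing_inj p z ζ h _ _ c u₀ h2 hu₀ h3).1
      rw [← h4, ← mul_assoc, inv_mul_cancel₀ hk0, one_mul]
    · intro hx
      exact absurd (Finset.mem_univ _) hx
  · apply Finset.sum_eq_zero
    intro t _
    apply Finset.sum_eq_zero
    intro c _
    rw [if_neg]
    rintro ⟨h1, h2, h3⟩
    apply hN
    exact ⟨t₀ * t⁻¹, mul_ne_zero ht₀ (inv_ne_zero h1),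
      (sing_solve p z ζ h x t t₀ h1 c u₀ h2 hu₀ h3).1⟩

theorem sing_psing (p : ℕ) [Fact p.Prime] (z : G) (ζ : G → ℂ) (h : Hyp G p z ζ) (t : ZMod p)
    (ht : t ≠ 0) (c : G) (hc : c ∈ Subgroup.center G) (x g : G)
    (hE : x * (z ^ t.val * c) * x⁻¹ = g) : p ∣ orderOf g := by
  have hp : p.Prime := Fact.out
  rw [← hE, Cfsg.Agent.Lib.Helper22.orderOf_conj_eq]
  by_contra hnd
  set m := orderOf (z ^ t.val * c) with hm
  have hcomm : Commute (z ^ t.val) c := Subgroup.mem_center_iff.mp hc (z ^ t.val)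
  have h1 : (z ^ t.val * c) ^ m = 1 := pow_orderOf_eq_one _
  rw [hcomm.mul_pow, ← pow_mul] at h1
  have h2 : z ^ (t.val * m) ∈ Subgroup.center G := by
    rw [eq_inv_of_mul_eq_one_left h1]
    exact Subgroup.inv_mem _ (Subgroup.pow_mem _ hc _)
  have hm0 : (m : ZMod p) ≠ 0 := by
    intro h0
    exact hnd ((ZMod.natCast_eq_zero_iff m p).mp h0)
  have h3 : z ^ (t * (m : ZMod p)).val = z ^ (t.val * m) := by
    apply aux_pow_congr p z h.ord
    push_cast
    rw [ZMod.natCast_rightInverse t, ZMod.natCast_rightInverse (t * (m : ZMod p))]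
  exact aux_znc p z ζ h (t * (m : ZMod p)) (mul_ne_zero ht hm0) (h3 ▸ h2)

open Classical in
theorem sing_ncount (p : ℕ) [Fact p.Prime] (z : G) (ζ : G → ℂ) (h : Hyp G p z ζ)
    (hl : Loc G p z ζ) :
    ∑ x : G, (if (∃ k : ZMod p, k ≠ 0 ∧ x * z * x⁻¹ = z ^ k.val) then (1 : ℂ) else 0) =
      2 * (p : ℂ) * (Nat.card (Subgroup.center G) : ℂ) := by
  have hp : p.Prime := Fact.out
  have hp5 := h.p5
  obtain ⟨n, hn⟩ := hl.inv
  have hz1 : z ^ (1 : ZMod p).val = z := by
    conv_rhs => rw [← pow_one z]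
    apply aux_pow_congr p z h.ord
    rw [ZMod.natCast_rightInverse (1 : ZMod p)]
    simp
  have hzm : z ^ (-1 : ZMod p).val = z⁻¹ := by
    have h1 : z ^ (-1 : ZMod p).val * z = 1 := by
      rw [← pow_succ, ← pow_zero z]
      apply aux_pow_congr p z h.ord
      push_cast
      rw [ZMod.natCast_rightInverse (-1 : ZMod p)]
      simp
    exact eq_inv_of_mul_eq_one_left h1
  have hzne : z ≠ z⁻¹ := by
    intro h1
    have h2 : z ^ 2 = 1 := by
      rw [pow_two]
      nth_rewrite 2 [h1]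
      exact mul_inv_cancel z
    have h3 := orderOf_dvd_of_pow_eq_one h2
    rw [h.ord] at h3
    have := Nat.le_of_dvd (by norm_num) h3
    omega
  set C := Subgroup.centralizer ({z} : Set G) with hC
  have hmemC : ∀ x : G, x ∈ C ↔ x * z * x⁻¹ = z := by
    intro x
    rw [hC, Subgroup.mem_centralizer_iff]
    constructor
    · intro h1
      have h2 := h1 z (Set.mem_singleton z)
      rw [← h2, mul_inv_cancel_right]
    · intro h1 w hw
      rw [Set.mem_singleton_iff] at hw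
      subst hw
      have h2 : x * w = w * x := by
        have := congrArg (fun y => y * x) h1
        simpa using this
      exact h2.symm
  have hmemC' : ∀ x : G, n⁻¹ * x ∈ C ↔ x * z * x⁻¹ = z⁻¹ := by
    intro x
    rw [hmemC]
    constructor
    · intro h1
      rw [← hn]
      calc x * z * x⁻¹ = n * (n⁻¹ * x * z * (n⁻¹ * x)⁻¹) * n⁻¹ := by group
        _ = n * z * n⁻¹ := by rw [h1]
    · intro h1
      calc n⁻¹ * x * z * (n⁻¹ * x)⁻¹ = n⁻¹ * (x * z * x⁻¹) * n := by group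
        _ = n⁻¹ * (n * z * n⁻¹) * n := by rw [h1, hn]
        _ = z := by group
  have hcl : ∀ x : G, (if (∃ k : ZMod p, k ≠ 0 ∧ x * z * x⁻¹ = z ^ k.val) then (1 : ℂ) else 0) =
      (if x ∈ C then (1 : ℂ) else 0) + (if n⁻¹ * x ∈ C then (1 : ℂ) else 0) := by
    intro x
    by_cases h1 : x ∈ C
    · have h2 : ¬ n⁻¹ * x ∈ C := by
        intro h2
        rw [hmemC'] at h2
        rw [hmemC] at h1
        exact hzne (h1.symm.trans h2)
      rw [if_pos h1, if_neg h2, if_pos, add_zero]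
      exact ⟨1, one_ne_zero, by rw [hz1]; exact (hmemC x).mp h1⟩
    · by_cases h2 : n⁻¹ * x ∈ C
      · rw [if_neg h1, if_pos h2, if_pos, zero_add]
        refine ⟨-1, neg_ne_zero.mpr one_ne_zero, ?_⟩
        rw [hzm]
        exact (hmemC' x).mp h2
      · rw [if_neg h1, if_neg h2, if_neg, add_zero]
        rintro ⟨k, hk0, hk⟩
        have hconj : IsConj (z ^ k.val) z := by
          rw [isConj_iff]
          refine ⟨x⁻¹, ?_⟩
          rw [← hk]
          group
        rcases hl.cnj k hconj with h3 | h3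
        · apply h1
          rw [hmemC, hk, h3, hz1]
        · apply h2
          rw [hmemC', hk, h3, hzm]
  have hcardC : ∑ x : G, (if x ∈ C then (1 : ℂ) else 0) = (Nat.card C : ℂ) := by
    rw [Finset.sum_boole]
    congr 1
    exact (Nat.subtype_card _ (fun x => by simp)).symm
  have hcardC' : ∑ x : G, (if n⁻¹ * x ∈ C then (1 : ℂ) else 0) = (Nat.card C : ℂ) := by
    rw [← hcardC]
    exact Equiv.sum_comp (Equiv.mulLeft n⁻¹) (fun x => if x ∈ C then (1 : ℂ) else 0)
  rw [Finset.sum_congr rfl (fun x _ => hcl x), Finset.sum_add_distrib, hcardC, hcardC', hC,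
    ccard p z ζ h hl]
  push_cast
  ring

open Classical in
theorem sing_count (p : ℕ) [Fact p.Prime] (z : G) (ζ : G → ℂ) (h : Hyp G p z ζ)
    (hl : Loc G p z ζ) (g : G) :
    ∑ x : G, ∑ t : ZMod p, ∑ c : G, (if t ≠ 0 ∧ c ∈ Subgroup.center G ∧
        x * (z ^ t.val * c) * x⁻¹ = g then (1 : ℂ) else 0) =
      if p ∣ orderOf g then 2 * (p : ℂ) * (Nat.card (Subgroup.center G) : ℂ) else 0 := by
  split_ifs with hg
  · obtain ⟨a, t₀, ht₀, u₀, hu₀, hga⟩ := psd p z ζ h hl g hg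
    rw [← sing_ncount p z ζ h hl]
    rw [← Equiv.sum_comp (Equiv.mulLeft a⁻¹)
      (fun x => if (∃ k : ZMod p, k ≠ 0 ∧ x * z * x⁻¹ = z ^ k.val) then (1 : ℂ) else 0)]
    apply Finset.sum_congr rfl
    intro x _
    rw [Equiv.coe_mulLeft, ← sing_fiber p z ζ h t₀ ht₀ u₀ hu₀ (a⁻¹ * x)]
    apply Finset.sum_congr rfl
    intro t _
    apply Finset.sum_congr rfl
    intro c _
    have hiff : (x * (z ^ t.val * c) * x⁻¹ = g) ↔
        (a⁻¹ * x * (z ^ t.val * c) * (a⁻¹ * x)⁻¹ = z ^ t₀.val * u₀) := by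
      rw [hga]
      constructor
      · intro h1
        calc a⁻¹ * x * (z ^ t.val * c) * (a⁻¹ * x)⁻¹
            = a⁻¹ * (x * (z ^ t.val * c) * x⁻¹) * a := by group
          _ = a⁻¹ * (a * (z ^ t₀.val * u₀) * a⁻¹) * a := by rw [h1]
          _ = _ := by group
      · intro h1
        calc x * (z ^ t.val * c) * x⁻¹
            = a * (a⁻¹ * x * (z ^ t.val * c) * (a⁻¹ * x)⁻¹) * a⁻¹ := by group
          _ = _ := by rw [h1]
    simp only [hiff]
  · apply Finset.sum_eq_zero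
    intro x _
    apply Finset.sum_eq_zero
    intro t _
    apply Finset.sum_eq_zero
    intro c _
    rw [if_neg]
    rintro ⟨h1, h2, h3⟩
    exact hg (sing_psing p z ζ h t h1 c h2 x g h3)

/-- PIECE SING -/
theorem sing (p : ℕ) [Fact p.Prime] (z : G) (ζ : G → ℂ) (h : Hyp G p z ζ)
    (hl : Loc G p z ζ) : Sing p z := by
  classical
  intro F hF
  have hp : p.Prime := Fact.out
  have hK : (2 * (p : ℂ) * (Nat.card (Subgroup.center G) : ℂ)) ≠ 0 := by
    have h1 : (p : ℂ) ≠ 0 := Nat.cast_ne_zero.mpr hp.ne_zero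
    have h2 : (Nat.card (Subgroup.center G) : ℂ) ≠ 0 := Nat.cast_ne_zero.mpr Nat.card_pos.ne'
    exact mul_ne_zero (mul_ne_zero two_ne_zero h1) h2
  have key : (2 * (p : ℂ) * (Nat.card (Subgroup.center G) : ℂ)) *
      ∑ g : G, (if p ∣ orderOf g then F g else 0) =
      (Nat.card G : ℂ) * ∑ t : ZMod p, ∑ c : G,
          (if t ≠ 0 ∧ c ∈ Subgroup.center G then F (z ^ t.val * c) else 0) := by
    have h1 : (2 * (p : ℂ) * (Nat.card (Subgroup.center G) : ℂ)) *
        ∑ g : G, (if p ∣ orderOf g then F g else 0) =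
        ∑ g : G, F g * ∑ x : G, ∑ t : ZMod p, ∑ c : G, (if t ≠ 0 ∧ c ∈ Subgroup.center G ∧
          x * (z ^ t.val * c) * x⁻¹ = g then (1 : ℂ) else 0) := by
      rw [Finset.mul_sum]
      refine Finset.sum_congr rfl fun g _ => ?_
      rw [sing_count p z ζ h hl g]
      split_ifs <;> ring
    rw [h1]
    have h2 : ∀ g : G, F g * ∑ x : G, ∑ t : ZMod p, ∑ c : G,
          (if t ≠ 0 ∧ c ∈ Subgroup.center G ∧
          x * (z ^ t.val * c) * x⁻¹ = g then (1 : ℂ) else 0) =
        ∑ x : G, ∑ t : ZMod p, ∑ c : G, (if x * (z ^ t.val * c) * x⁻¹ = g then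
          (if t ≠ 0 ∧ c ∈ Subgroup.center G then F g else 0) else 0) := by
      intro g
      rw [Finset.mul_sum]
      refine Finset.sum_congr rfl fun x _ => ?_
      rw [Finset.mul_sum]
      refine Finset.sum_congr rfl fun t _ => ?_
      rw [Finset.mul_sum]
      refine Finset.sum_congr rfl fun c _ => ?_
      by_cases hE : x * (z ^ t.val * c) * x⁻¹ = g
      · by_cases hc : t ≠ 0 ∧ c ∈ Subgroup.center G
        · rw [if_pos ⟨hc.1, hc.2, hE⟩, if_pos hE, if_pos hc, mul_one]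
        · rw [if_neg (fun h' => hc ⟨h'.1, h'.2.1⟩), if_pos hE, if_neg hc, mul_zero]
      · rw [if_neg (fun h' => hE h'.2.2), if_neg hE, mul_zero]
    rw [Finset.sum_congr rfl (fun g _ => h2 g), Finset.sum_comm]
    have h3 : ∀ x : G, ∑ g : G, ∑ t : ZMod p, ∑ c : G,
          (if x * (z ^ t.val * c) * x⁻¹ = g then
          (if t ≠ 0 ∧ c ∈ Subgroup.center G then F g else 0) else 0) =
        ∑ t : ZMod p, ∑ c : G,
          (if t ≠ 0 ∧ c ∈ Subgroup.center G then F (z ^ t.val * c) else 0) := by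
      intro x
      rw [Finset.sum_comm]
      refine Finset.sum_congr rfl fun t _ => ?_
      rw [Finset.sum_comm]
      refine Finset.sum_congr rfl fun c _ => ?_
      rw [Finset.sum_ite_eq Finset.univ (x * (z ^ t.val * c) * x⁻¹)
        (fun g => if t ≠ 0 ∧ c ∈ Subgroup.center G then F g else 0),
        if_pos (Finset.mem_univ _), hF]
    rw [Finset.sum_congr rfl (fun x _ => h3 x), Finset.sum_const, Finset.card_univ, nsmul_eq_mul,
      Nat.card_eq_fintype_card]
  rw [div_mul_eq_mul_div, ← key, mul_div_cancel_left₀ _ hK]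

end Cfsg.Agent.Lib.Helper22.PT
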