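import Mathlib
import Cfsg.Agent.S4511
import Cfsg.Agent.S0936
import Cfsg.Agent.S0939
import Cfsg.Agent.S4646
import Cfsg.Agent.Lib.Helper82.Principal
import Cfsg.Agent.Lib.Helper82.Major
import Cfsg.Agent.Lib.Helper81.RegPart
import Cfsg.Agent.Lib.Helper81.PSolv2
import Cfsg.Agent.Lib.Helper79.Blk2
import Cfsg.Agent.Lib.Helper79.PReg
import Cfsg.Agent.Lib.Helper31.Basic

/-!
# Ranks of principal blocks: transport and local computations (helper22)

* `blockRank_principal_equiv`: the `p`-regular rank of the principal block is invariant under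
  group isomorphisms; `blockRank_principal_of_eq_top` for a subgroup equal to `⊤`;
* `finsum_induced_principal`: for a `p`-element `x`, the only block of `C_G(x)` inducing the
  principal block of `G` is the principal block (third main theorem), so the inner sum in
  Brauer's count by subsections is the rank of the principal block of `C_G(x)`;
* `blockRank_principal_of_index_pPrimeCore`: a group with a normal `p`-complement has
  principal block of rank one.
-/

set_option autoImplicit false

namespace Cfsg.Agent.Lib.Helper22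

open Cfsg Cfsg.Agent.Lib.Helper4 Cfsg.Agent.Lib.Helper21

section Transport

variable {K K' : Type*} [Group K] [Group K']

theorem pRegularPart_comp_equiv' (p : ℕ) (ψ : K ≃* K') (θ : K' → ℂ) :
    pRegularPart p (fun x => θ (ψ x)) = fun x => pRegularPart p θ (ψ x) := by
  funext x
  by_cases h : p ∣ orderOf x
  · rw [Cfsg.Agent.Lib.Helper81.pRegularPart_of_sing _ h,
      Cfsg.Agent.Lib.Helper81.pRegularPart_of_sing _ (by rwa [MulEquiv.orderOf_eq])]
  · rw [Cfsg.Agent.Lib.Helper81.pRegularPart_of_reg _ h,
      Cfsg.Agent.Lib.Helper81.pRegularPart_of_reg _ (by rwa [MulEquiv.orderOf_eq])]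

/-- The rank of the principal block is invariant under isomorphisms. -/
theorem blockRank_principal_equiv (p : ℕ) (M : Ideal AlgInt) (ψ : K ≃* K') :
    blockRank p (principalBlock M K) = blockRank p (principalBlock M K') := by
  unfold blockRank
  have h : Submodule.span ℂ ((fun χ : IrrCharacter K => pRegularPart p (χ : K → ℂ)) ''
        principalBlock M K) =
      (Submodule.span ℂ ((fun χ : IrrCharacter K' => pRegularPart p (χ : K' → ℂ)) ''
        principalBlock M K')).map
          ((LinearEquiv.funCongrLeft ℂ ℂ ψ.toEquiv : (K' → ℂ) ≃ₗ[ℂ] (K → ℂ)) :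
            (K' → ℂ) →ₗ[ℂ] (K → ℂ)) := by
    rw [Submodule.map_span]
    congr 1
    ext f
    constructor
    · rintro ⟨χ, hχ, rfl⟩
      refine ⟨pRegularPart p (Cfsg.Agent.Lib.Helper82.irrComp ψ.symm χ : K' → ℂ),
        ⟨Cfsg.Agent.Lib.Helper82.irrComp ψ.symm χ,
          Cfsg.Agent.Lib.Helper82.irrComp_mem_principal M ψ.symm χ hχ, rfl⟩, ?_⟩
      have h1 := pRegularPart_comp_equiv' p ψ
        (Cfsg.Agent.Lib.Helper82.irrComp ψ.symm χ : K' → ℂ)
      have h2 : (fun x => (Cfsg.Agent.Lib.Helper82.irrComp ψ.symm χ : K' → ℂ) (ψ x)) =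
          (χ : K → ℂ) := by
        funext y
        show (χ : K → ℂ) (ψ.symm (ψ y)) = (χ : K → ℂ) y
        rw [MulEquiv.symm_apply_apply]
      rw [h2] at h1
      exact h1.symm
    · rintro ⟨_, ⟨χ, hχ, rfl⟩, rfl⟩
      exact ⟨Cfsg.Agent.Lib.Helper82.irrComp ψ χ,
        Cfsg.Agent.Lib.Helper82.irrComp_mem_principal M ψ χ hχ,
        pRegularPart_comp_equiv' p ψ (χ : K' → ℂ)⟩
  rw [h]
  exact LinearEquiv.finrank_map_eq _ _

theorem blockRank_principal_of_eq_top (p : ℕ) (M : Ideal AlgInt) (H : Subgroup K)
    (hH : H = ⊤) : blockRank p (principalBlock M H) = blockRank p (principalBlock M K) := by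
  subst hH
  exact blockRank_principal_equiv p M Subgroup.topEquiv

end Transport

section Local

variable {G : Type*} [Group G] [Finite G] {p : ℕ} [Fact p.Prime] {M : Ideal AlgInt}

/-- For a `p`-element `x`, the blocks of `C_G(x)` inducing the principal block of `G` contribute
the rank of the principal block of `C_G(x)`. -/
theorem finsum_induced_principal (hM : IsPModular p M) (x : G)
    (hx : ∃ k : ℕ, orderOf x = p ^ k) :
    ∑ᶠ b ∈ {b : Set (IrrCharacter ↥(Subgroup.centralizer ({x} : Set G))) |
        IsInducedBlock M (Subgroup.centralizer ({x} : Set G)) b (principalBlock M G)},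
        blockRank p b =
      blockRank p (principalBlock M ↥(Subgroup.centralizer ({x} : Set G))) := by
  classical
  have := Fintype.ofFinite G
  have hset : {b : Set (IrrCharacter ↥(Subgroup.centralizer ({x} : Set G))) |
        IsInducedBlock M (Subgroup.centralizer ({x} : Set G)) b (principalBlock M G)} =
      {principalBlock M ↥(Subgroup.centralizer ({x} : Set G))} := by
    ext b
    simp only [Set.mem_setOf_eq, Set.mem_singleton_iff]
    constructor
    · intro h
      exact (Cfsg.Agent.S0936.result p M hM _ b ⟨_, h⟩).mp h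
    · rintro rfl
      have hdef := Cfsg.Agent.Lib.Helper82.exists_induced_centralizer hM x hx _
        (Cfsg.Agent.Lib.Helper79.isPBlock_principalBlock (M := M))
      exact (Cfsg.Agent.S0936.result p M hM _ _ hdef).mpr rfl
  rw [hset, finsum_mem_singleton]

/-- A group with a normal `p`-complement has principal block of rank one. -/
theorem blockRank_principal_of_index_pPrimeCore (hM : IsPModular p M) (k : ℕ)
    (h : (pPrimeCore p G).index = p ^ k) : blockRank p (principalBlock M G) = 1 := by
  rw [Cfsg.Agent.S4646.rank_one_iff hM]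
  intro χ hχ g hg
  rw [Cfsg.Agent.S0939.result p M hM ⟨k, h⟩] at hχ
  haveI := Cfsg.Agent.Lib.Helper81.pPrimeCore_normal (G := G) p
  exact hχ g ((Cfsg.Agent.Lib.Helper79.mem_iff_pRegular_of_index (pPrimeCore p G) k h
    (Cfsg.Agent.Lib.Helper31.pPrimeCore_coprime p) g).mpr hg)

end Local

end Cfsg.Agent.Lib.Helper22
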