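import Cfsg.Agent.Lib.Helper22.TA2
import Cfsg.Agent.Lib.Helper22.TGDefs

/-!
# General blocks of defect one: abstract lattice lemmas

* `tate_dichotomy` : exactly one of the two Tate groups is non-trivial (sign of `s`)
* `herbrand_zero`  : an almost-idempotent commuting with `σ` whose complement has trace sum `0`
  acts as a scalar on both Tate groups
-/

set_option autoImplicit false

namespace Cfsg.Agent.Lib.Helper22.TG

open Cfsg Cfsg.Agent.Lib.Helper22.TA Cfsg.Agent.Lib.Helper22.TAP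

section main

variable {G : Type*} [Group G] [Fintype G]
variable {X : Type*} [AddCommGroup X] [Module.Free ℤ X] [Module.Finite ℤ X]

theorem tate_dichotomy [Nontrivial X] (p : ℕ) [Fact p.Prime] (z : G) (hz : orderOf z = p)
    (hp2 : ¬ p ^ 2 ∣ Nat.card G)
    (ρ : G →* (X →ₗ[ℤ] X)) (d : ℕ) (hd : 0 < d) (s : ℤ) (hs : s ≠ 0)
    (H1 : ∀ lam : X →ₗ[ℤ] X, (∀ g, lam ∘ₗ ρ g = ρ g ∘ₗ lam) →
      (d : ℤ) * ∑ t ∈ Finset.Ico 1 p, LinearMap.trace ℤ X ((ρ z ^ t) ∘ₗ lam) =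
        s * LinearMap.trace ℤ X lam)
    (H2 : ∀ k, 1 ≤ k → ∀ lam mu : X →ₗ[ℤ] X, (∀ g, lam ∘ₗ ρ g = ρ g ∘ₗ lam) →
      lam ∘ₗ lam - lam = ((p : ℤ) ^ k) • mu →
      ∃ t : ℕ, d * t ≤ Module.finrank ℤ X ∧
        LinearMap.trace ℤ X lam ≡ ((d : ℤ) * t) [ZMOD (p : ℤ) ^ k]) :
    (0 < s → Subsingleton (QB p (ρ z)) ∧ Nontrivial (QA p (ρ z))) ∧
    (s < 0 → Subsingleton (QA p (ρ z)) ∧ Nontrivial (QB p (ρ z))) := by
  have hp := (Fact.out : p.Prime)
  have hσ : ρ z ^ p = 1 := by rw [← map_pow, ← hz, pow_orderOf_eq_one, map_one]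
  haveI : Finite (QA p (ρ z)) := finite_QA p (ρ z)
  haveI : Finite (QB p (ρ z)) := finite_QB p (ρ z)
  set n := Module.finrank ℤ X with hn
  have hnpos : 0 < n := Module.finrank_pos
  have hp1 : (1 : ℤ) < p := by exact_mod_cast hp.one_lt
  have key1 : ∀ k, 1 ≤ k → ∃ a b : ℕ, a ≤ n ∧ b ≤ n ∧ Nat.card (QA p (ρ z)) = p ^ a ∧
      Nat.card (QB p (ρ z)) = p ^ b ∧
      (∑ t ∈ Finset.Ico 1 p, LinearMap.trace ℤ X (ρ z ^ t)) ≡
        ((p : ℤ) - 1) * ((a : ℤ) - (b : ℤ)) [ZMOD (p : ℤ) ^ k] := by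
    intro k hk
    obtain ⟨a, b, ha, hb, hcA, hcB, hcong⟩ := herbrand p (ρ z) hσ k hk 1 0
      (by rw [comp_one', one_comp']) (by rw [comp_one', sub_self, smul_zero]) 1 1 IndA.one IndB.one
    refine ⟨a, b, ha, hb, ?_, ?_, ?_⟩
    · rw [← hcA, card_range_one]
    · rw [← hcB, card_range_one]
    · simpa only [comp_one'] using hcong
  obtain ⟨α, β, hα, hβ, hcardA, hcardB, -⟩ := key1 1 le_rfl
  have hSig : (∑ t ∈ Finset.Ico 1 p, LinearMap.trace ℤ X (ρ z ^ t)) =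
      ((p : ℤ) - 1) * ((α : ℤ) - (β : ℤ)) := by
    set D := (∑ t ∈ Finset.Ico 1 p, LinearMap.trace ℤ X (ρ z ^ t)) -
      ((p : ℤ) - 1) * ((α : ℤ) - (β : ℤ)) with hD
    have hdvd : ∀ k, 1 ≤ k → ((p : ℤ) ^ k) ∣ D := by
      intro k hk
      obtain ⟨a, b, -, -, hA, hB, hcong⟩ := key1 k hk
      have ea : a = α := Nat.pow_right_injective hp.two_le (hA.symm.trans hcardA)
      have eb : b = β := Nat.pow_right_injective hp.two_le (hB.symm.trans hcardB)
      subst ea; subst eb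
      exact hcong.symm.dvd
    have h0 : D = 0 := by
      apply Int.eq_zero_of_abs_lt_dvd (hdvd (D.natAbs + 1) (by omega))
      have h1 : D.natAbs + 1 < p ^ (D.natAbs + 1) := Nat.lt_pow_self hp.one_lt
      have h2 : ((D.natAbs + 1 : ℕ) : ℤ) < (p : ℤ) ^ (D.natAbs + 1) := by exact_mod_cast h1
      have h3 : ((D.natAbs : ℕ) : ℤ) = |D| := Int.natCast_natAbs D
      push_cast at h2
      linarith
    linarith
  have hone : (1 : QA p (ρ z) →ₗ[ℤ] QA p (ρ z)) ∘ₗ 1 = 1 := comp_one' _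
  have honeB : (1 : QB p (ρ z) →ₗ[ℤ] QB p (ρ z)) ∘ₗ 1 = 1 := comp_one' _
  obtain ⟨a1, b1, t1, hA1, hB1, e1⟩ := KI p z hz hp2 ρ d hd s H1 H2 1 0 hone (by simp)
    (fun _ _ g _ => by rw [comp_one', one_comp']) (fun _ _ g _ => by simp)
  obtain ⟨a2, b2, t2, hA2, hB2, e2⟩ := KI p z hz hp2 ρ d hd s H1 H2 0 1 (by simp) honeB
    (fun _ _ g _ => by simp) (fun _ _ g _ => by rw [comp_one', one_comp'])
  rw [card_range_one] at hA1 hB2
  rw [card_range_zero] at hB1 hA2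
  have ea1 : a1 = α := Nat.pow_right_injective hp.two_le (hA1.symm.trans hcardA)
  have eb1 : b1 = 0 := by
    by_contra h
    have : 1 < p ^ b1 := Nat.one_lt_pow h hp.one_lt
    omega
  have ea2 : a2 = 0 := by
    by_contra h
    have : 1 < p ^ a2 := Nat.one_lt_pow h hp.one_lt
    omega
  have eb2 : b2 = β := Nat.pow_right_injective hp.two_le (hB2.symm.trans hcardB)
  subst ea1; subst eb1; subst ea2; subst eb2
  simp only [Nat.cast_zero, sub_zero, zero_sub] at e1 e2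
  have hne : (a1 : ℤ) ≠ b2 := by
    intro h
    have h1 := H1 1 (fun g => by rw [comp_one', one_comp'])
    have h2 : (∑ t ∈ Finset.Ico 1 p, LinearMap.trace ℤ X ((ρ z ^ t) ∘ₗ 1)) =
        ∑ t ∈ Finset.Ico 1 p, LinearMap.trace ℤ X (ρ z ^ t) := by
      simp only [comp_one']
    rw [h2, hSig, h, sub_self, mul_zero, mul_zero] at h1
    have h3 : LinearMap.trace ℤ X (1 : X →ₗ[ℤ] X) = (n : ℤ) := by
      rw [LinearMap.trace_one]
    rw [h3] at h1
    have : (n : ℤ) ≠ 0 := by exact_mod_cast hnpos.ne'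
    exact mul_ne_zero hs this h1.symm
  have hsubA : a1 = 0 → Subsingleton (QA p (ρ z)) := by
    intro h
    rw [h, pow_zero] at hcardA
    exact (Nat.card_eq_one_iff_unique.1 hcardA).1
  have hsubB : b2 = 0 → Subsingleton (QB p (ρ z)) := by
    intro h
    rw [h, pow_zero] at hcardB
    exact (Nat.card_eq_one_iff_unique.1 hcardB).1
  have hntA : a1 ≠ 0 → Nontrivial (QA p (ρ z)) := by
    intro h
    rw [← Finite.one_lt_card_iff_nontrivial, hcardA]
    exact Nat.one_lt_pow h hp.one_lt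
  have hntB : b2 ≠ 0 → Nontrivial (QB p (ρ z)) := by
    intro h
    rw [← Finite.one_lt_card_iff_nontrivial, hcardB]
    exact Nat.one_lt_pow h hp.one_lt
  constructor
  · intro hpos
    have hb0 : b2 = 0 := by
      by_contra h
      have h1 : (0 : ℤ) < b2 := by exact_mod_cast Nat.pos_of_ne_zero h
      have h2 : (0 : ℤ) < ((p : ℤ) - 1) * b2 := mul_pos (by linarith) h1
      have h3 : 0 ≤ s * (t2 : ℤ) := mul_nonneg hpos.le (by positivity)
      linarith
    exact ⟨hsubB hb0, hntA (fun h => hne (by rw [h, hb0]))⟩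
  · intro hneg
    have ha0 : a1 = 0 := by
      by_contra h
      have h1 : (0 : ℤ) < a1 := by exact_mod_cast Nat.pos_of_ne_zero h
      have h2 : (0 : ℤ) < ((p : ℤ) - 1) * a1 := mul_pos (by linarith) h1
      have h3 : s * (t1 : ℤ) ≤ 0 := mul_nonpos_of_nonpos_of_nonneg hneg.le (by positivity)
      linarith
    exact ⟨hsubA ha0, hntB (fun h => hne (by rw [h, ha0]))⟩

theorem eq_zero_of_card_range {W : Type*} [AddCommGroup W] (f : W →ₗ[ℤ] W)
    (h : Nat.card (LinearMap.range f) = 1) : f = 0 := by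
  have h1 := (Nat.card_eq_one_iff_unique.1 h).1
  apply LinearMap.ext
  intro w
  have h2 : (⟨f w, LinearMap.mem_range_self f w⟩ : LinearMap.range f) = 0 := Subsingleton.elim _ _
  exact congrArg Subtype.val h2

theorem herbrand_zero (p : ℕ) [Fact p.Prime] (σ : X →ₗ[ℤ] X) (hσ : σ ^ p = 1)
    (E : X →ₗ[ℤ] X) (hE : E ∘ₗ σ = σ ∘ₗ E) (κ : ℤ) (hκ : ¬ (p : ℤ) ∣ κ)
    (hEE : E ∘ₗ E = κ • E)
    (htr : ∑ t ∈ Finset.Ico 1 p, LinearMap.trace ℤ X ((σ ^ t) ∘ₗ E) =
      κ * ∑ t ∈ Finset.Ico 1 p, LinearMap.trace ℤ X (σ ^ t))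
    (h : Subsingleton (QA p σ) ∨ Subsingleton (QB p σ)) :
    IndA p σ E (κ • 1) ∧ IndB p σ E (κ • 1) := by
  have hp := (Fact.out : p.Prime)
  set n := Module.finrank ℤ X with hn
  set k : ℕ := 2 * n + 1 with hk
  have hcop : IsCoprime κ ((p : ℤ) ^ k) := by
    apply IsCoprime.pow_right
    exact ((Int.prime_iff_natAbs_prime.2 (by simpa using hp)).coprime_iff_not_dvd.2 hκ).symm
  obtain ⟨u, w, huw⟩ := hcop
  set lam : X →ₗ[ℤ] X := u • (κ • (1 : X →ₗ[ℤ] X) - E) with hlam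
  have hEE' : E * E = κ • E := hEE
  have hidem : lam ∘ₗ lam - lam = ((p : ℤ) ^ k) • ((-w) • lam) := by
    have h0 : lam ∘ₗ lam = lam * lam := rfl
    have h1 : (κ • (1 : X →ₗ[ℤ] X) - E) * (κ • (1 : X →ₗ[ℤ] X) - E) =
        κ • (κ • (1 : X →ₗ[ℤ] X) - E) := by
      rw [sub_mul, mul_sub, mul_sub, smul_mul_assoc, one_mul, smul_mul_assoc, one_mul,
        mul_smul_comm, mul_one, hEE', sub_self, sub_zero, smul_sub]
    rw [h0, hlam, smul_mul_smul_comm, h1, smul_smul, smul_smul, smul_smul, ← sub_smul]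
    congr 1
    linear_combination u * huw
  have hσE : Commute E σ := hE
  have hcomm : lam ∘ₗ σ = σ ∘ₗ lam := by
    have : Commute (κ • (1 : X →ₗ[ℤ] X) - E) σ :=
      ((Commute.one_left σ).smul_left κ).sub_left hσE
    exact (this.smul_left u).eq
  obtain ⟨gA, hgA⟩ := IndA.exists_of_comm (p := p) (σ := σ) (φ := E) hE
  obtain ⟨gB, hgB⟩ := IndB.exists_of_comm (p := p) (σ := σ) (φ := E) hE
  have hlA : IndA p σ lam (u • (κ • 1 - gA)) := ((IndA.one.smul κ).sub hgA).smul u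
  have hlB : IndB p σ lam (u • (κ • 1 - gB)) := ((IndB.one.smul κ).sub hgB).smul u
  obtain ⟨a, b, ha, hb, hcA, hcB, hcong⟩ :=
    herbrand p σ hσ k (by omega) lam ((-w) • lam) hcomm hidem _ _ hlA hlB
  have hsum : (∑ t ∈ Finset.Ico 1 p, LinearMap.trace ℤ X ((σ ^ t) ∘ₗ lam)) = 0 := by
    have e1 : ∀ t ∈ Finset.Ico 1 p, LinearMap.trace ℤ X ((σ ^ t) ∘ₗ lam) =
        u * (κ * LinearMap.trace ℤ X (σ ^ t) - LinearMap.trace ℤ X ((σ ^ t) ∘ₗ E)) := by
      intro t _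
      have : (σ ^ t) ∘ₗ lam = u • (κ • (σ ^ t) - (σ ^ t) ∘ₗ E) := by
        show (σ ^ t) * lam = u • (κ • (σ ^ t) - (σ ^ t) * E)
        rw [hlam, mul_smul_comm, mul_sub, mul_smul_comm, mul_one]
      rw [this, map_smul, map_sub, map_smul, smul_eq_mul, smul_eq_mul]
    rw [Finset.sum_congr rfl e1, ← Finset.mul_sum, Finset.sum_sub_distrib, ← Finset.mul_sum, htr,
      sub_self, mul_zero]
  rw [hsum] at hcong
  have h3 : ((p : ℤ) ^ k) ∣ ((p : ℤ) - 1) * ((a : ℤ) - b) := by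
    have := hcong.dvd
    simpa using this
  have hcop2 : IsCoprime ((p : ℤ) ^ k) ((p : ℤ) - 1) := by
    apply IsCoprime.pow_left
    exact ⟨1, -1, by ring⟩
  have h4 : ((p : ℤ) ^ k) ∣ ((a : ℤ) - b) := hcop2.dvd_of_dvd_mul_left h3
  have h5 : (a : ℤ) - b = 0 := by
    apply Int.eq_zero_of_abs_lt_dvd h4
    have hkp : (k : ℤ) < (p : ℤ) ^ k := by exact_mod_cast Nat.lt_pow_self hp.one_lt
    have hkv : (k : ℤ) = 2 * n + 1 := by rw [hk]; push_cast; rfl
    have q1 : (a : ℤ) ≤ n := by exact_mod_cast ha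
    have q2 : (b : ℤ) ≤ n := by exact_mod_cast hb
    have q5 : (0 : ℤ) ≤ a := by positivity
    have q6 : (0 : ℤ) ≤ b := by positivity
    have q7 : (0 : ℤ) ≤ n := by positivity
    rw [abs_lt]; constructor <;> linarith
  have hab : a = b := by omega
  have ha0 : a = 0 := by
    rcases h with h | h
    · have : Nat.card (LinearMap.range (u • (κ • (1 : QA p σ →ₗ[ℤ] QA p σ) - gA))) = 1 :=
        Nat.card_eq_one_iff_unique.2 ⟨inferInstance, ⟨0⟩⟩
      rw [hcA] at this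
      by_contra hne
      have : 1 < p ^ a := Nat.one_lt_pow hne hp.one_lt
      omega
    · have : Nat.card (LinearMap.range (u • (κ • (1 : QB p σ →ₗ[ℤ] QB p σ) - gB))) = 1 :=
        Nat.card_eq_one_iff_unique.2 ⟨inferInstance, ⟨0⟩⟩
      rw [hcB] at this
      by_contra hne
      rw [hab] at hne
      have : 1 < p ^ b := Nat.one_lt_pow hne hp.one_lt
      omega
  have hb0 : b = 0 := by omega
  rw [ha0, pow_zero] at hcA
  rw [hb0, pow_zero] at hcB
  have hzA := eq_zero_of_card_range _ hcA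
  have hzB := eq_zero_of_card_range _ hcB
  have hpA : ∀ f : QA p σ →ₗ[ℤ] QA p σ, ((p : ℤ) ^ k) • f = 0 := by
    intro f
    apply LinearMap.ext
    intro v
    have hk1 : k = (k - 1) + 1 := by omega
    rw [LinearMap.smul_apply, LinearMap.zero_apply, hk1, pow_succ, mul_smul, p_smul_QA, smul_zero]
  have hpB : ∀ f : QB p σ →ₗ[ℤ] QB p σ, ((p : ℤ) ^ k) • f = 0 := by
    intro f
    apply LinearMap.ext
    intro v
    have hk1 : k = (k - 1) + 1 := by omega
    rw [LinearMap.smul_apply, LinearMap.zero_apply, hk1, pow_succ, mul_smul, p_smul_QB, smul_zero]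
  have hA : gA = κ • 1 := by
    have e1 : κ • (1 : QA p σ →ₗ[ℤ] QA p σ) - gA =
        (κ * u + (p : ℤ) ^ k * w) • (κ • (1 : QA p σ →ₗ[ℤ] QA p σ) - gA) := by
      have : κ * u + (p : ℤ) ^ k * w = 1 := by linarith
      rw [this, one_smul]
    rw [add_smul, mul_smul, hzA, smul_zero, zero_add, mul_smul, hpA] at e1
    exact (sub_eq_zero.1 e1).symm
  have hB : gB = κ • 1 := by
    have e1 : κ • (1 : QB p σ →ₗ[ℤ] QB p σ) - gB =
        (κ * u + (p : ℤ) ^ k * w) • (κ • (1 : QB p σ →ₗ[ℤ] QB p σ) - gB) := by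
      have : κ * u + (p : ℤ) ^ k * w = 1 := by linarith
      rw [this, one_smul]
    rw [add_smul, mul_smul, hzB, smul_zero, zero_add, mul_smul, hpB] at e1
    exact (sub_eq_zero.1 e1).symm
  exact ⟨hA ▸ hgA, hB ▸ hgB⟩

end main

end Cfsg.Agent.Lib.Helper22.TG
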