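import Cfsg.Agent.Lib.Helper22.TG9
import Cfsg.Agent.Lib.Helper33.TGCHAR

/-!
# General blocks of defect one: the structure theorem (statement S4442)
-/

set_option autoImplicit false

namespace Cfsg.Agent.Lib.Helper22.TG

open Cfsg
open Cfsg.Agent.Lib.Helper33.TG (gen_pack)

theorem s4442_main {G : Type*} [Group G] [Finite G] (p : ℕ) [Fact p.Prime]
    (M : Ideal Cfsg.AlgInt) (hM : Cfsg.IsPModular p M) (P : Sylow p G) (hP : Nat.card P = p)
    (B : Set (Cfsg.IrrCharacter G)) (hB : Cfsg.IsPBlock M B) (hBP : Cfsg.IsDefectGroup p M B P)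
    (b : Set (Cfsg.IrrCharacter (Subgroup.centralizer ((P : Subgroup G) : Set G))))
    (hind : Cfsg.IsInducedBlock M (Subgroup.centralizer ((P : Subgroup G) : Set G)) b B)
    (θ : Cfsg.IrrCharacter (Subgroup.centralizer ((P : Subgroup G) : Set G))) (hθ : θ ∈ b)
    (hθP : ∀ x : Subgroup.centralizer ((P : Subgroup G) : Set G), (x : G) ∈ (P : Subgroup G) →
      (θ : Subgroup.centralizer ((P : Subgroup G) : Set G) → ℂ) x =
        (θ : Subgroup.centralizer ((P : Subgroup G) : Set G) → ℂ) 1)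
    (T : Subgroup G)
    (hT : ∀ g : G, g ∈ T ↔ (g ∈ Subgroup.normalizer ((P : Subgroup G) : Set G) ∧
      ∀ c c' : Subgroup.centralizer ((P : Subgroup G) : Set G), (c' : G) = g * c * g⁻¹ →
        (θ : Subgroup.centralizer ((P : Subgroup G) : Set G) → ℂ) c' =
          (θ : Subgroup.centralizer ((P : Subgroup G) : Set G) → ℂ) c))
    (e f : ℕ) (he : (Subgroup.centralizer ((P : Subgroup G) : Set G)).relIndex T = e)
    (hf : (Subgroup.centralizer ((P : Subgroup G) : Set G)).relIndex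
      (Subgroup.normalizer ((P : Subgroup G) : Set G)) = f) :
    e ∣ p - 1 ∧ Nat.card B = e + (p - 1) / e ∧
    ∃ X Y : Set (Cfsg.IrrCharacter G), B = X ∪ Y ∧ Disjoint X Y ∧ Nat.card X = e ∧
      Nat.card Y = (p - 1) / e ∧
      (∀ χ ∈ X, (Cfsg.charDegree (χ : G → ℂ) : ℤ) ≡
          ((f / e * Cfsg.charDegree
            (θ : Subgroup.centralizer ((P : Subgroup G) : Set G) → ℂ) : ℕ) : ℤ) [ZMOD p] ∨
        (Cfsg.charDegree (χ : G → ℂ) : ℤ) ≡
          -((f / e * Cfsg.charDegree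
            (θ : Subgroup.centralizer ((P : Subgroup G) : Set G) → ℂ) : ℕ) : ℤ) [ZMOD p]) ∧
      (∃ ε : ℤ, (ε = 1 ∨ ε = -1) ∧ ∀ ψ ∈ Y, (Cfsg.charDegree (ψ : G → ℂ) : ℤ) ≡
        ε * ((f * Cfsg.charDegree
          (θ : Subgroup.centralizer ((P : Subgroup G) : Set G) → ℂ) : ℕ) : ℤ) [ZMOD p]) ∧
      ∀ ψ ∈ Y, ∀ ψ' ∈ Y, ∀ g : G, ¬ p ∣ orderOf g → (ψ : G → ℂ) g = (ψ' : G → ℂ) g := by
  classical
  have hp := (Fact.out : p.Prime)
  haveI : Fintype G := Fintype.ofFinite G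
  haveI : Finite (IrrCharacter G) := Cfsg.Agent.Lib.Helper82.finite_irrCharacter G
  haveI : Fintype (IrrCharacter G) := Fintype.ofFinite _
  obtain ⟨z, hz, hz1⟩ : ∃ z : G, z ∈ (P : Subgroup G) ∧ z ≠ 1 := by
    have : Nontrivial (P : Subgroup G) := by
      rw [← Finite.one_lt_card_iff_nontrivial, hP]; exact hp.one_lt
    obtain ⟨⟨x, hx⟩, hne⟩ := exists_ne (1 : (P : Subgroup G))
    exact ⟨x, hx, fun h => hne (Subtype.ext h)⟩
  have hzo : orderOf z = p := Cfsg.Agent.Lib.Helper92.DO.cf_order p P hP z hz hz1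
  have hp2 : ¬ p ^ 2 ∣ Nat.card G := by
    intro h
    have h1 := P.card_eq_multiplicity
    rw [hP] at h1
    have h2 : (Nat.card G).factorization p = 1 := by
      apply Nat.pow_right_injective hp.two_le
      show p ^ _ = p ^ 1
      rw [pow_one]; exact h1.symm
    have h3 : 2 ≤ (Nat.card G).factorization p :=
      (hp.pow_dvd_iff_le_factorization (Nat.card_pos.ne')).1 h
    omega
  obtain ⟨K, θK, hK, hdegθ, horb, hsmt, m, e', Θ, hm, he', hpem, hsupp, hgram, hne, hreg, hee,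
    hN2⟩ := gen_pack p M hM P hP B hB hBP b hind θ hθ hθP T hT z hz hz1
  obtain rfl : e' = e := hee.trans he
  have hTN : T ≤ Subgroup.normalizer ((P : Subgroup G) : Set G) := fun g hg => ((hT g).1 hg).1
  have hCT : Subgroup.centralizer ((P : Subgroup G) : Set G) ≤ T := by
    intro g hg
    refine (hT g).2 ⟨Subgroup.centralizer_le_normalizer _ hg, fun c c' hcc' => ?_⟩
    have h1 : c' = ⟨g, hg⟩ * c * (⟨g, hg⟩ : Subgroup.centralizer ((P : Subgroup G) : Set G))⁻¹ :=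
      Subtype.ext hcc'
    rw [h1]
    exact Cfsg.Agent.Lib.Helper82.irr_isClassFunction θ c ⟨g, hg⟩
  have hfe : f = e' * T.relIndex (Subgroup.normalizer ((P : Subgroup G) : Set G)) := by
    rw [← hf, ← he, Subgroup.relIndex_mul_relIndex _ _ _ hCT hTN]
  have hrel : T.relIndex (Subgroup.normalizer ((P : Subgroup G) : Set G)) ≠ 0 :=
    Subgroup.index_ne_zero_of_finite
  have hθ0 := (Cfsg.Agent.Lib.Helper82.irr_charDegree θ).2
  have hdiv : ∀ χ ∈ B, ∀ s : ℤ, (s : ℂ) = ∑ t ∈ Finset.Ico 1 p, (χ : G → ℂ) (z ^ t) → s ≠ 0 →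
      s ∣ ((p : ℤ) - 1) * ((T.relIndex (Subgroup.normalizer ((P : Subgroup G) : Set G)) *
        charDegree (θ : Subgroup.centralizer ((P : Subgroup G) : Set G) → ℂ) : ℕ) : ℤ) := by
    intro χ hχ s hs hs0
    have := thompson_gen p M hM z hzo hp2 K hK θK χ (hsmt χ hχ) s hs hs0
    rwa [horb, hdegθ] at this
  obtain ⟨X, Y, hXY, hdisj, hcX, hcY, hdX, ⟨ε, hε, hdY⟩, hag⟩ := core_gen p M hM z hzo B
    (T.relIndex (Subgroup.normalizer ((P : Subgroup G) : Set G)) *
      charDegree (θ : Subgroup.centralizer ((P : Subgroup G) : Set G) → ℂ))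
    (Nat.mul_pos (Nat.pos_of_ne_zero hrel) (Nat.pos_of_ne_zero hθ0)) hdiv m e' Θ hm he' hpem
    hsupp hgram hne hreg hN2
  have hfdiv : f / e' = T.relIndex (Subgroup.normalizer ((P : Subgroup G) : Set G)) := by
    rw [hfe, Nat.mul_div_cancel_left _ (by omega : 0 < e')]
  refine ⟨⟨m, by rw [hpem]; simp⟩, ?_, X, Y, hXY, hdisj, hcX, hcY, ?_, ⟨ε, hε, ?_⟩, hag⟩
  · have h1 : Nat.card B = Nat.card X + Nat.card Y := by
      rw [hXY, Nat.card_coe_set_eq, Nat.card_coe_set_eq, Nat.card_coe_set_eq]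
      exact Set.ncard_union_eq hdisj (Set.toFinite X) (Set.toFinite Y)
    rw [h1, hcX, hcY]
  · intro χ hχ
    rw [hfdiv]
    exact hdX χ hχ
  · intro ψ hψ
    have := hdY ψ hψ
    rw [hfe]
    have e1 : e' * T.relIndex (Subgroup.normalizer ((P : Subgroup G) : Set G)) *
        charDegree (θ : Subgroup.centralizer ((P : Subgroup G) : Set G) → ℂ) =
        T.relIndex (Subgroup.normalizer ((P : Subgroup G) : Set G)) *
        charDegree (θ : Subgroup.centralizer ((P : Subgroup G) : Set G) → ℂ) * e' := by ring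
    rw [e1]
    exact this

end Cfsg.Agent.Lib.Helper22.TG
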