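import Cfsg.Agent.Lib.Helper22.TH1
import Cfsg.Agent.Lib.Helper22.TGDefs
import Cfsg.Agent.Lib.Helper34.TGSIDE1

/-!
# General blocks of defect one: the statement of the modular piece `MOD` and the side theorem

`ModStmt` is the statement of the piece MOD (a finite `𝔽_p[ω]H`-module, `p ∤ |H|`, has a
direct summand which is "absolutely simple" of dimension the degree of an irreducible character).
`side_core_of` is the side theorem given `ModStmt`.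
-/

set_option autoImplicit false

namespace Cfsg.Agent.Lib.Helper22.TG

open Cfsg Cfsg.Agent.Lib.Helper22.TA Cfsg.Agent.Lib.Helper22.TB
open scoped ComplexConjugate

universe u v

/-- the statement of the piece MOD, for groups in universe `u` and modules in universe `v` -/
def ModStmt : Prop :=
  ∀ {H : Type u} [Group H] [Fintype H] (p : ℕ) [Fact p.Prime]
    (_hpH : ¬ p ∣ Nat.card H)
    {V : Type v} [AddCommGroup V] [Finite V] [Nontrivial V] (_hV : ∀ v : V, (p : ℤ) • v = 0)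
    (ρ : H →* (V →ₗ[ℤ] V))
    (m : ℕ) (_hm0 : 0 < m) (_hpm : ¬ p ∣ m) (_hexp : ∀ h : H, h ^ m = 1)
    (ω : ℂ) (_hω : IsPrimitiveRoot ω m)
    (φ : Subring.closure ({ω} : Set ℂ) →+* (V →ₗ[ℤ] V))
    (_hφρ : ∀ a h, φ a ∘ₗ ρ h = ρ h ∘ₗ φ a)
    (hval : ∀ (ξ : IrrCharacter H) (h : H), (ξ : H → ℂ) h ∈ Subring.closure ({ω} : Set ℂ)),
    ∃ (ξ : IrrCharacter H) (π : V →ₗ[ℤ] V), π ∘ₗ π = π ∧ π ≠ 0 ∧
      (∀ h, π ∘ₗ ρ h = ρ h ∘ₗ π) ∧ (∀ a, π ∘ₗ φ a = φ a ∘ₗ π) ∧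
      Nat.card (LinearMap.range π) =
        p ^ (orderOf ((p : ZMod m)) * charDegree (ξ : H → ℂ)) ∧
      ∀ v ∈ LinearMap.range π,
        (charDegree (ξ : H → ℂ) : ℤ) •
          (∑ h : H, φ ⟨(ξ : H → ℂ) h⁻¹, hval ξ h⁻¹⟩ (ρ h v)) = (Nat.card H : ℤ) • v

theorem side_core_of (hMOD : ModStmt.{u, v}) {G : Type u} [Group G] [Fintype G] (p : ℕ)
    [Fact p.Prime]
    (K N₀ : Subgroup G) [Fintype ↥K] [Fintype ↥N₀] (hKN : K ≤ N₀) (hpN : ¬ p ∣ Nat.card N₀)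
    (hnorm : ∀ h ∈ N₀, ∀ y ∈ K, h * y * h⁻¹ ∈ K)
    (hcyc : ∃ g ∈ N₀, ∀ h ∈ N₀, ∃ (i : ℕ), ∃ y ∈ K, h = g ^ i * y)
    (m : ℕ) (hm0 : 0 < m) (hpm : ¬ p ∣ m) (hexp : ∀ h ∈ N₀, h ^ m = 1)
    (ω : ℂ) (hω : IsPrimitiveRoot ω m) (θ : IrrCharacter K)
    {Q : Type v} [AddCommGroup Q] [Finite Q] [Nontrivial Q] (hQ : ∀ v : Q, (p : ℤ) • v = 0)
    (ρQ : ↥N₀ →* (Q →ₗ[ℤ] Q))
    (φQ : Subring.closure ({ω} : Set ℂ) →+* (Q →ₗ[ℤ] Q))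
    (hφρ : ∀ a h, φQ a ∘ₗ ρQ h = ρQ h ∘ₗ φQ a)
    (hΘ : ∀ y : K, Tht K (θ : K → ℂ) N₀ y ∈ Subring.closure ({ω} : Set ℂ))
    (hE : ∀ v : Q, (charDegree (θ : K → ℂ) : ℤ) •
      (∑ y : K, φQ ⟨Tht K (θ : K → ℂ) N₀ y⁻¹, hΘ y⁻¹⟩ (ρQ ⟨(y : G), hKN y.2⟩ v)) =
        (Nat.card K : ℤ) • v) :
    ∃ π : Q →ₗ[ℤ] Q, π ∘ₗ π = π ∧ (∀ h, π ∘ₗ ρQ h = ρQ h ∘ₗ π) ∧
      (∀ a, π ∘ₗ φQ a = φQ a ∘ₗ π) ∧
      Nat.card (LinearMap.range π) = p ^ (orderOf ((p : ZMod m)) *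
        (Nat.card (orb K (θ : K → ℂ) N₀) * charDegree (θ : K → ℂ))) :=
  Cfsg.Agent.Lib.Helper34.TG.side_core_of_mod p K N₀ hKN hpN hnorm hcyc m hm0 hexp ω hω θ hQ ρQ φQ
    hφρ hΘ hE
    (fun hval => hMOD p hpN hQ ρQ m hm0 hpm (fun h => Subtype.ext (by simpa using hexp h h.2))
      ω hω φQ hφρ hval)

end Cfsg.Agent.Lib.Helper22.TG
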