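import Cfsg.Agent.Lib.Helper22.TG1
import Cfsg.Agent.Lib.Helper22.TH1
import Cfsg.Agent.Lib.Helper22.TGS
import Cfsg.Agent.Lib.Helper18.TGCYCHOM
import Cfsg.Agent.Lib.Helper74.TGGRP
import Cfsg.Agent.Lib.Helper29.TGPROD
import Cfsg.Agent.Lib.Helper2.TGTHETA
import Cfsg.Agent.Lib.Helper33.TGTRE
import Cfsg.Agent.Lib.Helper16.TGIND
import Cfsg.Agent.Lib.Helper48.TGCJ
import Cfsg.Agent.Lib.Helper29.TGCYC0
import Cfsg.Agent.Lib.Helper83.TGORTH
import Cfsg.Agent.Lib.Helper83.TGCLIFF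
import Cfsg.Agent.Lib.Helper92.TGRM2

/-!
# General blocks of defect one: generic lemmas for the assembly
-/

set_option autoImplicit false

namespace Cfsg.Agent.Lib.Helper22.TG

open Cfsg Cfsg.Agent.Lib.Helper22.TA Cfsg.Agent.Lib.Helper22.TB Cfsg.Agent.Lib.Helper22.TAP
open Cfsg.Agent.Lib.Helper18.TG (cyc_hom)
open Cfsg.Agent.Lib.Helper74.TG (hall_normalizer)
open Cfsg.Agent.Lib.Helper29.TG (chiT_irr chiT_pow pow_val_eq)
open Cfsg.Agent.Lib.Helper2.TG (orbit_conv)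
open Cfsg.Agent.Lib.Helper33.TG (trace_E)
open Cfsg.Agent.Lib.Helper16.TG (ind_hom_A ind_hom_B ind_rep_A ind_rep_B)
open Cfsg.Agent.Lib.Helper48.TG (cj_irr cj_cj)
open Cfsg.Agent.Lib.Helper29.TG (latt_cyclotomic)
open Cfsg.Agent.Lib.Helper83.TG (orth_res)
open Cfsg.Agent.Lib.Helper92.TG (dvd_rank_refined)
open Cfsg.Agent.Lib.Helper22.TH (trace_cast)
open scoped ComplexConjugate

/-- every element of `ℤ[ω]` is a polynomial in `ω` -/
theorem closure_exists_poly (ω : ℂ) (a : ℂ) (ha : a ∈ Subring.closure ({ω} : Set ℂ)) :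
    ∃ P : Polynomial ℤ, Polynomial.eval₂ (Int.castRingHom ℂ) ω P = a := by
  induction ha using Subring.closure_induction with
  | mem x hx =>
    rw [Set.mem_singleton_iff] at hx
    exact ⟨Polynomial.X, by rw [Polynomial.eval₂_X, hx]⟩
  | zero => exact ⟨0, by rw [Polynomial.eval₂_zero]⟩
  | one => exact ⟨1, by rw [Polynomial.eval₂_one]⟩
  | add x y _ _ hx hy =>
    obtain ⟨P, rfl⟩ := hx
    obtain ⟨Q, rfl⟩ := hy
    exact ⟨P + Q, by rw [Polynomial.eval₂_add]⟩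
  | neg x _ hx =>
    obtain ⟨P, rfl⟩ := hx
    exact ⟨-P, by rw [Polynomial.eval₂_neg]⟩
  | mul x y _ _ hx hy =>
    obtain ⟨P, rfl⟩ := hx
    obtain ⟨Q, rfl⟩ := hy
    exact ⟨P * Q, by rw [Polynomial.eval₂_mul]⟩

/-- a polynomial in `x` commutes with everything commuting with `x` -/
theorem commute_eval₂ {A : Type*} [Ring A] (x y : A) (h : Commute x y) (P : Polynomial ℤ) :
    Commute (Polynomial.eval₂ (Int.castRingHom A) x P) y := by
  rw [Polynomial.eval₂_eq_sum_range]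
  apply Commute.sum_left
  intro i _
  exact (Int.cast_commute _ _).mul_left (h.pow_left i)

/-- the operator `n • ∑ y, φ (F y) * ρ y` is an almost-idempotent when `F` is one for the
convolution. -/
theorem conv_op {K : Type*} [Group K] [Fintype K] {A : Type*} [Ring A] (ρ : K →* A)
    {R : Type*} [CommRing R] (φ : R →+* A) (hφ : ∀ a y, Commute (φ a) (ρ y))
    (F : K → R) (n κ : ℕ)
    (hF : ∀ g, (n : R) * ∑ y : K, F y * F (y⁻¹ * g) = (κ : R) * F g) :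
    ((n : ℤ) • ∑ y : K, φ (F y) * ρ y) * ((n : ℤ) • ∑ y : K, φ (F y) * ρ y) =
      (κ : ℤ) • ((n : ℤ) • ∑ y : K, φ (F y) * ρ y) := by
  have h1 : (∑ y : K, φ (F y) * ρ y) * (∑ y : K, φ (F y) * ρ y) =
      ∑ g : K, φ (∑ y : K, F y * F (y⁻¹ * g)) * ρ g := by
    rw [Finset.sum_mul]
    have e1 : ∀ y : K, (φ (F y) * ρ y) * (∑ y' : K, φ (F y') * ρ y') =
        ∑ g : K, φ (F y * F (y⁻¹ * g)) * ρ g := by
      intro y
      rw [Finset.mul_sum]
      refine Fintype.sum_equiv (Equiv.mulLeft y) _ _ ?_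
      intro y'
      simp only [Equiv.coe_mulLeft, inv_mul_cancel_left]
      rw [map_mul, map_mul]
      calc φ (F y) * ρ y * (φ (F y') * ρ y') = φ (F y) * (ρ y * φ (F y')) * ρ y' := by
            simp only [mul_assoc]
        _ = φ (F y) * (φ (F y') * ρ y) * ρ y' := by rw [(hφ (F y') y).eq]
        _ = φ (F y) * φ (F y') * (ρ y * ρ y') := by simp only [mul_assoc]
    rw [Finset.sum_congr rfl (fun y _ => e1 y), Finset.sum_comm]
    apply Finset.sum_congr rfl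
    intro g _
    rw [map_sum, Finset.sum_mul]
  rw [smul_mul_smul_comm, h1]
  have h2 : (n : ℤ) • ∑ g : K, φ (∑ y : K, F y * F (y⁻¹ * g)) * ρ g =
      (κ : ℤ) • ∑ g : K, φ (F g) * ρ g := by
    rw [Finset.smul_sum, Finset.smul_sum]
    apply Finset.sum_congr rfl
    intro g _
    have e2 : φ ((n : R) * ∑ y : K, F y * F (y⁻¹ * g)) = φ ((κ : R) * F g) := by rw [hF g]
    rw [map_mul, map_mul, map_natCast, map_natCast] at e2
    rw [← smul_mul_assoc, ← smul_mul_assoc]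
    congr 1
    rw [natCast_zsmul, natCast_zsmul, nsmul_eq_mul, nsmul_eq_mul]
    exact e2
  rw [mul_smul, h2, smul_comm]

theorem orb_eq {G : Type*} [Group G] (K N N₀ : Subgroup G) (z : G)
    (hzK : ∀ y ∈ K, y * z = z * y) (hN₀ : N₀ ≤ N)
    (hprod : ∀ n ∈ N, ∃ (i : ℕ), ∃ n₀ ∈ N₀, n = z ^ i * n₀)
    (hnorm : ∀ h ∈ N, ∀ y ∈ K, h * y * h⁻¹ ∈ K) (θ : K → ℂ) :
    orb K θ N₀ = orb K θ N := by
  ext f
  constructor
  · rintro ⟨n, hn, rfl⟩
    exact ⟨n, hN₀ hn, rfl⟩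
  · rintro ⟨n, hn, rfl⟩
    obtain ⟨i, n₀, hn₀, rfl⟩ := hprod n hn
    refine ⟨n₀, hn₀, ?_⟩
    funext y
    have h1 : n₀⁻¹ * (y : G) * n₀ ∈ K := by
      have := hnorm n₀⁻¹ (N.inv_mem (hN₀ hn₀)) y y.2
      rwa [inv_inv] at this
    have h2 : (z ^ i * n₀)⁻¹ * (y : G) * (z ^ i * n₀) = n₀⁻¹ * (y : G) * n₀ := by
      have hc : Commute (y : G) (z ^ i) := (show Commute (y : G) z from hzK y y.2).pow_right i
      calc (z ^ i * n₀)⁻¹ * (y : G) * (z ^ i * n₀)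
          = n₀⁻¹ * ((z ^ i)⁻¹ * ((y : G) * z ^ i)) * n₀ := by group
        _ = n₀⁻¹ * ((z ^ i)⁻¹ * (z ^ i * (y : G))) * n₀ := by rw [hc.eq]
        _ = n₀⁻¹ * (y : G) * n₀ := by group
    unfold cj
    rw [h2]

section bridge

variable {G : Type*} [Group G] [Fintype G]

open TensorProduct in
theorem bridge_H2r (p : ℕ) [Fact p.Prime] (M : Ideal AlgInt) (hM : IsPModular p M)
    (S : Finset (IrrCharacter G)) (c : G → ℤ)
    (hc : ∀ g, (c g : ℂ) = ∑ ψ ∈ S, (ψ : G → ℂ) 1 * (ψ : G → ℂ) g⁻¹)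
    (d : ℕ) (hd : ∀ ψ ∈ S, (ψ : G → ℂ) 1 = (d : ℂ))
    (m : ℕ) (hm : 0 < m) (hpm : ¬ p ∣ m) (w : G) (hw : ∀ g, w * g = g * w)
    (hcyc : Polynomial.eval₂ (Int.castRingHom (↥(latt c) →ₗ[ℤ] ↥(latt c))) (lrep c w)
      (Polynomial.cyclotomic m ℤ) = 0)
    (k : ℕ) (hk : 1 ≤ k) (lam mu : ↥(latt c) →ₗ[ℤ] ↥(latt c))
    (hcomm : ∀ g, lam ∘ₗ lrep c g = lrep c g ∘ₗ lam)
    (hidem : lam ∘ₗ lam - lam = ((p : ℤ) ^ k) • mu) :
    ∃ t : ℕ, (d * orderOf ((p : ZMod m))) * t ≤ Module.finrank ℤ ↥(latt c) ∧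
      LinearMap.trace ℤ ↥(latt c) lam ≡ (((d * orderOf ((p : ZMod m)) : ℕ) : ℤ) * t)
        [ZMOD (p : ℤ) ^ k] := by
  have h1 := tr_approx_idem p k hk lam mu hidem
  have hidem' : lam ∘ₗ lam - lam = (p : ℤ) • (((p : ℤ) ^ (k - 1)) • mu) := by
    rw [hidem, smul_smul, ← pow_succ']
    congr 2
    omega
  let ρC : Representation ℂ G (ℂ ⊗[ℤ] ↥(latt c)) :=
    MonoidHom.comp (Module.End.baseChangeHom ℤ ℂ ↥(latt c) :
      Module.End ℤ ↥(latt c) →* Module.End ℂ (ℂ ⊗[ℤ] ↥(latt c))) (lrep c)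
  have hρC : ∀ g, ρC g = (lrep c g).baseChange ℂ := fun g => rfl
  have hchar : ∀ g, ρC.character g = ∑ ψ ∈ S, (ψ : G → ℂ) 1 * (ψ : G → ℂ) g := by
    intro g
    unfold Representation.character
    rw [hρC, LinearMap.trace_baseChange, ← trace_cast S c hc g]
    rfl
  have hcu : ∀ g, (lam ∘ₗ lrep c w) ∘ₗ lrep c g = lrep c g ∘ₗ (lam ∘ₗ lrep c w) := by
    intro g
    have e1 : lrep c w * lrep c g = lrep c g * lrep c w := by
      rw [← map_mul, ← map_mul, hw g]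
    have e2 : lam * lrep c g = lrep c g * lam := hcomm g
    show (lam * lrep c w) * lrep c g = lrep c g * (lam * lrep c w)
    rw [mul_assoc, e1, ← mul_assoc, e2, mul_assoc]
  have hmult : ∀ θ : ℂ,
      d ∣ ((LinearMap.charpoly (lam ∘ₗ lrep c w)).map (algebraMap ℤ ℂ)).rootMultiplicity θ := by
    intro θ
    rw [← LinearMap.charpoly_baseChange, ← LinearMap.finrank_maxGenEigenspace_eq]
    apply sub_dim_dvd ρC S (fun ψ => (ψ : G → ℂ) 1) hchar d hd
    intro g v hv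
    have hcm : Commute ((lam ∘ₗ lrep c w).baseChange ℂ) (ρC g) := by
      show (lam ∘ₗ lrep c w).baseChange ℂ * (lrep c g).baseChange ℂ =
        (lrep c g).baseChange ℂ * (lam ∘ₗ lrep c w).baseChange ℂ
      rw [← LinearMap.baseChange_mul, ← LinearMap.baseChange_mul]
      congr 1
      exact hcu g
    exact Module.End.mapsTo_maxGenEigenspace_of_comm hcm θ hv
  have hlw : lam ∘ₗ lrep c w = lrep c w ∘ₗ lam := hcomm w
  have h2 := dvd_rank_refined p M hM lam _ (lrep c w) hidem' hlw m hm hpm hcyc d hmult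
  have h3 : Module.finrank (ZMod p) (LinearMap.range (lam.baseChange (ZMod p))) ≤
      Module.finrank ℤ ↥(latt c) := by
    have := Submodule.finrank_le (LinearMap.range (lam.baseChange (ZMod p)))
    rwa [Module.finrank_baseChange] at this
  obtain ⟨t, ht⟩ := h2
  refine ⟨t, by rw [← ht]; exact h3, ?_⟩
  rw [ht] at h1
  exact_mod_cast h1

end bridge

end Cfsg.Agent.Lib.Helper22.TG
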