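import Cfsg.Agent.Lib.Helper22.TG2

/-!
# General blocks of defect one: the operator `E` on the lattice
-/

set_option autoImplicit false

namespace Cfsg.Agent.Lib.Helper22.TG

open Cfsg Cfsg.Agent.Lib.Helper22.TA Cfsg.Agent.Lib.Helper22.TB Cfsg.Agent.Lib.Helper22.TAP
open Cfsg.Agent.Lib.Helper18.TG (cyc_hom)
open Cfsg.Agent.Lib.Helper74.TG (hall_normalizer)
open Cfsg.Agent.Lib.Helper29.TG (chiT_irr chiT_pow pow_val_eq)
open Cfsg.Agent.Lib.Helper2.TG (orbit_conv)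
open Cfsg.Agent.Lib.Helper33.TG (trace_E)
open Cfsg.Agent.Lib.Helper16.TG (ind_hom_A ind_hom_B ind_rep_A ind_rep_B)
open Cfsg.Agent.Lib.Helper48.TG (cj_irr cj_cj)
open Cfsg.Agent.Lib.Helper29.TG (latt_cyclotomic)
open Cfsg.Agent.Lib.Helper83.TG (orth_res)
open Cfsg.Agent.Lib.Helper92.TG (dvd_rank_refined)
open Cfsg.Agent.Lib.Helper22.TH (trace_cast)
open scoped ComplexConjugate

theorem E_props {Γ : Type*} [Group Γ] [Fintype Γ] (S : Finset (IrrCharacter Γ)) (c : Γ → ℤ)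
    (hc : ∀ g, (c g : ℂ) = ∑ ψ ∈ S, (ψ : Γ → ℂ) 1 * (ψ : Γ → ℂ) g⁻¹)
    (d : ℕ) (hd : ∀ ψ ∈ S, (ψ : Γ → ℂ) 1 = (d : ℂ))
    (χT : Γ → ℂ)
    (hS : ∀ ψ ∈ S, ∃ k : ℕ, Nat.Coprime k (Nat.card Γ) ∧ ∀ g, (ψ : Γ → ℂ) g = χT (g ^ k))
    (p : ℕ) [Fact p.Prime] (zT : Γ) (hz : orderOf zT = p)
    (m : ℕ) (hm : 0 < m) (ω : ℂ) (hω : IsPrimitiveRoot ω m)
    (w : Γ) (hw : ∀ g, w * g = g * w)
    (hχw : ∀ (g : Γ) (j : ℕ), χT (g * w ^ j) = χT g * ω ^ j)
    {K : Type*} [Group K] [Fintype K] (ι : K →* Γ) (hι : Function.Injective ι)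
    (hιz : ∀ y, ι y * zT = zT * ι y)
    (F : K → ℂ) (b : K → ℕ → ℕ)
    (hb : ∀ (y : K) (k : ℕ), F ((y⁻¹) ^ k) = ∑ j ∈ Finset.range m, (b y j : ℂ) * (ω ^ j) ^ k)
    (hFmem : ∀ y, F y ∈ Subring.closure ({ω} : Set ℂ))
    (n₀ : ℕ)
    (key : ∀ t ∈ Finset.Ico 1 p, (n₀ : ℂ) * ∑ y : K, χT (zT ^ t * ι y) * F y⁻¹ =
      (Nat.card K : ℂ) * χT (zT ^ t))
    (hconv : ∀ g : K, (n₀ : ℂ) * ∑ y : K, F y⁻¹ * F (g⁻¹ * y) = (Nat.card K : ℂ) * F g⁻¹)
    (φ : Subring.closure ({ω} : Set ℂ) →+* (↥(latt c) →ₗ[ℤ] ↥(latt c)))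
    (hφ : ∀ (P : Polynomial ℤ)
      (h : Polynomial.eval₂ (Int.castRingHom ℂ) ω P ∈ Subring.closure ({ω} : Set ℂ)),
      φ ⟨Polynomial.eval₂ (Int.castRingHom ℂ) ω P, h⟩ =
        Polynomial.eval₂ (Int.castRingHom (↥(latt c) →ₗ[ℤ] ↥(latt c))) (lrep c w) P)
    (E : ↥(latt c) →ₗ[ℤ] ↥(latt c))
    (hEdef : E = (n₀ : ℤ) • ∑ y : K, φ ⟨F y⁻¹, hFmem y⁻¹⟩ * lrep c (ι y)) :
    E ∘ₗ lrep c zT = lrep c zT ∘ₗ E ∧ E ∘ₗ E = ((Nat.card K : ℕ) : ℤ) • E ∧
    ∑ t ∈ Finset.Ico 1 p, LinearMap.trace ℤ ↥(latt c) ((lrep c zT ^ t) ∘ₗ E) =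
      ((Nat.card K : ℕ) : ℤ) * ∑ t ∈ Finset.Ico 1 p, LinearMap.trace ℤ ↥(latt c) (lrep c zT ^ t) := by
  classical
  -- φ commutes with the group
  have hφc : ∀ (a : Subring.closure ({ω} : Set ℂ)) (g : Γ), Commute (φ a) (lrep c g) := by
    intro a g
    obtain ⟨P, hP⟩ := closure_exists_poly ω a.1 a.2
    have ha : a = ⟨Polynomial.eval₂ (Int.castRingHom ℂ) ω P, hP ▸ a.2⟩ := Subtype.ext hP.symm
    rw [ha, hφ]
    apply commute_eval₂
    show lrep c w * lrep c g = lrep c g * lrep c w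
    rw [← map_mul, ← map_mul, hw g]
  refine ⟨?_, ?_, ?_⟩
  · -- commutes with σ
    have : Commute E (lrep c zT) := by
      rw [hEdef]
      apply Commute.smul_left
      apply Commute.sum_left
      intro y _
      apply Commute.mul_left (hφc _ _)
      show lrep c (ι y) * lrep c zT = lrep c zT * lrep c (ι y)
      rw [← map_mul, ← map_mul, hιz y]
    exact this.eq
  · -- almost idempotent
    have h1 := conv_op ((lrep c).comp ι) φ (fun a y => hφc a (ι y))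
      (fun y => (⟨F y⁻¹, hFmem y⁻¹⟩ : Subring.closure ({ω} : Set ℂ))) n₀ (Nat.card K) (by
        intro g
        apply Subtype.ext
        simp only [Subring.coe_mul, Subring.coe_natCast, AddSubmonoidClass.coe_finset_sum,
          mul_inv_rev, inv_inv]
        exact hconv g)
    simp only [MonoidHom.comp_apply] at h1
    show E * E = _
    rw [hEdef]
    exact h1
  · -- traces
    have hPy : ∀ y : K, φ ⟨F y⁻¹, hFmem y⁻¹⟩ =
        ∑ j ∈ Finset.range m, (b y j : ℤ) • (lrep c w) ^ j := by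
      intro y
      set P : Polynomial ℤ := ∑ j ∈ Finset.range m, Polynomial.monomial j (b y j : ℤ)
        with hPdef
      have e1 : Polynomial.eval₂ (Int.castRingHom ℂ) ω P = F y⁻¹ := by
        rw [hPdef, Polynomial.eval₂_finset_sum]
        have := hb y 1
        rw [pow_one] at this
        rw [this]
        apply Finset.sum_congr rfl
        intro j _
        rw [Polynomial.eval₂_monomial, pow_one]
        simp
      have e2 : (⟨F y⁻¹, hFmem y⁻¹⟩ : Subring.closure ({ω} : Set ℂ)) =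
          ⟨Polynomial.eval₂ (Int.castRingHom ℂ) ω P, e1 ▸ hFmem y⁻¹⟩ := Subtype.ext e1.symm
      rw [e2, hφ, hPdef, Polynomial.eval₂_finset_sum]
      apply Finset.sum_congr rfl
      intro j _
      rw [Polynomial.eval₂_monomial, zsmul_eq_mul]
      rfl
    have hEb : E = (n₀ : ℤ) • ∑ y : K, ∑ j ∈ Finset.range m,
        (b y j : ℤ) • lrep c (ι y * w ^ j) := by
      rw [hEdef]
      congr 1
      apply Finset.sum_congr rfl
      intro y _
      rw [hPy y, Finset.sum_mul]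
      apply Finset.sum_congr rfl
      intro j _
      rw [smul_mul_assoc, ← map_pow, ← map_mul]
      congr 2
      exact ((Commute.pow_left (show Commute w (ι y) from hw (ι y)) j)).eq
    have ht : ∀ t ∈ Finset.Ico 1 p, LinearMap.trace ℤ ↥(latt c) ((lrep c zT ^ t) ∘ₗ E) =
        ((Nat.card K : ℕ) : ℤ) * LinearMap.trace ℤ ↥(latt c) (lrep c zT ^ t) := by
      intro t ht
      rw [hEb]
      exact trace_E S c hc d hd χT hS p zT hz m hm ω hω w hw hχw ι hι hιz F b hb n₀ key t ht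
    rw [Finset.sum_congr rfl ht, ← Finset.mul_sum]

end Cfsg.Agent.Lib.Helper22.TG
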