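import Cfsg.Agent.Lib.Helper22.TG3

/-!
# General blocks of defect one: lemmas on `G × C_m` and on the ring hom `φ`
-/

set_option autoImplicit false

namespace Cfsg.Agent.Lib.Helper22.TG

open Cfsg Cfsg.Agent.Lib.Helper22.TA Cfsg.Agent.Lib.Helper22.TB Cfsg.Agent.Lib.Helper22.TAP
open Cfsg.Agent.Lib.Helper18.TG (cyc_hom)
open Cfsg.Agent.Lib.Helper74.TG (hall_normalizer)
open Cfsg.Agent.Lib.Helper29.TG (chiT_irr chiT_pow pow_val_eq)
open Cfsg.Agent.Lib.Helper2.TG (orbit_conv)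
open Cfsg.Agent.Lib.Helper33.TG (trace_E)
open Cfsg.Agent.Lib.Helper16.TG (ind_hom_A ind_hom_B ind_rep_A ind_rep_B)
open Cfsg.Agent.Lib.Helper48.TG (cj_irr cj_cj)
open Cfsg.Agent.Lib.Helper29.TG (latt_cyclotomic)
open Cfsg.Agent.Lib.Helper83.TG (orth_res)
open Cfsg.Agent.Lib.Helper92.TG (dvd_rank_refined)
open Cfsg.Agent.Lib.Helper22.TH (trace_cast)
open scoped ComplexConjugate

section phi

variable {Γ : Type*} [Group Γ] [Fintype Γ] (c : Γ → ℤ) (ω : ℂ) (w : Γ)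
  (φ : Subring.closure ({ω} : Set ℂ) →+* (↥(latt c) →ₗ[ℤ] ↥(latt c)))

theorem phi_commute (hw : ∀ g, w * g = g * w)
    (hφ : ∀ (P : Polynomial ℤ)
      (h : Polynomial.eval₂ (Int.castRingHom ℂ) ω P ∈ Subring.closure ({ω} : Set ℂ)),
      φ ⟨Polynomial.eval₂ (Int.castRingHom ℂ) ω P, h⟩ =
        Polynomial.eval₂ (Int.castRingHom (↥(latt c) →ₗ[ℤ] ↥(latt c))) (lrep c w) P)
    (a : Subring.closure ({ω} : Set ℂ)) (g : Γ) : Commute (φ a) (lrep c g) := by
  obtain ⟨P, hP⟩ := closure_exists_poly ω a.1 a.2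
  have ha : a = ⟨Polynomial.eval₂ (Int.castRingHom ℂ) ω P, hP ▸ a.2⟩ := Subtype.ext hP.symm
  rw [ha, hφ]
  apply commute_eval₂
  show lrep c w * lrep c g = lrep c g * lrep c w
  rw [← map_mul, ← map_mul, hw g]

theorem phi_omega
    (hφ : ∀ (P : Polynomial ℤ)
      (h : Polynomial.eval₂ (Int.castRingHom ℂ) ω P ∈ Subring.closure ({ω} : Set ℂ)),
      φ ⟨Polynomial.eval₂ (Int.castRingHom ℂ) ω P, h⟩ =
        Polynomial.eval₂ (Int.castRingHom (↥(latt c) →ₗ[ℤ] ↥(latt c))) (lrep c w) P) :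
    φ ⟨ω, Subring.subset_closure (Set.mem_singleton ω)⟩ = lrep c w := by
  have e1 : Polynomial.eval₂ (Int.castRingHom ℂ) ω Polynomial.X = ω := Polynomial.eval₂_X _ _
  have e3 : Polynomial.eval₂ (Int.castRingHom ℂ) ω Polynomial.X ∈
      Subring.closure ({ω} : Set ℂ) := by
    rw [e1]; exact Subring.subset_closure (Set.mem_singleton ω)
  have e2 : (⟨ω, Subring.subset_closure (Set.mem_singleton ω)⟩ :
      Subring.closure ({ω} : Set ℂ)) =
      ⟨Polynomial.eval₂ (Int.castRingHom ℂ) ω Polynomial.X, e3⟩ := Subtype.ext e1.symm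
  rw [e2, hφ, Polynomial.eval₂_X]

end phi

section prod

theorem chiT_mk_one {G : Type*} (m : ℕ) (ω : ℂ) (χ : G → ℂ) (g : G) :
    chiT m ω χ ((g, 1) : G × Multiplicative (ZMod m)) = χ g := by
  unfold chiT
  simp

variable {G : Type*} [Group G] (m : ℕ) [NeZero m]

theorem chiT_mul_w (ω : ℂ) (hω : ω ^ m = 1) (χ : G → ℂ) (g : G × Multiplicative (ZMod m))
    (j : ℕ) :
    chiT m ω χ (g * ((1 : G), Multiplicative.ofAdd (1 : ZMod m)) ^ j) = chiT m ω χ g * ω ^ j := by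
  unfold chiT
  simp only [Prod.fst_mul, Prod.snd_mul, Prod.pow_fst, Prod.pow_snd, one_pow, mul_one]
  rw [mul_assoc]
  congr 1
  rw [← pow_add]
  apply pow_val_eq hω
  rw [toAdd_mul, toAdd_pow, toAdd_ofAdd, nsmul_one]
  push_cast
  rw [ZMod.natCast_zmod_val]

theorem mem_zpowers_prod (z : G) (x : G) (v : Multiplicative (ZMod m)) :
    ((x, v) : G × Multiplicative (ZMod m)) ∈ Subgroup.zpowers ((z, 1) : G × Multiplicative (ZMod m)) ↔
      x ∈ Subgroup.zpowers z ∧ v = 1 := by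
  constructor
  · rintro ⟨i, hi⟩
    have h1 := congrArg Prod.fst hi
    have h2 := congrArg Prod.snd hi
    simp only [Prod.pow_fst, Prod.pow_snd, one_zpow] at h1 h2
    exact ⟨⟨i, h1⟩, h2.symm⟩
  · rintro ⟨⟨i, hi⟩, rfl⟩
    refine ⟨i, ?_⟩
    ext
    · simpa using hi
    · simp

theorem normalizer_prod_fst (z : G) (n : G × Multiplicative (ZMod m))
    (hn : n ∈ Subgroup.normalizer
      ((Subgroup.zpowers ((z, 1) : G × Multiplicative (ZMod m)) : Subgroup _) : Set _)) :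
    n.1 ∈ Subgroup.normalizer ((Subgroup.zpowers z : Subgroup G) : Set G) := by
  rw [Subgroup.mem_normalizer_iff] at hn ⊢
  intro x
  have := hn (x, 1)
  rw [mem_zpowers_prod] at this
  have e : n * ((x, 1) : G × Multiplicative (ZMod m)) * n⁻¹ = (n.1 * x * n.1⁻¹, 1) := by
    ext
    · simp
    · simp
  rw [e, mem_zpowers_prod] at this
  simpa using this

theorem normalizer_prod_mk (z : G) (n : G)
    (hn : n ∈ Subgroup.normalizer ((Subgroup.zpowers z : Subgroup G) : Set G)) :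
    ((n, 1) : G × Multiplicative (ZMod m)) ∈ Subgroup.normalizer
      ((Subgroup.zpowers ((z, 1) : G × Multiplicative (ZMod m)) : Subgroup _) : Set _) := by
  rw [Subgroup.mem_normalizer_iff] at hn ⊢
  rintro ⟨x, v⟩
  have e : ((n, 1) : G × Multiplicative (ZMod m)) * (x, v) * (n, 1)⁻¹ = (n * x * n⁻¹, v) := by
    ext
    · simp
    · simp
  rw [e, mem_zpowers_prod, mem_zpowers_prod, hn x]

theorem snd_eq_pow (v : Multiplicative (ZMod m)) :
    v = Multiplicative.ofAdd (1 : ZMod m) ^ (Multiplicative.toAdd v).val := by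
  apply Multiplicative.toAdd.injective
  rw [toAdd_pow, toAdd_ofAdd, nsmul_one, ZMod.natCast_zmod_val]

end prod

end Cfsg.Agent.Lib.Helper22.TG
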