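import Cfsg.Agent.Lib.Helper22.TG4

/-!
# General blocks of defect one: the lattice theorem on a group `Γ` with a central element `w`
-/

set_option autoImplicit false

namespace Cfsg.Agent.Lib.Helper22.TG

open Cfsg Cfsg.Agent.Lib.Helper22.TA Cfsg.Agent.Lib.Helper22.TB Cfsg.Agent.Lib.Helper22.TAP
open Cfsg.Agent.Lib.Helper18.TG (cyc_hom)
open Cfsg.Agent.Lib.Helper74.TG (hall_normalizer)
open Cfsg.Agent.Lib.Helper29.TG (chiT_irr chiT_pow pow_val_eq)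
open Cfsg.Agent.Lib.Helper2.TG (orbit_conv)
open Cfsg.Agent.Lib.Helper33.TG (trace_E)
open Cfsg.Agent.Lib.Helper16.TG (ind_hom_A ind_hom_B ind_rep_A ind_rep_B)
open Cfsg.Agent.Lib.Helper48.TG (cj_irr cj_cj)
open Cfsg.Agent.Lib.Helper29.TG (latt_cyclotomic)
open Cfsg.Agent.Lib.Helper83.TG (orth_res)
open Cfsg.Agent.Lib.Helper92.TG (dvd_rank_refined)
open Cfsg.Agent.Lib.Helper22.TH (trace_cast)
open Cfsg.Agent.Lib.Helper80 (galConj galConj_apply)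
open scoped ComplexConjugate

/-- eigenvalue multiplicities for a sum of irreducible characters -/
theorem exists_mult {K : Type*} [Group K] (O : Finset (K → ℂ))
    (hO : ∀ f ∈ O, IsIrrCharacter K f) (m : ℕ) (hm0 : 0 < m) (hexp : ∀ y : K, y ^ m = 1)
    (ω : ℂ) (hω : IsPrimitiveRoot ω m) :
    ∃ b : K → ℕ → ℕ, ∀ (y : K) (k : ℕ),
      (∑ f ∈ O, f ((y⁻¹) ^ k)) = ∑ j ∈ Finset.range m, (b y j : ℂ) * (ω ^ j) ^ k := by
  classical
  have h1 : ∀ f ∈ O, ∀ y : K, ∃ mf : ℕ → ℕ, ∀ k : ℕ,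
      f ((y⁻¹) ^ k) = ∑ j ∈ Finset.range m, (mf j : ℂ) * (ω ^ j) ^ k := by
    intro f hf y
    obtain ⟨n, ρ, -, rfl⟩ := hO f hf
    exact Cfsg.Agent.Lib.Helper80.character_pow_eq ρ y⁻¹ m hm0
      (by rw [inv_pow, hexp, inv_one]) ω hω
  choose! mf hmf using h1
  refine ⟨fun y j => ∑ f ∈ O, mf f y j, fun y k => ?_⟩
  rw [Finset.sum_congr rfl (fun f hf => hmf f hf y k), Finset.sum_comm]
  apply Finset.sum_congr rfl
  intro j _
  push_cast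
  rw [Finset.sum_mul]

/-- the orbit as a finset -/
theorem orbit_finset {G : Type*} [Group G] [Finite G] (K : Subgroup G) (θ : K → ℂ)
    (N₀ : Subgroup G) :
    ∃ O : Finset (K → ℂ), (∀ f, f ∈ O ↔ f ∈ orb K θ N₀) ∧
      ∀ y, Tht K θ N₀ y = ∑ f ∈ O, f y := by
  classical
  have hOfin : (orb K θ N₀).Finite := by
    apply Set.Finite.subset (Set.finite_range (fun n : G => cj K θ n))
    rintro f ⟨n, -, rfl⟩
    exact ⟨n, rfl⟩
  refine ⟨hOfin.toFinset, fun f => Set.Finite.mem_toFinset hOfin, fun y => ?_⟩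
  unfold Tht
  exact finsum_mem_eq_finite_toFinset_sum _ hOfin

theorem orb_irr {G : Type*} [Group G] [Finite G] (K N₀ : Subgroup G)
    (hnorm : ∀ h ∈ N₀, ∀ y ∈ K, h * y * h⁻¹ ∈ K) (θ : IrrCharacter K) (f : K → ℂ)
    (hf : f ∈ orb K (θ : K → ℂ) N₀) :
    IsIrrCharacter K f ∧ f 1 = (charDegree (θ : K → ℂ) : ℂ) := by
  obtain ⟨n, hn, rfl⟩ := hf
  have h1 : ∀ y ∈ K, n⁻¹ * y * n ∈ K := by
    intro y hy
    have := hnorm n⁻¹ (N₀.inv_mem hn) y hy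
    rwa [inv_inv] at this
  have := cj_irr K (θ : K → ℂ) θ.2 n h1 (hnorm n hn)
  exact ⟨this.1, by rw [this.2, (Cfsg.Agent.Lib.Helper82.irr_charDegree θ).1]⟩

/-- the key orthogonality: a combination of `N`-conjugates of `θ` convolved with the orbit
sum. -/
theorem key_of_smt {G : Type*} [Group G] [Fintype G] (K N₀ N : Subgroup G) [Fintype ↥K]
    (hnorm : ∀ h ∈ N₀, ∀ y ∈ K, h * y * h⁻¹ ∈ K) (θ : IrrCharacter K)
    (horb : orb K (θ : K → ℂ) N₀ = orb K (θ : K → ℂ) N)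
    (a : G → ℂ) (ha : ∀ n, n ∉ N → a n = 0) (u : K → ℂ)
    (hu : ∀ y : K, u y = ∑ n : G, a n * cj K (θ : K → ℂ) n y) :
    (charDegree (θ : K → ℂ) : ℂ) * ∑ y : K, u y * Tht K (θ : K → ℂ) N₀ y⁻¹ =
      (Nat.card K : ℂ) * u 1 := by
  classical
  obtain ⟨O, hOmem, hF⟩ := orbit_finset K (θ : K → ℂ) N₀
  have hOirr : ∀ f ∈ O, IsIrrCharacter K f ∧ f 1 = (charDegree (θ : K → ℂ) : ℂ) :=
    fun f hf => orb_irr K N₀ hnorm θ f ((hOmem f).1 hf)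
  have e3 : ∀ n : G, a n * ((charDegree (θ : K → ℂ) : ℂ) *
      ∑ y : K, cj K (θ : K → ℂ) n y * Tht K (θ : K → ℂ) N₀ y⁻¹) =
      a n * ((Nat.card K : ℂ) * cj K (θ : K → ℂ) n 1) := by
    intro n
    by_cases hn : n ∈ N
    · congr 1
      have hmemO : cj K (θ : K → ℂ) n ∈ O := by
        rw [hOmem, horb]
        exact ⟨n, hn, rfl⟩
      have := (orbit_conv O (fun f hf => (hOirr f hf).1) _ (fun f hf => (hOirr f hf).2)).2
        (cj K (θ : K → ℂ) n) hmemO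
      simp only [← hF] at this
      exact this
    · rw [ha n hn, zero_mul, zero_mul]
  calc (charDegree (θ : K → ℂ) : ℂ) * ∑ y : K, u y * Tht K (θ : K → ℂ) N₀ y⁻¹
      = ∑ n : G, a n * ((charDegree (θ : K → ℂ) : ℂ) *
          ∑ y : K, cj K (θ : K → ℂ) n y * Tht K (θ : K → ℂ) N₀ y⁻¹) := by
        simp only [hu, Finset.sum_mul, Finset.mul_sum]
        rw [Finset.sum_comm]
        apply Finset.sum_congr rfl
        intro n _
        apply Finset.sum_congr rfl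
        intro y _
        ring
    _ = ∑ n : G, a n * ((Nat.card K : ℂ) * cj K (θ : K → ℂ) n 1) :=
        Finset.sum_congr rfl (fun n _ => e3 n)
    _ = (Nat.card K : ℂ) * u 1 := by
        rw [hu 1, Finset.mul_sum]
        apply Finset.sum_congr rfl
        intro n _
        ring

section final

variable {Γ : Type*} [Group Γ] [Fintype Γ]
variable {X : Type*} [AddCommGroup X] [Module.Free ℤ X] [Module.Finite ℤ X]

theorem final_A (p : ℕ) [Fact p.Prime] (z : Γ) (hz : orderOf z = p) (hp2 : ¬ p ^ 2 ∣ Nat.card Γ)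
    (ρ : Γ →* (X →ₗ[ℤ] X)) (d : ℕ) (hd : 0 < d) (s : ℤ)
    (H1 : ∀ lam : X →ₗ[ℤ] X, (∀ g, lam ∘ₗ ρ g = ρ g ∘ₗ lam) →
      (d : ℤ) * ∑ t ∈ Finset.Ico 1 p, LinearMap.trace ℤ X ((ρ z ^ t) ∘ₗ lam) =
        s * LinearMap.trace ℤ X lam)
    (H2 : ∀ k, 1 ≤ k → ∀ lam mu : X →ₗ[ℤ] X, (∀ g, lam ∘ₗ ρ g = ρ g ∘ₗ lam) →
      lam ∘ₗ lam - lam = ((p : ℤ) ^ k) • mu →
      ∃ t : ℕ, d * t ≤ Module.finrank ℤ X ∧
        LinearMap.trace ℤ X lam ≡ ((d : ℤ) * t) [ZMOD (p : ℤ) ^ k])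
    (π : QA p (ρ z) →ₗ[ℤ] QA p (ρ z)) (hπ : π ∘ₗ π = π)
    (hAN : ∀ n ∈ Subgroup.normalizer ((Subgroup.zpowers z : Subgroup Γ) : Set Γ),
      ∀ g : QA p (ρ z) →ₗ[ℤ] QA p (ρ z), IndA p (ρ z) (ρ n) g → g ∘ₗ π = π ∘ₗ g)
    (r D : ℕ) (hr : 0 < r) (hcard : Nat.card (LinearMap.range π) = p ^ (r * D))
    (s₀ : ℤ) (hs : s = s₀ * r) : s₀ ∣ ((p : ℤ) - 1) * (D : ℤ) := by
  have hp := (Fact.out : p.Prime)
  obtain ⟨a, b, t, hA, hB, e⟩ := KI p z hz hp2 ρ d hd s H1 H2 π 0 hπ (by simp) hAN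
    (fun _ _ g _ => by simp)
  rw [card_range_zero] at hB
  have eb : b = 0 := by
    by_contra h
    have : 1 < p ^ b := Nat.one_lt_pow h hp.one_lt
    omega
  have ea : a = r * D := (Nat.pow_right_injective hp.two_le (hcard.symm.trans hA)).symm
  subst ea; subst eb
  refine ⟨t, ?_⟩
  have hr' : (r : ℤ) ≠ 0 := by exact_mod_cast hr.ne'
  apply mul_left_cancel₀ hr'
  push_cast at e
  rw [hs] at e
  linear_combination e

theorem final_B (p : ℕ) [Fact p.Prime] (z : Γ) (hz : orderOf z = p) (hp2 : ¬ p ^ 2 ∣ Nat.card Γ)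
    (ρ : Γ →* (X →ₗ[ℤ] X)) (d : ℕ) (hd : 0 < d) (s : ℤ)
    (H1 : ∀ lam : X →ₗ[ℤ] X, (∀ g, lam ∘ₗ ρ g = ρ g ∘ₗ lam) →
      (d : ℤ) * ∑ t ∈ Finset.Ico 1 p, LinearMap.trace ℤ X ((ρ z ^ t) ∘ₗ lam) =
        s * LinearMap.trace ℤ X lam)
    (H2 : ∀ k, 1 ≤ k → ∀ lam mu : X →ₗ[ℤ] X, (∀ g, lam ∘ₗ ρ g = ρ g ∘ₗ lam) →
      lam ∘ₗ lam - lam = ((p : ℤ) ^ k) • mu →
      ∃ t : ℕ, d * t ≤ Module.finrank ℤ X ∧
        LinearMap.trace ℤ X lam ≡ ((d : ℤ) * t) [ZMOD (p : ℤ) ^ k])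
    (π : QB p (ρ z) →ₗ[ℤ] QB p (ρ z)) (hπ : π ∘ₗ π = π)
    (hBN : ∀ n ∈ Subgroup.normalizer ((Subgroup.zpowers z : Subgroup Γ) : Set Γ),
      ∀ g : QB p (ρ z) →ₗ[ℤ] QB p (ρ z), IndB p (ρ z) (ρ n) g → g ∘ₗ π = π ∘ₗ g)
    (r D : ℕ) (hr : 0 < r) (hcard : Nat.card (LinearMap.range π) = p ^ (r * D))
    (s₀ : ℤ) (hs : s = s₀ * r) : s₀ ∣ ((p : ℤ) - 1) * (D : ℤ) := by
  have hp := (Fact.out : p.Prime)
  obtain ⟨a, b, t, hA, hB, e⟩ := KI p z hz hp2 ρ d hd s H1 H2 0 π (by simp) hπ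
    (fun _ _ g _ => by simp) hBN
  rw [card_range_zero] at hA
  have ea : a = 0 := by
    by_contra h
    have : 1 < p ^ a := Nat.one_lt_pow h hp.one_lt
    omega
  have eb : b = r * D := (Nat.pow_right_injective hp.two_le (hcard.symm.trans hB)).symm
  subst ea; subst eb
  refine ⟨-(t : ℤ), ?_⟩
  have hr' : (r : ℤ) ≠ 0 := by exact_mod_cast hr.ne'
  apply mul_left_cancel₀ hr'
  push_cast at e
  rw [hs] at e
  linear_combination (-1 : ℤ) * e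

end final

end Cfsg.Agent.Lib.Helper22.TG
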