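import Cfsg.Agent.Lib.Helper22.TG5

/-!
# General blocks of defect one: the lattice theorem on a group `Γ` with a central element `w`
-/

set_option autoImplicit false

namespace Cfsg.Agent.Lib.Helper22.TG

open Cfsg Cfsg.Agent.Lib.Helper22.TA Cfsg.Agent.Lib.Helper22.TB Cfsg.Agent.Lib.Helper22.TAP
open Cfsg.Agent.Lib.Helper18.TG (cyc_hom)
open Cfsg.Agent.Lib.Helper74.TG (hall_normalizer)
open Cfsg.Agent.Lib.Helper29.TG (chiT_irr chiT_pow pow_val_eq)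
open Cfsg.Agent.Lib.Helper2.TG (orbit_conv)
open Cfsg.Agent.Lib.Helper33.TG (trace_E)
open Cfsg.Agent.Lib.Helper16.TG (ind_hom_A ind_hom_B ind_rep_A ind_rep_B)
open Cfsg.Agent.Lib.Helper48.TG (cj_irr cj_cj)
open Cfsg.Agent.Lib.Helper29.TG (latt_cyclotomic)
open Cfsg.Agent.Lib.Helper83.TG (orth_res)
open Cfsg.Agent.Lib.Helper92.TG (dvd_rank_refined)
open Cfsg.Agent.Lib.Helper22.TH (trace_cast)
open Cfsg.Agent.Lib.Helper80 (galConj galConj_apply)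
open scoped ComplexConjugate

universe u v

theorem thompson_lattice (hMOD : ModStmt.{u, v}) {Γ : Type v} [Group Γ] [Fintype Γ] (p : ℕ)
    [Fact p.Prime]
    (M : Ideal AlgInt) (hM : IsPModular p M)
    (zT : Γ) (hz : orderOf zT = p) (hp2 : ¬ p ^ 2 ∣ Nat.card Γ)
    (χT : IrrCharacter Γ)
    (m : ℕ) (hm0 : 0 < m) (hpm : ¬ p ∣ m) (hmΓ : m ∣ Nat.card Γ)
    (ω : ℂ) (hω : IsPrimitiveRoot ω m)
    (wT : Γ) (hw : ∀ g, wT * g = g * wT)
    (hχw : ∀ (g : Γ) (j : ℕ), (χT : Γ → ℂ) (g * wT ^ j) = (χT : Γ → ℂ) g * ω ^ j)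
    {G : Type u} [Group G] [Fintype G] (K N₀ : Subgroup G) [Fintype ↥K] [Fintype ↥N₀]
    (hKN : K ≤ N₀) (hpN : ¬ p ∣ Nat.card N₀)
    (hnorm : ∀ h ∈ N₀, ∀ y ∈ K, h * y * h⁻¹ ∈ K)
    (hcyc : ∃ g ∈ N₀, ∀ h ∈ N₀, ∃ (i : ℕ), ∃ y ∈ K, h = g ^ i * y)
    (hexp : ∀ h ∈ N₀, h ^ m = 1)
    (ιN : ↥N₀ →* Γ) (hιN : Function.Injective ιN)
    (hιz : ∀ y : K, ιN ⟨(y : G), hKN y.2⟩ * zT = zT * ιN ⟨(y : G), hKN y.2⟩)
    (hιnorm : ∀ h, ιN h ∈ Subgroup.normalizer ((Subgroup.zpowers zT : Subgroup Γ) : Set Γ))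
    (hdecomp : ∀ n ∈ Subgroup.normalizer ((Subgroup.zpowers zT : Subgroup Γ) : Set Γ),
      ∃ (i : ℕ) (h : ↥N₀) (j : ℕ), n = zT ^ i * ιN h * wT ^ j)
    (θ : IrrCharacter K)
    (key : ∀ t ∈ Finset.Ico 1 p,
      (charDegree (θ : K → ℂ) : ℂ) *
        ∑ y : K, (χT : Γ → ℂ) (zT ^ t * ιN ⟨(y : G), hKN y.2⟩) *
          Tht K (θ : K → ℂ) N₀ y⁻¹ =
        (Nat.card K : ℂ) * (χT : Γ → ℂ) (zT ^ t))
    (s : ℤ) (hs : (s : ℂ) = ∑ t ∈ Finset.Ico 1 p, (χT : Γ → ℂ) (zT ^ t)) (hs0 : s ≠ 0) :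
    s ∣ ((p : ℤ) - 1) *
      ((Nat.card (orb K (θ : K → ℂ) N₀) * charDegree (θ : K → ℂ) : ℕ) : ℤ) := by
  classical
  have hp := (Fact.out : p.Prime)
  obtain ⟨S, c, hχS, hS, hc⟩ := exists_orbit_fun χT
  obtain ⟨hd1, hd0⟩ := Cfsg.Agent.Lib.Helper82.irr_charDegree χT
  set d := charDegree (χT : Γ → ℂ) with hdd
  have hpG : p ∣ Nat.card Γ := hz ▸ orderOf_dvd_natCard zT
  have hd : ∀ ψ ∈ S, (ψ : Γ → ℂ) 1 = (d : ℂ) := by
    intro ψ hψ
    obtain ⟨k, hk, rfl⟩ := hS ψ hψ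
    rw [galConj_apply, one_pow, hd1]
  have hsS : ∀ ψ ∈ S, ∑ t ∈ Finset.Ico 1 p, (ψ : Γ → ℂ) (zT ^ t) = (s : ℂ) := by
    intro ψ hψ
    obtain ⟨k, hk, rfl⟩ := hS ψ hψ
    have hpk : ¬ p ∣ k := by
      intro h
      have := Nat.dvd_gcd h hpG
      rw [hk] at this
      exact hp.one_lt.ne' (Nat.dvd_one.1 this)
    rw [hs, ← Cfsg.Agent.Lib.Helper22.TH.sum_pow_mul_eq p zT hz (χT : Γ → ℂ) k hpk]
    apply Finset.sum_congr rfl
    intro t _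
    rw [galConj_apply, ← pow_mul]
  have hfin : (Module.finrank ℤ ↥(latt c) : ℂ) = (S.card : ℂ) * ((d : ℂ) * (d : ℂ)) := by
    have h1 := trace_cast S c hc 1
    rw [map_one, LinearMap.trace_one] at h1
    rw [show ((Module.finrank ℤ ↥(latt c) : ℤ) : ℂ) = (Module.finrank ℤ ↥(latt c) : ℂ) from by
      push_cast; rfl] at h1
    rw [h1, Finset.sum_congr rfl (fun ψ hψ => by rw [hd ψ hψ]), Finset.sum_const, nsmul_eq_mul]
  have hpos : 0 < Module.finrank ℤ ↥(latt c) := by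
    rw [Nat.pos_iff_ne_zero]
    intro h0
    rw [h0] at hfin
    have hS0 : (S.card : ℂ) ≠ 0 := by
      have : S.card ≠ 0 := Finset.card_ne_zero.2 ⟨χT, hχS⟩
      exact_mod_cast this
    have hdc : (d : ℂ) ≠ 0 := by exact_mod_cast hd0
    exact mul_ne_zero hS0 (mul_ne_zero hdc hdc) (by simpa using hfin.symm)
  haveI : Nontrivial ↥(latt c) := Module.nontrivial_of_finrank_pos (R := ℤ) hpos
  have hS' : ∀ ψ ∈ S, ∃ k : ℕ, Nat.Coprime k (Nat.card Γ) ∧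
      ∀ g, (ψ : Γ → ℂ) g = (χT : Γ → ℂ) (g ^ k) := by
    intro ψ hψ
    obtain ⟨k, hk, rfl⟩ := hS ψ hψ
    exact ⟨k, hk, fun g => rfl⟩
  have hcycS : ∀ ψ ∈ S, ∃ η : ℂ, IsPrimitiveRoot η m ∧
      ∀ g, (ψ : Γ → ℂ) (g * wT) = η * (ψ : Γ → ℂ) g := by
    intro ψ hψ
    obtain ⟨k, hk, rfl⟩ := hS ψ hψ
    refine ⟨ω ^ k, hω.pow_of_coprime k (Nat.Coprime.coprime_dvd_right hmΓ hk), fun g => ?_⟩
    rw [galConj_apply, galConj_apply, (show Commute g wT from (hw g).symm).mul_pow, hχw, mul_comm]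
  have hcycl := latt_cyclotomic S c hc m hm0 wT hw hcycS
  obtain ⟨φ, hφ⟩ := cyc_hom m hm0 ω hω (lrep c wT) hcycl
  have hφc : ∀ (a : Subring.closure ({ω} : Set ℂ)) (g : Γ), Commute (φ a) (lrep c g) :=
    fun a g => phi_commute c ω wT φ hw hφ a g
  -- the order of `p` modulo `m`
  set r := orderOf ((p : ZMod m)) with hrdef
  have hr : 0 < r := by
    have hcop : Nat.Coprime p m := (Nat.Prime.coprime_iff_not_dvd hp).2 hpm
    have h1 : ((ZMod.unitOfCoprime p hcop : (ZMod m)ˣ) : ZMod m) = (p : ZMod m) :=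
      ZMod.coe_unitOfCoprime p hcop
    haveI : NeZero m := ⟨hm0.ne'⟩
    rw [hrdef, ← h1, orderOf_units]
    exact orderOf_pos _
  have hdr : 0 < d * r := Nat.mul_pos (Nat.pos_of_ne_zero hd0) hr
  have hsr : s * (r : ℤ) ≠ 0 := mul_ne_zero hs0 (by exact_mod_cast hr.ne')
  have H1 : ∀ lam : ↥(latt c) →ₗ[ℤ] ↥(latt c), (∀ g, lam ∘ₗ lrep c g = lrep c g ∘ₗ lam) →
      ((d * r : ℕ) : ℤ) *
        ∑ t ∈ Finset.Ico 1 p, LinearMap.trace ℤ ↥(latt c) ((lrep c zT ^ t) ∘ₗ lam) =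
        (s * (r : ℤ)) * LinearMap.trace ℤ ↥(latt c) lam := by
    intro lam hl
    have := Cfsg.Agent.Lib.Helper22.TH.bridge_H1 p zT S c hc d hd s hsS lam hl
    push_cast
    linear_combination (r : ℤ) * this
  have H2 : ∀ k, 1 ≤ k → ∀ lam mu : ↥(latt c) →ₗ[ℤ] ↥(latt c),
      (∀ g, lam ∘ₗ lrep c g = lrep c g ∘ₗ lam) →
      lam ∘ₗ lam - lam = ((p : ℤ) ^ k) • mu →
      ∃ t : ℕ, (d * r) * t ≤ Module.finrank ℤ ↥(latt c) ∧
        LinearMap.trace ℤ ↥(latt c) lam ≡ (((d * r : ℕ) : ℤ) * t) [ZMOD (p : ℤ) ^ k] :=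
    fun k hk lam mu hl hidem =>
      bridge_H2r p M hM S c hc d hd m hm0 hpm wT hw hcycl k hk lam mu hl hidem
  obtain ⟨dichA, dichB⟩ := tate_dichotomy p zT hz hp2 (lrep c) (d * r) hdr (s * r) hsr H1 H2
  -- the orbit
  obtain ⟨O, hOmem, hF⟩ := orbit_finset K (θ : K → ℂ) N₀
  set nθ := charDegree (θ : K → ℂ) with hnθ
  have hOirr : ∀ f ∈ O, IsIrrCharacter K f ∧ f 1 = (nθ : ℂ) :=
    fun f hf => orb_irr K N₀ hnorm θ f ((hOmem f).1 hf)
  set F : K → ℂ := Tht K (θ : K → ℂ) N₀ with hFdef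
  have hexpK : ∀ y : K, y ^ m = 1 := by
    intro y
    apply Subtype.ext
    rw [Subgroup.coe_pow]
    exact hexp y (hKN y.2)
  obtain ⟨b, hb0⟩ := exists_mult O (fun f hf => (hOirr f hf).1) m hm0 hexpK ω hω
  have hb : ∀ (y : K) (k : ℕ),
      F ((y⁻¹) ^ k) = ∑ j ∈ Finset.range m, (b y j : ℂ) * (ω ^ j) ^ k := by
    intro y k
    rw [hF]
    exact hb0 y k
  have hFmem : ∀ y, F y ∈ Subring.closure ({ω} : Set ℂ) := by
    intro y
    have := hb y⁻¹ 1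
    rw [inv_inv, pow_one] at this
    rw [this]
    apply Subring.sum_mem
    intro j _
    apply Subring.mul_mem
    · exact natCast_mem _ _
    · apply Subring.pow_mem
      apply Subring.pow_mem
      exact Subring.subset_closure (Set.mem_singleton ω)
  have hconv : ∀ g : K, (nθ : ℂ) * ∑ y : K, F y⁻¹ * F (g⁻¹ * y) =
      (Nat.card K : ℂ) * F g⁻¹ := by
    intro g
    simp only [hF]
    exact (orbit_conv O (fun f hf => (hOirr f hf).1) nθ (fun f hf => (hOirr f hf).2)).1 g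
  -- the embedding of `K`
  set ιK : K →* Γ := ιN.comp (Subgroup.inclusion hKN) with hιK
  have hιKinj : Function.Injective ιK := hιN.comp (Subgroup.inclusion_injective hKN)
  have hιKz : ∀ y, ιK y * zT = zT * ιK y := fun y => hιz y
  have key' : ∀ t ∈ Finset.Ico 1 p,
      (nθ : ℂ) * ∑ y : K, (χT : Γ → ℂ) (zT ^ t * ιK y) * F y⁻¹ =
        (Nat.card K : ℂ) * (χT : Γ → ℂ) (zT ^ t) := key
  -- the operator `E`
  set E : ↥(latt c) →ₗ[ℤ] ↥(latt c) :=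
    (nθ : ℤ) • ∑ y : K, φ ⟨F y⁻¹, hFmem y⁻¹⟩ * lrep c (ιK y) with hEdef
  obtain ⟨hEσ, hEE, hEtr⟩ := E_props S c hc d hd (χT : Γ → ℂ) hS' p zT hz m hm0 ω hω wT hw hχw
    ιK hιKinj hιKz F b hb hFmem nθ key' hconv φ hφ E hEdef
  have hσ : lrep c zT ^ p = 1 := by rw [← map_pow, ← hz, pow_orderOf_eq_one, map_one]
  have hpK : ¬ p ∣ Nat.card K := fun h => hpN (h.trans (Subgroup.card_dvd_of_le hKN))
  have hκ : ¬ (p : ℤ) ∣ ((Nat.card K : ℕ) : ℤ) := by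
    intro h
    exact hpK (by exact_mod_cast h)
  have hωmem : ω ∈ Subring.closure ({ω} : Set ℂ) := Subring.subset_closure (Set.mem_singleton ω)
  have hφω : φ ⟨ω, hωmem⟩ = lrep c wT := phi_omega c ω wT φ hφ
  rcases lt_or_gt_of_ne hs0 with hneg | hpos'
  · -- `s < 0`: `QA` is trivial, `QB` is not
    obtain ⟨hsub, hnt⟩ := dichB (mul_neg_of_neg_of_pos hneg (by exact_mod_cast hr))
    obtain ⟨-, hIndB⟩ := herbrand_zero p (lrep c zT) hσ E hEσ _ hκ hEE hEtr (Or.inl hsub)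
    haveI : Finite (QB p (lrep c zT)) := finite_QB p (lrep c zT)
    obtain ⟨ρQ, hρQ⟩ := ind_rep_B p zT hz (lrep c) ιN hιnorm
    obtain ⟨φQ, hφQ⟩ := ind_hom_B p (lrep c zT) φ (fun a => (hφc a zT).eq)
    have hφρ : ∀ a h, φQ a ∘ₗ ρQ h = ρQ h ∘ₗ φQ a := by
      intro a h
      have h1 : IndB p (lrep c zT) (φ a * lrep c (ιN h)) (φQ a * ρQ h) := (hφQ a).mul (hρQ h)
      have h2 : IndB p (lrep c zT) (lrep c (ιN h) * φ a) (ρQ h * φQ a) := (hρQ h).mul (hφQ a)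
      rw [← (hφc a (ιN h)).eq] at h2
      exact IndB.unique h1 h2
    have hE' : ∀ v : QB p (lrep c zT), (nθ : ℤ) •
        (∑ y : K, φQ ⟨F y⁻¹, hFmem y⁻¹⟩ (ρQ ⟨(y : G), hKN y.2⟩ v)) =
          (Nat.card K : ℤ) • v := by
      intro v
      have h1 : IndB p (lrep c zT) E
          ((nθ : ℤ) • ∑ y : K, φQ ⟨F y⁻¹, hFmem y⁻¹⟩ * ρQ ⟨(y : G), hKN y.2⟩) := by
        rw [hEdef]
        exact (IndB.sum _ (fun y _ => (hφQ _).mul (hρQ _))).smul _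
      have h2 := IndB.unique h1 hIndB
      have h3 := LinearMap.congr_fun h2 v
      rw [LinearMap.smul_apply, LinearMap.sum_apply, LinearMap.smul_apply,
        Module.End.one_apply] at h3
      exact h3
    obtain ⟨π, hππ, hπρ, hπφ, hπcard⟩ := side_core_of hMOD p K N₀ hKN hpN hnorm hcyc m hm0 hpm hexp ω hω θ
      (fun v => p_smul_QB v) ρQ φQ hφρ hFmem hE'
    have hBN : ∀ n ∈ Subgroup.normalizer ((Subgroup.zpowers zT : Subgroup Γ) : Set Γ),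
        ∀ g : QB p (lrep c zT) →ₗ[ℤ] QB p (lrep c zT),
          IndB p (lrep c zT) (lrep c n) g → g ∘ₗ π = π ∘ₗ g := by
      intro n hn g hg
      obtain ⟨i, h, j, rfl⟩ := hdecomp n hn
      have h3 : IndB p (lrep c zT) (lrep c (zT ^ i * ιN h * wT ^ j))
          (1 ^ i * ρQ h * (φQ ⟨ω, hωmem⟩) ^ j) := by
        rw [map_mul, map_mul, map_pow, map_pow, ← hφω]
        exact (((indB_self p _).pow i).mul (hρQ h)).mul ((hφQ _).pow j)
      have h4 := IndB.unique hg h3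
      rw [one_pow, one_mul] at h4
      rw [h4]
      have c1 : Commute π (ρQ h) := hπρ h
      have c2 : Commute π (φQ ⟨ω, hωmem⟩) := hπφ _
      exact ((c1.mul_right (c2.pow_right j)).symm).eq
    exact final_B p zT hz hp2 (lrep c) (d * r) hdr (s * r) H1 H2 π hππ hBN r _ hr hπcard s rfl
  · -- `0 < s`: `QB` is trivial, `QA` is not
    obtain ⟨hsub, hnt⟩ := dichA (mul_pos hpos' (by exact_mod_cast hr))
    obtain ⟨hIndA, -⟩ := herbrand_zero p (lrep c zT) hσ E hEσ _ hκ hEE hEtr (Or.inr hsub)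
    haveI : Finite (QA p (lrep c zT)) := finite_QA p (lrep c zT)
    obtain ⟨ρQ, hρQ⟩ := ind_rep_A p zT hz (lrep c) ιN hιnorm
    obtain ⟨φQ, hφQ⟩ := ind_hom_A p (lrep c zT) φ (fun a => (hφc a zT).eq)
    have hφρ : ∀ a h, φQ a ∘ₗ ρQ h = ρQ h ∘ₗ φQ a := by
      intro a h
      have h1 : IndA p (lrep c zT) (φ a * lrep c (ιN h)) (φQ a * ρQ h) := (hφQ a).mul (hρQ h)
      have h2 : IndA p (lrep c zT) (lrep c (ιN h) * φ a) (ρQ h * φQ a) := (hρQ h).mul (hφQ a)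
      rw [← (hφc a (ιN h)).eq] at h2
      exact IndA.unique h1 h2
    have hE' : ∀ v : QA p (lrep c zT), (nθ : ℤ) •
        (∑ y : K, φQ ⟨F y⁻¹, hFmem y⁻¹⟩ (ρQ ⟨(y : G), hKN y.2⟩ v)) =
          (Nat.card K : ℤ) • v := by
      intro v
      have h1 : IndA p (lrep c zT) E
          ((nθ : ℤ) • ∑ y : K, φQ ⟨F y⁻¹, hFmem y⁻¹⟩ * ρQ ⟨(y : G), hKN y.2⟩) := by
        rw [hEdef]
        exact (IndA.sum _ (fun y _ => (hφQ _).mul (hρQ _))).smul _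
      have h2 := IndA.unique h1 hIndA
      have h3 := LinearMap.congr_fun h2 v
      rw [LinearMap.smul_apply, LinearMap.sum_apply, LinearMap.smul_apply,
        Module.End.one_apply] at h3
      exact h3
    obtain ⟨π, hππ, hπρ, hπφ, hπcard⟩ := side_core_of hMOD p K N₀ hKN hpN hnorm hcyc m hm0 hpm hexp ω hω θ
      (fun v => p_smul_QA v) ρQ φQ hφρ hFmem hE'
    have hAN : ∀ n ∈ Subgroup.normalizer ((Subgroup.zpowers zT : Subgroup Γ) : Set Γ),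
        ∀ g : QA p (lrep c zT) →ₗ[ℤ] QA p (lrep c zT),
          IndA p (lrep c zT) (lrep c n) g → g ∘ₗ π = π ∘ₗ g := by
      intro n hn g hg
      obtain ⟨i, h, j, rfl⟩ := hdecomp n hn
      have h3 : IndA p (lrep c zT) (lrep c (zT ^ i * ιN h * wT ^ j))
          (1 ^ i * ρQ h * (φQ ⟨ω, hωmem⟩) ^ j) := by
        rw [map_mul, map_mul, map_pow, map_pow, ← hφω]
        exact (((indA_self p _).pow i).mul (hρQ h)).mul ((hφQ _).pow j)
      have h4 := IndA.unique hg h3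
      rw [one_pow, one_mul] at h4
      rw [h4]
      have c1 : Commute π (ρQ h) := hπρ h
      have c2 : Commute π (φQ ⟨ω, hωmem⟩) := hπφ _
      exact ((c1.mul_right (c2.pow_right j)).symm).eq
    exact final_A p zT hz hp2 (lrep c) (d * r) hdr (s * r) H1 H2 π hππ hAN r _ hr hπcard s rfl

end Cfsg.Agent.Lib.Helper22.TG
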