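import Cfsg.Agent.Lib.Helper22.TG6

/-!
# General blocks of defect one: Thompson's divisibility for a general block of defect one
-/

set_option autoImplicit false

namespace Cfsg.Agent.Lib.Helper22.TG

open Cfsg Cfsg.Agent.Lib.Helper22.TA Cfsg.Agent.Lib.Helper22.TB Cfsg.Agent.Lib.Helper22.TAP
open Cfsg.Agent.Lib.Helper18.TG (cyc_hom)
open Cfsg.Agent.Lib.Helper74.TG (hall_normalizer)
open Cfsg.Agent.Lib.Helper29.TG (chiT_irr chiT_pow pow_val_eq)
open Cfsg.Agent.Lib.Helper2.TG (orbit_conv)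
open Cfsg.Agent.Lib.Helper33.TG (trace_E)
open Cfsg.Agent.Lib.Helper16.TG (ind_hom_A ind_hom_B ind_rep_A ind_rep_B)
open Cfsg.Agent.Lib.Helper48.TG (cj_irr cj_cj)
open Cfsg.Agent.Lib.Helper29.TG (latt_cyclotomic)
open Cfsg.Agent.Lib.Helper83.TG (orth_res)
open Cfsg.Agent.Lib.Helper92.TG (dvd_rank_refined)
open Cfsg.Agent.Lib.Helper22.TH (trace_cast)
open Cfsg.Agent.Lib.Helper80 (galConj galConj_apply)
open scoped ComplexConjugate

theorem card_prod_zmod {G : Type*} [Group G] (m : ℕ) [NeZero m] :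
    Nat.card (G × Multiplicative (ZMod m)) = Nat.card G * m := by
  rw [Nat.card_prod]
  congr 1
  exact Nat.card_zmod m

universe u

/-- **Thompson's theorem for a general block of defect one** (lattice side), given the
modular piece `ModStmt`. -/
theorem thompson_gen_of (hMOD : ModStmt.{u, u}) {G : Type u} [Group G] [Fintype G] (p : ℕ)
    [Fact p.Prime]
    (M : Ideal AlgInt) (hM : IsPModular p M)
    (z : G) (hz : orderOf z = p) (hp2 : ¬ p ^ 2 ∣ Nat.card G)
    (K : Subgroup G) (hK : ∀ y : G, y ∈ K ↔ (y * z = z * y ∧ ¬ p ∣ orderOf y))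
    (θ : IrrCharacter K) (χ : IrrCharacter G)
    (hsmt : ∀ t ∈ Finset.Ico 1 p, ∃ a : G → ℂ,
      (∀ n, n ∉ Subgroup.normalizer ((Subgroup.zpowers z : Subgroup G) : Set G) → a n = 0) ∧
      ∀ y : K, (χ : G → ℂ) (z ^ t * (y : G)) = ∑ n : G, a n * cj K (θ : K → ℂ) n y)
    (s : ℤ) (hs : (s : ℂ) = ∑ t ∈ Finset.Ico 1 p, (χ : G → ℂ) (z ^ t)) (hs0 : s ≠ 0) :
    s ∣ ((p : ℤ) - 1) *
      ((Nat.card (orb K (θ : K → ℂ)
        (Subgroup.normalizer ((Subgroup.zpowers z : Subgroup G) : Set G))) *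
          charDegree (θ : K → ℂ) : ℕ) : ℤ) := by
  classical
  have hp := (Fact.out : p.Prime)
  obtain ⟨m, hm⟩ : p ∣ Nat.card G := hz ▸ orderOf_dvd_natCard z
  have hpm : ¬ p ∣ m := fun h => hp2 (by rw [hm, sq]; exact mul_dvd_mul_left p h)
  have hm0 : 0 < m := by
    rcases Nat.eq_zero_or_pos m with h | h
    · rw [h, mul_zero] at hm
      exact absurd hm Nat.card_pos.ne'
    · exact h
  haveI : NeZero m := ⟨hm0.ne'⟩
  obtain ⟨ω, hω⟩ : ∃ ω : ℂ, IsPrimitiveRoot ω m := ⟨_, Complex.isPrimitiveRoot_exp m hm0.ne'⟩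
  have hω1 : ω ^ m = 1 := hω.pow_eq_one
  haveI : Fintype ↥K := Fintype.ofFinite _
  -- the group theory
  obtain ⟨N₀, hN₀N, hKN, hpN, hprod, hcyc, hnormN⟩ := hall_normalizer p z hz hp2 K hK
  haveI : Fintype ↥N₀ := Fintype.ofFinite _
  have hzK : ∀ y ∈ K, y * z = z * y := fun y hy => ((hK y).1 hy).1
  have horb := orb_eq K (Subgroup.normalizer ((Subgroup.zpowers z : Subgroup G) : Set G)) N₀ z
    hzK hN₀N hprod hnormN (θ : K → ℂ)
  have hnorm : ∀ h ∈ N₀, ∀ y ∈ K, h * y * h⁻¹ ∈ K := fun h hh => hnormN h (hN₀N hh)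
  have hexp : ∀ h ∈ N₀, h ^ m = 1 := by
    intro h hh
    have h1 : orderOf h ∣ Nat.card N₀ := Subgroup.orderOf_dvd_natCard N₀ hh
    have h2 : orderOf h ∣ m * p := by
      rw [mul_comm, ← hm]
      exact orderOf_dvd_natCard h
    have h3 : Nat.Coprime (orderOf h) p :=
      (Nat.Coprime.symm ((Nat.Prime.coprime_iff_not_dvd hp).2 (fun hh' => hpN (hh'.trans h1))))
    exact orderOf_dvd_iff_pow_eq_one.1 (h3.dvd_of_dvd_mul_right h2)
  -- the group `Γ = G × C_m`
  have hzT : orderOf ((z, 1) : G × Multiplicative (ZMod m)) = p := by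
    rw [Prod.orderOf_mk, orderOf_one, Nat.lcm_one_right, hz]
  have hp2T : ¬ p ^ 2 ∣ Nat.card (G × Multiplicative (ZMod m)) := by
    intro h
    rw [card_prod_zmod, hm, sq, mul_assoc] at h
    have := Nat.dvd_of_mul_dvd_mul_left hp.pos h
    exact hpm (((Nat.Prime.dvd_mul hp).1 this).elim id id)
  have hmΓ : m ∣ Nat.card (G × Multiplicative (ZMod m)) := by
    rw [card_prod_zmod]
    exact dvd_mul_left m _
  have hw : ∀ g : G × Multiplicative (ZMod m),
      ((1 : G), Multiplicative.ofAdd (1 : ZMod m)) * g =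
        g * ((1 : G), Multiplicative.ofAdd (1 : ZMod m)) := by
    intro g
    ext
    · simp
    · simp [mul_comm]
  set ιN : ↥N₀ →* G × Multiplicative (ZMod m) :=
    (MonoidHom.inl G (Multiplicative (ZMod m))).comp N₀.subtype with hιNdef
  have hιNapp : ∀ h : ↥N₀, ιN h = ((h : G), 1) := fun h => rfl
  have hιN : Function.Injective ιN := by
    intro a b hab
    rw [hιNapp, hιNapp] at hab
    exact Subtype.ext (congrArg Prod.fst hab)
  have hιz : ∀ y : K, ιN ⟨(y : G), hKN y.2⟩ * ((z, 1) : G × Multiplicative (ZMod m)) =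
      ((z, 1) : G × Multiplicative (ZMod m)) * ιN ⟨(y : G), hKN y.2⟩ := by
    intro y
    rw [hιNapp]
    ext
    · exact hzK y y.2
    · simp
  have hιnorm : ∀ h, ιN h ∈ Subgroup.normalizer
      ((Subgroup.zpowers ((z, 1) : G × Multiplicative (ZMod m)) : Subgroup _) : Set _) := by
    intro h
    rw [hιNapp]
    exact normalizer_prod_mk m z h (hN₀N h.2)
  have hdecomp : ∀ n ∈ Subgroup.normalizer
      ((Subgroup.zpowers ((z, 1) : G × Multiplicative (ZMod m)) : Subgroup _) : Set _),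
      ∃ (i : ℕ) (h : ↥N₀) (j : ℕ), n = ((z, 1) : G × Multiplicative (ZMod m)) ^ i * ιN h *
        ((1 : G), Multiplicative.ofAdd (1 : ZMod m)) ^ j := by
    intro n hn
    obtain ⟨i, n₀, hn₀, hi⟩ := hprod n.1 (normalizer_prod_fst m z n hn)
    refine ⟨i, ⟨n₀, hn₀⟩, (Multiplicative.toAdd n.2).val, ?_⟩
    rw [hιNapp]
    ext
    · simp [hi]
    · simp only [Prod.snd_mul, Prod.pow_snd, one_pow, one_mul]
      exact snd_eq_pow m n.2
  have key : ∀ t ∈ Finset.Ico 1 p,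
      (charDegree (θ : K → ℂ) : ℂ) *
        ∑ y : K, chiT m ω (χ : G → ℂ)
          (((z, 1) : G × Multiplicative (ZMod m)) ^ t * ιN ⟨(y : G), hKN y.2⟩) *
          Tht K (θ : K → ℂ) N₀ y⁻¹ =
        (Nat.card K : ℂ) * chiT m ω (χ : G → ℂ) (((z, 1) : G × Multiplicative (ZMod m)) ^ t) := by
    intro t ht
    obtain ⟨a, ha0, hay⟩ := hsmt t ht
    have e1 : ∀ y : K, chiT m ω (χ : G → ℂ)
        (((z, 1) : G × Multiplicative (ZMod m)) ^ t * ιN ⟨(y : G), hKN y.2⟩) =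
        (χ : G → ℂ) (z ^ t * (y : G)) := by
      intro y
      have : ((z, 1) : G × Multiplicative (ZMod m)) ^ t * ιN ⟨(y : G), hKN y.2⟩ =
          (z ^ t * (y : G), 1) := by
        rw [hιNapp]
        ext <;> simp
      rw [this, chiT_mk_one]
    have e2 : chiT m ω (χ : G → ℂ) (((z, 1) : G × Multiplicative (ZMod m)) ^ t) =
        (χ : G → ℂ) (z ^ t * ((1 : K) : G)) := by
      have h2 : ((z, 1) : G × Multiplicative (ZMod m)) ^ t = (z ^ t, 1) := by ext <;> simp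
      rw [h2, chiT_mk_one, Subgroup.coe_one, mul_one]
    simp only [e1]
    rw [e2]
    exact key_of_smt K N₀ _ hnorm θ horb a ha0 (fun y => (χ : G → ℂ) (z ^ t * (y : G))) hay
  have hsT : (s : ℂ) = ∑ t ∈ Finset.Ico 1 p,
      chiT m ω (χ : G → ℂ) (((z, 1) : G × Multiplicative (ZMod m)) ^ t) := by
    rw [hs]
    apply Finset.sum_congr rfl
    intro t _
    have h2 : ((z, 1) : G × Multiplicative (ZMod m)) ^ t = (z ^ t, 1) := by ext <;> simp
    rw [h2, chiT_mk_one]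
  have main := thompson_lattice hMOD p M hM ((z, 1) : G × Multiplicative (ZMod m)) hzT hp2T
    ⟨chiT m ω (χ : G → ℂ), chiT_irr m ω hω1 χ⟩ m hm0 hpm hmΓ ω hω
    ((1 : G), Multiplicative.ofAdd (1 : ZMod m)) hw
    (fun g j => chiT_mul_w m ω hω1 (χ : G → ℂ) g j)
    K N₀ hKN hpN hnorm hcyc hexp ιN hιN hιz hιnorm hdecomp θ key s hsT hs0
  rw [horb] at main
  exact main

end Cfsg.Agent.Lib.Helper22.TG
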