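import Cfsg.Agent.Lib.Helper22.DOne2
import Cfsg.Agent.Lib.Helper22.TG8

/-!
# General blocks of defect one: the structure theorem from the Fourier package and Thompson's
divisibility
-/

set_option autoImplicit false

namespace Cfsg.Agent.Lib.Helper22.TG

open Cfsg Cfsg.Agent.Lib.Helper22.TAP
open Cfsg.Agent.Lib.Helper22.DOne (sum_split)
open scoped ComplexConjugate

section

variable {G : Type*} [Group G] [Fintype G] [Fintype (IrrCharacter G)]

theorem core_gen (p : ℕ) [Fact p.Prime] (M : Ideal Cfsg.AlgInt) (hM : Cfsg.IsPModular p M)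
    (z : G) (hzo : orderOf z = p) (B : Set (IrrCharacter G))
    (D₀ : ℕ) (hD₀ : 0 < D₀)
    (hdiv : ∀ χ ∈ B, ∀ s : ℤ, (s : ℂ) = ∑ t ∈ Finset.Ico 1 p, (χ : G → ℂ) (z ^ t) → s ≠ 0 →
      s ∣ ((p : ℤ) - 1) * (D₀ : ℤ))
    (m e : ℕ) (Θ : Fin m → IrrCharacter G → ℤ) (hm : 1 ≤ m) (he : 1 ≤ e) (hpem : p = 1 + e * m)
    (hsupp : ∀ i χ, χ ∉ B → Θ i χ = 0)
    (hgram : ∀ i j, ∑ χ, Θ i χ * Θ j χ = (if i = j then 1 else 0) + (e : ℤ))
    (hne : ∀ χ ∈ B, ∃ i, Θ i χ ≠ 0)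
    (hreg : ∀ g : G, ¬ p ∣ orderOf g → ∀ i, ∑ χ, (Θ i χ : ℂ) * (χ : G → ℂ) g = 0)
    (hN2 : ∀ χ ∈ B, ∑ t ∈ Finset.Ico 1 p, (χ : G → ℂ) (z ^ t) =
      -(((D₀ * e : ℕ) : ℂ) * ∑ i, (Θ i χ : ℂ))) :
    ∃ X Y : Set (IrrCharacter G), B = X ∪ Y ∧ Disjoint X Y ∧ Nat.card X = e ∧
      Nat.card Y = (p - 1) / e ∧
      (∀ χ ∈ X, (charDegree (χ : G → ℂ) : ℤ) ≡ (D₀ : ℤ) [ZMOD p] ∨
        (charDegree (χ : G → ℂ) : ℤ) ≡ -(D₀ : ℤ) [ZMOD p]) ∧
      (∃ ε : ℤ, (ε = 1 ∨ ε = -1) ∧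
        ∀ ψ ∈ Y, (charDegree (ψ : G → ℂ) : ℤ) ≡ ε * ((D₀ * e : ℕ) : ℤ) [ZMOD p]) ∧
      ∀ ψ ∈ Y, ∀ ψ' ∈ Y, ∀ g : G, ¬ p ∣ orderOf g → (ψ : G → ℂ) g = (ψ' : G → ℂ) g := by
  classical
  have hp := (Fact.out : p.Prime)
  have hzp : z ^ p = 1 := by rw [← hzo]; exact pow_orderOf_eq_one z
  obtain ⟨Δ, a, ε, hε, hΘ, hainj, haB, hnz⟩ := Cfsg.Agent.Lib.BF.lat_structure
    B m (e : ℤ) hm (by positivity) Θ hsupp hgram
  let i0 : Fin m := ⟨0, hm⟩
  have hεsq : ∀ i, ε i * ε i = 1 := by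
    intro i
    rcases hε i with h | h <;> rw [h] <;> norm_num
  have hΔ0 : ∀ θ, θ ∉ B → Δ θ = 0 := by
    intro θ hθ
    have h1 := hΘ i0 θ
    rw [hsupp i0 θ hθ, if_neg (fun h : θ = a i0 => hθ (by rw [h]; exact haB i0))] at h1
    linarith
  have hp1 : (1 : ℤ) < p := by exact_mod_cast hp.one_lt
  have hpm : (p : ℤ) - 1 = (e : ℤ) * m := by
    rw [hpem]; push_cast; ring
  have he0 : (e : ℤ) ≠ 0 := by
    have : e ≠ 0 := by omega
    exact_mod_cast this
  have hm0 : (m : ℤ) ≠ 0 := by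
    have : m ≠ 0 := by omega
    exact_mod_cast this
  have hD0 : (D₀ : ℤ) ≠ 0 := by exact_mod_cast hD₀.ne'
  -- the sums of the `Θ i`
  have hsumX : ∀ θ, θ ∉ Set.range a → ∑ j, Θ j θ = (m : ℤ) * Δ θ := by
    intro θ hθa
    have hΘθ : ∀ i, Θ i θ = Δ θ := by
      intro i
      rw [hΘ i θ, if_neg (fun h => hθa ⟨i, h.symm⟩), add_zero]
    rw [Finset.sum_congr rfl (fun j _ => hΘθ j), Finset.sum_const, Finset.card_univ,
      Fintype.card_fin, nsmul_eq_mul]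
  have hsumΘ : ∀ i, ∑ j, Θ j (a i) = ε i * ((m : ℤ) * (ε i * Δ (a i)) + 1) := by
    intro i
    have h1 : ∀ j, Θ j (a i) = Δ (a i) + if j = i then ε j else 0 := by
      intro j
      rw [hΘ j (a i)]
      congr 1
      by_cases hji : j = i
      · rw [if_pos hji, if_pos (by rw [hji])]
      · rw [if_neg hji, if_neg (fun h => hji (hainj h).symm)]
    rw [Finset.sum_congr rfl (fun j _ => h1 j), Finset.sum_add_distrib, Finset.sum_const,
      Finset.card_univ, Fintype.card_fin, Finset.sum_ite_eq' Finset.univ i ε,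
      if_pos (Finset.mem_univ _), nsmul_eq_mul]
    have := hεsq i
    linear_combination (-(m : ℤ) * Δ (a i)) * this
  -- the integer `s` of a character of the block
  have hsint : ∀ χ ∈ B, ((-(((D₀ * e : ℕ) : ℤ) * ∑ i, Θ i χ) : ℤ) : ℂ) =
      ∑ t ∈ Finset.Ico 1 p, (χ : G → ℂ) (z ^ t) := by
    intro χ hχ
    rw [hN2 χ hχ]
    push_cast
    ring
  -- (F2) the non-exceptional characters
  have hX : ∀ θ ∈ B, θ ∉ Set.range a → (Δ θ = 1 ∨ Δ θ = -1) := by
    intro θ hθ hθa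
    have hΔne : Δ θ ≠ 0 := by
      obtain ⟨i, hi⟩ := hne θ hθ
      rwa [hΘ i θ, if_neg (fun h => hθa ⟨i, h.symm⟩), add_zero] at hi
    have hs := hsint θ hθ
    rw [hsumX θ hθa] at hs
    have hdvd := hdiv θ hθ _ hs (by
      apply neg_ne_zero.2
      apply mul_ne_zero _ (mul_ne_zero hm0 hΔne)
      push_cast
      exact mul_ne_zero hD0 he0)
    obtain ⟨q, hq⟩ := hdvd
    rw [hpm] at hq
    push_cast at hq
    have h2 : (-Δ θ) * q = 1 := by
      have : ((D₀ : ℤ) * (e : ℤ) * (m : ℤ)) * ((-Δ θ) * q) = ((D₀ : ℤ) * (e : ℤ) * (m : ℤ)) * 1 := by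
        linear_combination -hq
      exact mul_left_cancel₀ (mul_ne_zero (mul_ne_zero hD0 he0) hm0) this
    have h3 : IsUnit (Δ θ) := IsUnit.of_mul_eq_one (-q) (by linarith)
    exact Int.isUnit_iff.1 h3
  -- (F3) the exceptional characters
  have hY : ∀ i, (m : ℤ) * (ε i * Δ (a i)) + 1 = 1 ∨ (m : ℤ) * (ε i * Δ (a i)) + 1 = -1 := by
    intro i
    set n := (m : ℤ) * (ε i * Δ (a i)) + 1 with hn
    have hs := hsint (a i) (haB i)
    rw [hsumΘ i] at hs
    have hεne : ε i ≠ 0 := by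
      rcases hε i with h | h <;> rw [h] <;> norm_num
    have hdvd := hdiv (a i) (haB i) _ hs (by
      apply neg_ne_zero.2
      apply mul_ne_zero _ (mul_ne_zero hεne (hnz i))
      push_cast
      exact mul_ne_zero hD0 he0)
    obtain ⟨q, hq⟩ := hdvd
    rw [hpm] at hq
    push_cast at hq
    have h2 : (m : ℤ) = n * (-(ε i * q)) := by
      have : ((D₀ : ℤ) * (e : ℤ)) * (m : ℤ) = ((D₀ : ℤ) * (e : ℤ)) * (n * (-(ε i * q))) := by
        linear_combination hq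
      exact mul_left_cancel₀ (mul_ne_zero hD0 he0) this
    have h3 : IsUnit n := by
      apply IsUnit.of_mul_eq_one (1 - (-(ε i * q)) * (ε i * Δ (a i)))
      have : n = (m : ℤ) * (ε i * Δ (a i)) + 1 := hn
      linear_combination (ε i * Δ (a i)) * h2 + this
    exact Int.isUnit_iff.1 h3
  -- (F4) the diagonal Gram relations
  set Q : ℤ := ∑ θ, Δ θ ^ 2 with hQ
  have hdiag : ∀ i, Q + 2 * (ε i * Δ (a i)) = e := by
    intro i
    have h1 := hgram i i
    rw [if_pos rfl] at h1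
    have h2 : ∀ θ, Θ i θ * Θ i θ =
        Δ θ ^ 2 + (if θ = a i then 2 * ε i * Δ θ + ε i * ε i else 0) := by
      intro θ
      rw [hΘ i θ]
      split_ifs <;> ring
    rw [Finset.sum_congr rfl (fun θ _ => h2 θ), Finset.sum_add_distrib,
      Finset.sum_ite_eq' Finset.univ (a i) (fun θ => 2 * ε i * Δ θ + ε i * ε i),
      if_pos (Finset.mem_univ _), hεsq i] at h1
    linarith
  set x : ℤ := ε i0 * Δ (a i0) with hx
  have hxi : ∀ i, ε i * Δ (a i) = x := by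
    intro i
    have h1 := hdiag i
    have h2 := hdiag i0
    linarith
  have hn : (m : ℤ) * x + 1 = 1 ∨ (m : ℤ) * x + 1 = -1 := hY i0
  have hnsq : ((m : ℤ) * x + 1) * ((m : ℤ) * x + 1) = 1 := by
    rcases hn with h | h <;> rw [h] <;> norm_num
  -- the two sets
  set X : Set (IrrCharacter G) := {θ | θ ∈ B ∧ θ ∉ Set.range a} with hXdef
  set Xf : Finset (IrrCharacter G) :=
    Finset.univ.filter (fun θ => θ ∈ B ∧ θ ∉ Set.range a) with hXf
  have hXfmem : ∀ θ, θ ∈ Xf ↔ θ ∈ B ∧ θ ∉ Set.range a := by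
    intro θ
    rw [hXf, Finset.mem_filter]
    exact ⟨fun h => h.2, fun h => ⟨Finset.mem_univ _, h⟩⟩
  -- (F5), (F6) the number of non-exceptional characters
  have hQsplit : Q = (m : ℤ) * x ^ 2 + (Xf.card : ℤ) := by
    rw [hQ, sum_split a hainj B (fun θ => Δ θ ^ 2) (fun θ hθ => by rw [hΔ0 θ hθ]; ring)]
    congr 1
    · have h1 : ∀ i ∈ (Finset.univ : Finset (Fin m)), Δ (a i) ^ 2 = x ^ 2 := by
        intro i _
        rw [← hxi i]
        have := hεsq i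
        linear_combination (-(Δ (a i)) ^ 2) * this
      rw [Finset.sum_congr rfl h1, Finset.sum_const, Finset.card_univ, Fintype.card_fin,
        nsmul_eq_mul]
    · have h1 : ∀ θ ∈ Xf, Δ θ ^ 2 = 1 := by
        intro θ hθ
        rw [hXfmem] at hθ
        rcases hX θ hθ.1 hθ.2 with h | h <;> rw [h] <;> norm_num
      rw [Finset.sum_congr rfl h1, Finset.sum_const, nsmul_eq_mul, mul_one]
  have hcardX : Xf.card = e := by
    have h1 := hdiag i0
    rw [← hx] at h1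
    have h2 : (m : ℤ) * (Xf.card : ℤ) = (m : ℤ) * (e : ℤ) := by
      linear_combination (m : ℤ) * h1 - (m : ℤ) * hQsplit - hnsq
    exact_mod_cast mul_left_cancel₀ hm0 h2
  -- (F7) the relations on p-regular elements
  have hR : ∀ g : G, ¬ p ∣ orderOf g → ∀ i,
      (∑ θ, (Δ θ : ℂ) * (θ : G → ℂ) g) + (ε i : ℂ) * ((a i : IrrCharacter G) : G → ℂ) g = 0 := by
    intro g hg i
    have h1 := hreg g hg i
    have h2 : ∀ θ : IrrCharacter G, (Θ i θ : ℂ) * (θ : G → ℂ) g = (Δ θ : ℂ) * (θ : G → ℂ) g +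
        (if θ = a i then (ε i : ℂ) * (θ : G → ℂ) g else 0) := by
      intro θ
      rw [hΘ i θ]
      split_ifs <;> push_cast <;> ring
    rw [Finset.sum_congr rfl (fun θ _ => h2 θ), Finset.sum_add_distrib,
      Finset.sum_ite_eq' Finset.univ (a i) (fun θ => (ε i : ℂ) * (θ : G → ℂ) g),
      if_pos (Finset.mem_univ _)] at h1
    exact h1
  have hreg1 : ¬ p ∣ orderOf (1 : G) := by
    rw [orderOf_one]
    intro h
    exact hp.one_lt.ne' (Nat.dvd_one.1 h)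
  have hdeg : ∀ θ : IrrCharacter G, (θ : G → ℂ) 1 = ((charDegree (θ : G → ℂ) : ℤ) : ℂ) ∧
      (0 : ℤ) < (charDegree (θ : G → ℂ) : ℤ) := by
    intro θ
    obtain ⟨h1, h2⟩ := Cfsg.Agent.Lib.Helper82.irr_charDegree θ
    refine ⟨by rw [← h1]; push_cast; rfl, ?_⟩
    exact_mod_cast Nat.pos_of_ne_zero h2
  have hεeq : ∀ i, ε i = ε i0 := by
    intro i
    have h1 := hR 1 hreg1 i
    have h2 := hR 1 hreg1 i0
    rw [(hdeg (a i)).1] at h1
    rw [(hdeg (a i0)).1] at h2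
    have h3 : ((ε i * (charDegree ((a i : IrrCharacter G) : G → ℂ) : ℤ) : ℤ) : ℂ) =
        ((ε i0 * (charDegree ((a i0 : IrrCharacter G) : G → ℂ) : ℤ) : ℤ) : ℂ) := by
      push_cast
      linear_combination h1 - h2
    have h4 := Int.cast_injective h3
    have h5 := (hdeg (a i)).2
    have h6 := (hdeg (a i0)).2
    rcases hε i with hi | hi <;> rcases hε i0 with hj | hj <;> rw [hi, hj] at h4 ⊢ <;>
      first | rfl | (exfalso; linarith)
  have hε0ne : (ε i0 : ℂ) ≠ 0 := by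
    rcases hε i0 with h | h <;> rw [h] <;> norm_num
  have hagree : ∀ i j, ∀ g : G, ¬ p ∣ orderOf g →
      ((a i : IrrCharacter G) : G → ℂ) g = ((a j : IrrCharacter G) : G → ℂ) g := by
    intro i j g hg
    have h1 := hR g hg i
    have h2 := hR g hg j
    rw [hεeq i] at h1
    rw [hεeq j] at h2
    apply mul_left_cancel₀ hε0ne
    linear_combination h1 - h2
  -- (F8) degrees
  have hdegB : ∀ χ ∈ B, (charDegree (χ : G → ℂ) : ℤ) ≡
      ((D₀ * e : ℕ) : ℤ) * ∑ i, Θ i χ [ZMOD p] := by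
    intro χ hχ
    haveI := Cfsg.Agent.Lib.Helper22.isPrime_of_isPModular hM
    have h1 : ∀ t ∈ Finset.Ico 1 p,
        MemLocalIdeal M ((χ : G → ℂ) (z ^ t) - (χ : G → ℂ) 1) := by
      intro t _
      have := Cfsg.Agent.Lib.Helper22.char_ppart_mul_congr hM χ (z ^ t) 1
        (Commute.one_right _) 1
        (by rw [pow_one, ← pow_mul, mul_comm, pow_mul, hzp, one_pow]) hreg1
      rwa [mul_one] at this
    have h2 := Cfsg.Agent.Lib.Helper22.memLocalIdeal_sum (M := M) (Finset.Ico 1 p) _ h1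
    rw [Finset.sum_sub_distrib, ← hsint χ hχ, Finset.sum_const, Nat.card_Ico, (hdeg χ).1,
      nsmul_eq_mul, Nat.cast_sub hp.one_le] at h2
    have h3 : MemLocalIdeal M (((-(((D₀ * e : ℕ) : ℤ) * ∑ i, Θ i χ) -
        ((p : ℤ) - 1) * (charDegree (χ : G → ℂ) : ℤ) : ℤ)) : ℂ) := by
      push_cast
      push_cast at h2
      exact h2
    have h4 := (Cfsg.Agent.Lib.Helper22.memLocalIdeal_intCast_iff hM _).1 h3
    rw [Int.modEq_iff_dvd]
    obtain ⟨k, hk⟩ := h4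
    exact ⟨-k - (charDegree (χ : G → ℂ) : ℤ), by linear_combination -hk⟩
  -- packaging
  have hcardX' : Nat.card X = e := by
    rw [← hcardX, Nat.card_eq_fintype_card, Fintype.card_subtype]
    apply congrArg
    ext θ
    rw [Finset.mem_filter, hXfmem]
    simp only [hXdef, Set.mem_setOf_eq, Finset.mem_univ, true_and]
  refine ⟨X, Set.range a, ?_, ?_, hcardX', ?_, ?_, ⟨ε i0 * ((m : ℤ) * x + 1), ?_, ?_⟩, ?_⟩
  · ext θ
    simp only [hXdef, Set.mem_union, Set.mem_setOf_eq]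
    constructor
    · intro h
      by_cases hθ : θ ∈ Set.range a
      · exact Or.inr hθ
      · exact Or.inl ⟨h, hθ⟩
    · rintro (h | ⟨i, rfl⟩)
      · exact h.1
      · exact haB i
  · rw [Set.disjoint_left]
    intro θ h1 h2
    exact h1.2 h2
  · rw [Nat.card_congr (Equiv.ofInjective a hainj).symm, Nat.card_fin, hpem,
      Nat.add_sub_cancel_left, Nat.mul_div_cancel_left m (by omega : 0 < e)]
  · intro χ hχ
    obtain ⟨hχB, hχa⟩ := hχ
    have h1 := hdegB χ hχB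
    rw [hsumX χ hχa] at h1
    have h2 : ((D₀ * e : ℕ) : ℤ) * ((m : ℤ) * Δ χ) ≡ -(D₀ : ℤ) * Δ χ [ZMOD p] := by
      rw [Int.modEq_iff_dvd]
      refine ⟨-(D₀ : ℤ) * Δ χ, ?_⟩
      push_cast
      linear_combination ((D₀ : ℤ) * Δ χ) * hpm
    have h3 := h1.trans h2
    rcases hX χ hχB hχa with h | h
    · right
      rw [h] at h3
      simpa using h3
    · left
      rw [h] at h3
      simpa using h3
  · rcases hε i0 with h | h <;> rcases hn with h' | h' <;> rw [h, h'] <;> norm_num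
  · rintro θ ⟨k, rfl⟩
    have h1 := hdegB (a k) (haB k)
    rw [hsumΘ k, hxi k, hεeq k] at h1
    rw [mul_comm] at h1
    exact h1
  · rintro θ ⟨i, rfl⟩ θ' ⟨j, rfl⟩ g hg
    exact hagree i j g hg

end

end Cfsg.Agent.Lib.Helper22.TG
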