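import Cfsg.Agent.Lib.Helper22.W2Defs

/-!
# S4707 project (helper22, "W2"): piece CORE (pure combinatorics)
-/

set_option autoImplicit false

namespace Cfsg.Agent.Lib.Helper22.W2

open Cfsg
open scoped ComplexConjugate

/-- integer version of CORE -/
theorem core_int {ι : Type*} [Fintype ι] [DecidableEq ι] (p : ℕ) [Fact p.Prime] (hp : 5 < p)
    (A : ι → ZMod p → ℤ) (C D : ι → ℤ) (i₀ i₁ i₂ : ι) (h01 : i₁ ≠ i₀) (h02 : i₂ ≠ i₀)
    (h12 : i₁ ≠ i₂)
    (hC : ∀ i, 0 ≤ C i) (hD : ∀ i, 0 < D i)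
    (hsym : ∀ i v, A i (-v) = A i v)
    (hgram : ∀ v v' : ZMod p, v ≠ 0 → v' ≠ 0 →
      ∑ i, A i v * A i v' = (if v = v' then 1 else 0) + (if v = -v' then 1 else 0) + 2)
    (hdeg0 : ∀ v : ZMod p, v ≠ 0 → ∑ i, D i * A i v = 0)
    (hdeg : ∀ i, D i = (p : ℤ) * C i + ∑ v : ZMod p, (if v = 0 then 0 else A i v))
    (h0a : ∀ v : ZMod p, v ≠ 0 → A i₀ v = -1) (h0d : D i₀ = 1)
    (h12a : ∀ v : ZMod p, v ≠ 0 → A i₁ v + A i₂ v = 1) (h12c : C i₁ + C i₂ = 1) :
    ∃ j : ι, D j = (p : ℤ) - 2 ∧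
      ∀ v : ZMod p, v ≠ 0 → A j v = if v = 1 ∨ v = -1 then -1 else 0 := by
  classical
  have hpp : p.Prime := Fact.out
  obtain ⟨R, hR⟩ : ∃ R : Finset ι, R = ((Finset.univ.erase i₀).erase i₁).erase i₂ := ⟨_, rfl⟩
  have hsplit : ∀ f : ι → ℤ, ∑ i, f i = f i₀ + f i₁ + f i₂ + ∑ i ∈ R, f i := by
    intro f
    have m0 : i₀ ∈ (Finset.univ : Finset ι) := Finset.mem_univ _
    have m1 : i₁ ∈ (Finset.univ : Finset ι).erase i₀ :=
      Finset.mem_erase.mpr ⟨h01, Finset.mem_univ _⟩
    have m2 : i₂ ∈ ((Finset.univ : Finset ι).erase i₀).erase i₁ :=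
      Finset.mem_erase.mpr ⟨fun h => h12 h.symm, Finset.mem_erase.mpr ⟨h02, Finset.mem_univ _⟩⟩
    rw [hR, ← Finset.add_sum_erase _ f m0, ← Finset.add_sum_erase _ f m1,
      ← Finset.add_sum_erase _ f m2]
    ring
  have hne_neg : ∀ v : ZMod p, v ≠ 0 → v ≠ -v := by
    intro v hv h
    have h2 : (2 : ZMod p) * v = 0 := by linear_combination h
    rcases mul_eq_zero.mp h2 with h3 | h3
    · have h4 : ((2 : ℕ) : ZMod p) = 0 := by exact_mod_cast h3
      rw [ZMod.natCast_eq_zero_iff] at h4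
      have := Nat.le_of_dvd (by norm_num) h4
      omega
    · exact hv h3
  -- the rest Gram form
  obtain ⟨r, hr⟩ : ∃ r : ZMod p → ZMod p → ℤ, ∀ v v', r v v' = ∑ i ∈ R, A i v * A i v' :=
    ⟨_, fun _ _ => rfl⟩
  have hrnn : ∀ v, 0 ≤ r v v := by
    intro v
    rw [hr]
    exact Finset.sum_nonneg (fun i _ => mul_self_nonneg _)
  have hG : ∀ v v' : ZMod p, v ≠ 0 → v' ≠ 0 →
      1 + A i₁ v * A i₁ v' + (1 - A i₁ v) * (1 - A i₁ v') + r v v' =
        (if v = v' then 1 else 0) + (if v = -v' then 1 else 0) + 2 := by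
    intro v v' hv hv'
    have h := hgram v v' hv hv'
    rw [hsplit, h0a v hv, h0a v' hv', ← hr] at h
    have e1 : A i₂ v = 1 - A i₁ v := by linarith [h12a v hv]
    have e2 : A i₂ v' = 1 - A i₁ v' := by linarith [h12a v' hv']
    rw [e1, e2] at h
    linarith
  -- F1
  have hF1 : ∀ v : ZMod p, v ≠ 0 → (A i₁ v = 0 ∨ A i₁ v = 1) ∧ r v v = 1 := by
    intro v hv
    have h := hG v v hv hv
    rw [if_pos rfl, if_neg (hne_neg v hv)] at h
    have h1 := hrnn v
    have hx0 : 0 ≤ A i₁ v := by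
      by_contra hcon
      push_neg at hcon
      nlinarith [mul_pos (neg_pos.mpr hcon) (by linarith : (0:ℤ) < 1 - A i₁ v)]
    have hx1 : A i₁ v ≤ 1 := by
      by_contra hcon
      push_neg at hcon
      nlinarith [mul_pos (by linarith : (0:ℤ) < A i₁ v) (by linarith : (0:ℤ) < A i₁ v - 1)]
    have hx : A i₁ v = 0 ∨ A i₁ v = 1 := by omega
    refine ⟨hx, ?_⟩
    rcases hx with hx | hx <;> rw [hx] at h <;> linarith
  -- F3
  have hF3 : ∀ v v' : ZMod p, v ≠ 0 → v' ≠ 0 → A i₁ v ≠ A i₁ v' →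
      ∀ i ∈ R, A i v = A i v' := by
    intro v v' hv hv' hne
    have hvv : v ≠ v' := fun h => hne (by rw [h])
    have hvn : v ≠ -v' := fun h => hne (by rw [h, hsym])
    have h := hG v v' hv hv'
    rw [if_neg hvv, if_neg hvn] at h
    obtain ⟨hx, h1⟩ := hF1 v hv
    obtain ⟨hx', h1'⟩ := hF1 v' hv'
    have hr1 : r v v' = 1 := by
      rcases hx with hx | hx <;> rcases hx' with hx' | hx' <;> rw [hx, hx'] at h hne
      · exact absurd rfl hne
      · linarith
      · linarith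
      · exact absurd rfl hne
    have hsq : ∑ i ∈ R, (A i v - A i v') * (A i v - A i v') = 0 := by
      have e : ∀ i, (A i v - A i v') * (A i v - A i v') =
          A i v * A i v - 2 * (A i v * A i v') + A i v' * A i v' := by
        intro i
        ring
      simp only [e, Finset.sum_add_distrib, Finset.sum_sub_distrib, ← Finset.mul_sum, ← hr]
      rw [h1, h1', hr1]
      norm_num
    intro i hi
    have h0 := (Finset.sum_eq_zero_iff_of_nonneg (fun i _ => mul_self_nonneg _)).mp hsq i hi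
    have h00 := mul_self_eq_zero.mp h0
    linarith
  -- F4
  have hF4 : ∀ v v' : ZMod p, v ≠ 0 → v' ≠ 0 → A i₁ v = A i₁ v' → v ≠ v' → v ≠ -v' →
      r v v' = 0 := by
    intro v v' hv hv' he hvv hvn
    have h := hG v v' hv hv'
    rw [if_neg hvv, if_neg hvn] at h
    obtain ⟨hx, -⟩ := hF1 v hv
    rw [← he] at h
    rcases hx with hx | hx <;> rw [hx] at h <;> linarith
  -- F5'
  have hF5' : ∀ v v' v'' : ZMod p, v ≠ 0 → v' ≠ 0 → v'' ≠ 0 → A i₁ v ≠ A i₁ v' →
      A i₁ v'' = A i₁ v → v'' ≠ v → v'' ≠ -v → False := by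
    intro v v' v'' hv hv' hv'' hne he h1 h2
    have e1 := hF3 v v' hv hv' hne
    have e2 := hF3 v'' v' hv'' hv' (by rw [he]; exact hne)
    have e3 : r v'' v = r v v := by
      rw [hr, hr]
      apply Finset.sum_congr rfl
      intro i hi
      rw [e2 i hi, e1 i hi]
    have e4 := hF4 v'' v hv'' hv he h1 h2
    have e5 := (hF1 v hv).2
    omega
  -- F5
  have hF5 : ∀ v v' : ZMod p, v ≠ 0 → v' ≠ 0 → A i₁ v = A i₁ v' := by
    intro v v' hv hv'
    by_contra hne
    have hc : ({0, v, -v, v', -v'} : Finset (ZMod p)).card < (Finset.univ : Finset (ZMod p)).card := by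
      have := Finset.card_le_five (a := (0 : ZMod p)) (b := v) (c := -v) (d := v') (e := -v')
      rw [Finset.card_univ, ZMod.card]
      omega
    obtain ⟨v'', -, hv''⟩ := Finset.exists_mem_notMem_of_card_lt_card hc
    simp only [Finset.mem_insert, Finset.mem_singleton, not_or] at hv''
    obtain ⟨n0, n1, n2, n3, n4⟩ := hv''
    obtain ⟨hx, -⟩ := hF1 v hv
    obtain ⟨hx', -⟩ := hF1 v' hv'
    obtain ⟨hx'', -⟩ := hF1 v'' n0
    have hcase : A i₁ v'' = A i₁ v ∨ A i₁ v'' = A i₁ v' := by omega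
    rcases hcase with hcase | hcase
    · exact hF5' v v' v'' hv hv' n0 hne hcase n1 n2
    · exact hF5' v' v v'' hv' hv n0 (fun h => hne h.symm) hcase n3 n4
  -- F6: the pair (k, l)
  have h10 : (1 : ZMod p) ≠ 0 := one_ne_zero
  obtain ⟨k, l, hk1, hl0, hCkl, hsplit'⟩ : ∃ k l : ι, (∀ v : ZMod p, v ≠ 0 → A k v = 1) ∧
      (∀ v : ZMod p, v ≠ 0 → A l v = 0) ∧ C k + C l = 1 ∧
      (∀ f : ι → ℤ, ∑ i, f i = f i₀ + f k + f l + ∑ i ∈ R, f i) := by
    rcases (hF1 1 h10).1 with hx | hx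
    · refine ⟨i₂, i₁, ?_, ?_, by linarith, ?_⟩
      · intro v hv
        have := hF5 v 1 hv h10
        have := h12a v hv
        linarith
      · intro v hv
        have := hF5 v 1 hv h10
        linarith
      · intro f
        rw [hsplit f]
        ring
    · refine ⟨i₁, i₂, ?_, ?_, h12c, hsplit⟩
      · intro v hv
        have := hF5 v 1 hv h10
        linarith
      · intro v hv
        have := hF5 v 1 hv h10
        have := h12a v hv
        linarith
  -- F7
  have hsum1 : ∑ v : ZMod p, (if v = 0 then (0:ℤ) else 1) = (p : ℤ) - 1 := by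
    have e : ∀ v : ZMod p, (if v = 0 then (0:ℤ) else 1) = 1 - (if v = 0 then 1 else 0) := by
      intro v
      split_ifs <;> simp
    simp only [e, Finset.sum_sub_distrib, Finset.sum_const, Finset.card_univ, ZMod.card,
      Finset.sum_ite_eq', Finset.mem_univ, if_true, mul_one, nsmul_eq_mul]
  have hDl : D l = (p : ℤ) * C l := by
    have h := hdeg l
    have e : ∑ v : ZMod p, (if v = 0 then (0:ℤ) else A l v) = 0 := by
      apply Finset.sum_eq_zero
      intro v _
      split_ifs with hv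
      · rfl
      · exact hl0 v hv
    rw [e, add_zero] at h
    exact h
  have hCl : C l = 1 := by
    have h1 := hD l
    rw [hDl] at h1
    have hp0 : (0 : ℤ) < p := by exact_mod_cast hpp.pos
    have h2 : 0 < C l := by
      by_contra hcon
      push_neg at hcon
      nlinarith
    have h3 := hC k
    omega
  have hCk : C k = 0 := by omega
  have hDk : D k = (p : ℤ) - 1 := by
    have h := hdeg k
    have e : ∑ v : ZMod p, (if v = 0 then (0:ℤ) else A k v) = (p : ℤ) - 1 := by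
      rw [← hsum1]
      apply Finset.sum_congr rfl
      intro v _
      split_ifs with hv
      · rfl
      · exact hk1 v hv
    rw [e, hCk] at h
    linarith
  -- F8
  have hr11 := (hF1 1 h10).2
  rw [hr] at hr11
  obtain ⟨j, hjR, hj0⟩ : ∃ j ∈ R, A j 1 ≠ 0 := by
    by_contra hcon
    push_neg at hcon
    have : ∑ i ∈ R, A i 1 * A i 1 = 0 := by
      apply Finset.sum_eq_zero
      intro i hi
      rw [hcon i hi]
      ring
    omega
  have hsp := Finset.add_sum_erase R (fun i => A i 1 * A i 1) hjR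
  have hnn : 0 ≤ ∑ i ∈ R.erase j, A i 1 * A i 1 :=
    Finset.sum_nonneg (fun i _ => mul_self_nonneg _)
  have hjpos : 1 ≤ A j 1 * A j 1 := by
    have : 0 < A j 1 * A j 1 := mul_self_pos.mpr hj0
    omega
  have hj1 : A j 1 * A j 1 = 1 := by omega
  have hrest0 : ∑ i ∈ R.erase j, A i 1 * A i 1 = 0 := by omega
  have hrest : ∀ i ∈ R.erase j, A i 1 = 0 := by
    intro i hi
    have h0 := (Finset.sum_eq_zero_iff_of_nonneg (fun i _ => mul_self_nonneg _)).mp hrest0 i hi
    exact mul_self_eq_zero.mp h0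
  have hjv : ∀ v : ZMod p, v ≠ 0 → v ≠ 1 → v ≠ -1 → A j v = 0 := by
    intro v hv hv1 hvm
    have h4 := hF4 1 v h10 hv (hF5 1 v h10 hv) (fun h => hv1 h.symm)
      (fun h => hvm (by rw [h, neg_neg]))
    rw [hr, ← Finset.add_sum_erase R _ hjR] at h4
    have e : ∑ i ∈ R.erase j, A i 1 * A i v = 0 := by
      apply Finset.sum_eq_zero
      intro i hi
      rw [hrest i hi]
      ring
    rw [e, add_zero] at h4
    rcases mul_eq_zero.mp h4 with h5 | h5
    · exact absurd h5 hj0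
    · exact h5
  -- F9
  have h9 := hdeg0 1 h10
  rw [hsplit', h0a 1 h10, hk1 1 h10, hl0 1 h10, ← Finset.add_sum_erase R _ hjR, h0d, hDk] at h9
  have e9 : ∑ i ∈ R.erase j, D i * A i 1 = 0 := by
    apply Finset.sum_eq_zero
    intro i hi
    rw [hrest i hi]
    ring
  rw [e9] at h9
  have hDj := hD j
  have hp5 : (5 : ℤ) < p := by exact_mod_cast hp
  have hjpm : A j 1 = 1 ∨ A j 1 = -1 := by
    have h5 : (A j 1 - 1) * (A j 1 + 1) = 0 := by linarith
    rcases mul_eq_zero.mp h5 with h6 | h6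
    · left; linarith
    · right; linarith
  have hjm : A j 1 = -1 := by
    rcases hjpm with h6 | h6
    · rw [h6] at h9
      linarith
    · exact h6
  rw [hjm] at h9
  refine ⟨j, by linarith, ?_⟩
  intro v hv
  split_ifs with h
  · rcases h with h | h
    · rw [h, hjm]
    · rw [h, hsym, hjm]
  · push_neg at h
    exact hjv v hv h.1 h.2

/-- PIECE CORE -/
theorem core {ι : Type*} [Fintype ι] [DecidableEq ι] (p : ℕ) [Fact p.Prime] (hp : 5 < p)
    (a : ι → ZMod p → ℂ) (c d : ι → ℂ) (i₀ i₁ i₂ : ι) (h01 : i₁ ≠ i₀) (h02 : i₂ ≠ i₀)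
    (h12 : i₁ ≠ i₂)
    (haz : ∀ i v, ∃ n : ℤ, a i v = (n : ℂ))
    (hcn : ∀ i, ∃ n : ℕ, c i = (n : ℂ))
    (hdn : ∀ i, ∃ n : ℕ, 0 < n ∧ d i = (n : ℂ))
    (hsym : ∀ i v, a i (-v) = a i v)
    (hgram : ∀ v v' : ZMod p, v ≠ 0 → v' ≠ 0 →
      ∑ i, a i v * a i v' = (if v = v' then 1 else 0) + (if v = -v' then 1 else 0) + 2)
    (hdeg0 : ∀ v : ZMod p, v ≠ 0 → ∑ i, d i * a i v = 0)
    (hdeg : ∀ i, d i = (p : ℂ) * c i + ∑ v : ZMod p, (if v = 0 then 0 else a i v))
    (h0a : ∀ v : ZMod p, v ≠ 0 → a i₀ v = -1) (h0d : d i₀ = 1)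
    (h12a : ∀ v : ZMod p, v ≠ 0 → a i₁ v + a i₂ v = 1) (h12c : c i₁ + c i₂ = 1) :
    ∃ j : ι, d j = (p : ℂ) - 2 ∧
      ∀ v : ZMod p, v ≠ 0 → a j v = if v = 1 ∨ v = -1 then -1 else 0 := by
  classical
  choose A hA using haz
  choose C hC using hcn
  choose D hD0 hD using hdn
  have key := core_int p hp A (fun i => (C i : ℤ)) (fun i => (D i : ℤ)) i₀ i₁ i₂ h01 h02 h12
    (fun i => Int.natCast_nonneg _) (fun i => by exact_mod_cast hD0 i)
    (by
      intro i v
      have h := hsym i v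
      rw [hA, hA] at h
      exact_mod_cast h)
    (by
      intro v v' hv hv'
      have h := hgram v v' hv hv'
      simp only [hA] at h
      have e1 : (if v = v' then (1:ℂ) else 0) = (((if v = v' then (1:ℤ) else 0) : ℤ) : ℂ) := by
        split_ifs <;> simp
      have e2 : (if v = -v' then (1:ℂ) else 0) = (((if v = -v' then (1:ℤ) else 0) : ℤ) : ℂ) := by
        split_ifs <;> simp
      rw [e1, e2] at h
      exact_mod_cast h)
    (by
      intro v hv
      have h := hdeg0 v hv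
      simp only [hA, hD] at h
      exact_mod_cast h)
    (by
      intro i
      have h := hdeg i
      rw [hD i, hC i] at h
      have h2 : ∀ v : ZMod p, (if v = 0 then (0:ℂ) else a i v) =
          (((if v = 0 then (0:ℤ) else A i v) : ℤ) : ℂ) := by
        intro v
        split_ifs <;> simp [hA]
      simp only [h2] at h
      exact_mod_cast h)
    (by
      intro v hv
      have h := h0a v hv
      rw [hA] at h
      exact_mod_cast h)
    (by
      have h := h0d
      rw [hD] at h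
      exact_mod_cast h)
    (by
      intro v hv
      have h := h12a v hv
      rw [hA, hA] at h
      exact_mod_cast h)
    (by
      have h := h12c
      rw [hC, hC] at h
      exact_mod_cast h)
  obtain ⟨j, hj, hjv⟩ := key
  refine ⟨j, ?_, ?_⟩
  · rw [hD j]
    have h : (((D j : ℕ) : ℤ) : ℂ) = (((p : ℤ) - 2 : ℤ) : ℂ) := by rw [hj]
    push_cast at h
    exact h
  · intro v hv
    rw [hA j v, hjv v hv]
    split_ifs <;> simp

end Cfsg.Agent.Lib.Helper22.W2
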