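import Mathlib
import Cfsg.Prelude.Def_Characters

/-!
# S4707 project (helper22, "W2"): definitions

* `fc p w z χ u`: the Fourier coefficient of `t ↦ χ (z ^ t)` (`w` a primitive `p`-th root of unity);
* `Loc2 G p z`: `z` of order `p`, `C_G(z) = ⟨z⟩`, `z ∼ z⁻¹`, and `z ^ k ∼ z → k = ± 1`;
* `adj G x y`: `y ≠ x` and the orbit of `y` under the stabilizer of `x` has 3 points;
* `Nb G`: every point has 3 neighbours, one orbit of the stabilizer; the non-neighbours are one orbit;
* `fixc G g`: the number of fixed points of `g`;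
* `Kx G x`: the elements of `G` fixing `x` and all its neighbours.
-/

set_option autoImplicit false

namespace Cfsg.Agent.Lib.Helper22.W2

open Cfsg
open scoped ComplexConjugate

universe u

/-- Fourier coefficient of `t ↦ χ (z ^ t)`. -/
noncomputable def fc {G : Type u} [Group G] (p : ℕ) [Fact p.Prime] (w : ℂ) (z : G) (χ : G → ℂ)
    (u : ZMod p) : ℂ :=
  (p : ℂ)⁻¹ * ∑ t : ZMod p, conj (w ^ (u * t).val) * χ (z ^ t.val)

/-- The local hypotheses. -/
structure Loc2 (G : Type u) [Group G] (p : ℕ) [Fact p.Prime] (z : G) : Prop where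
  ord : orderOf z = p
  cen : Subgroup.centralizer ({z} : Set G) = Subgroup.zpowers z
  inv : ∃ n : G, n * z * n⁻¹ = z⁻¹
  cnj : ∀ k : ZMod p, IsConj (z ^ k.val) z → k = 1 ∨ k = -1

/-- Adjacency: the orbit of `y` under the stabilizer of `x` has exactly 3 points. -/
def adj {α : Type*} (G : Subgroup (Equiv.Perm α)) (x y : α) : Prop :=
  y ≠ x ∧ Nat.card (MulAction.orbit (MulAction.stabilizer G x) y) = 3

/-- Every point has exactly 3 neighbours, forming one orbit of its stabilizer, and the
non-neighbours form one orbit of the stabilizer. -/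
def Nb {α : Type*} (G : Subgroup (Equiv.Perm α)) : Prop :=
  ∀ x : α, Nat.card {y : α // adj G x y} = 3 ∧
    (∀ y y' : α, adj G x y → adj G x y' → ∃ h : G, h • x = x ∧ h • y = y') ∧
    (∀ y y' : α, y ≠ x → y' ≠ x → ¬ adj G x y → ¬ adj G x y' → ∃ h : G, h • x = x ∧ h • y = y')

/-- The number of fixed points. -/
noncomputable def fixc {α : Type*} [Fintype α] [DecidableEq α] (G : Subgroup (Equiv.Perm α))
    (g : G) : ℂ :=
  ((Finset.univ.filter (fun a : α => (g : Equiv.Perm α) a = a)).card : ℂ)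

/-- The elements of `G` fixing `x` and all its neighbours. -/
def Kx {α : Type*} (G : Subgroup (Equiv.Perm α)) (x : α) : Subgroup G where
  carrier := {g | g • x = x ∧ ∀ y, adj G x y → g • y = y}
  mul_mem' := by
    rintro g h ⟨hg1, hg2⟩ ⟨hh1, hh2⟩
    refine ⟨?_, fun y hy => ?_⟩
    · rw [mul_smul, hh1, hg1]
    · rw [mul_smul, hh2 y hy, hg2 y hy]
  one_mem' := ⟨one_smul _ _, fun y _ => one_smul _ _⟩
  inv_mem' := by
    rintro g ⟨hg1, hg2⟩
    refine ⟨?_, fun y hy => ?_⟩
    · rw [inv_smul_eq_iff, hg1]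
    · rw [inv_smul_eq_iff, hg2 y hy]

end Cfsg.Agent.Lib.Helper22.W2
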